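import Cfsg.Agent.Lib.ClassGeo.Symp
import Cfsg.Prelude.Def_GeometricClasses

/-! Components with respect to a direct sum decomposition and the weight function. -/

set_option autoImplicit false
set_option linter.unusedSimpArgs false
set_option linter.unusedVariables false
set_option linter.unusedSectionVars false
set_option linter.style.haveILetI false

namespace CfsgLib.ClassMax.Decomp

open Matrix Cfsg Cfsg.Geo

variable {ι : Type} [Fintype ι] [DecidableEq ι] {F : Type*} [Field F] {t m : ℕ}
  {D : Fin t → Submodule F (ι → F)}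

theorem isInternal (hD : IsMDecomposition m D) : DirectSum.IsInternal D :=
  DirectSum.isInternal_submodule_of_iSupIndep_of_iSup_eq_top hD.indep hD.iSup_eq_top

/-- The isomorphism between the external direct sum and the whole space. -/
noncomputable def eqv (hD : IsMDecomposition m D) : (DirectSum (Fin t) (fun i => D i)) ≃ₗ[F] (ι → F) :=
  LinearEquiv.ofBijective (DirectSum.coeLinearMap D) (isInternal hD)

/-- The component along `D i`. -/
noncomputable def comp (hD : IsMDecomposition m D) (i : Fin t) : (ι → F) →ₗ[F] (ι → F) :=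
  (D i).subtype ∘ₗ (DirectSum.component F (Fin t) (fun i => D i) i) ∘ₗ (eqv hD).symm.toLinearMap

theorem comp_mem (hD : IsMDecomposition m D) (i : Fin t) (x : ι → F) : comp hD i x ∈ D i := by
  simp [comp]

theorem eqv_lof (hD : IsMDecomposition m D) (i : Fin t) (y : D i) :
    eqv hD (DirectSum.lof F (Fin t) (fun i => D i) i y) = y := by
  show DirectSum.coeLinearMap D (DirectSum.lof F (Fin t) (fun i => D i) i y) = y
  exact DirectSum.coeLinearMap_lof D i y

theorem comp_same (hD : IsMDecomposition m D) {i : Fin t} {y : ι → F} (hy : y ∈ D i) : comp hD i y = y := by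
  have h1 := eqv_lof hD i ⟨y, hy⟩
  have h2 : (eqv hD).symm y = DirectSum.lof F (Fin t) (fun i => D i) i ⟨y, hy⟩ :=
    (LinearEquiv.symm_apply_eq _).mpr h1.symm
  simp only [comp, LinearMap.comp_apply, LinearEquiv.coe_coe, h2, DirectSum.component.lof_self]
  rfl

theorem comp_ne (hD : IsMDecomposition m D) {i j : Fin t} {y : ι → F} (hy : y ∈ D i) (hij : i ≠ j) :
    comp hD j y = 0 := by
  have h1 := eqv_lof hD i ⟨y, hy⟩
  have h2 : (eqv hD).symm y = DirectSum.lof F (Fin t) (fun i => D i) i ⟨y, hy⟩ :=
    (LinearEquiv.symm_apply_eq _).mpr h1.symm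
  simp only [comp, LinearMap.comp_apply, LinearEquiv.coe_coe, h2]
  rw [DirectSum.component.of]
  simp [hij]

theorem sum_comp (hD : IsMDecomposition m D) (x : ι → F) : ∑ i, comp hD i x = x := by
  obtain ⟨z, rfl⟩ := (eqv hD).surjective x
  induction z using DirectSum.induction_on with
  | zero => simp
  | of i y =>
    have h1 := eqv_lof hD i y
    have h2 : (DirectSum.of (fun i => D i) i) y = DirectSum.lof F (Fin t) (fun i => D i) i y := rfl
    rw [h2, h1, Finset.sum_eq_single i]
    · exact comp_same hD y.2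
    · intro j _ hj
      exact comp_ne hD y.2 hj.symm
    · simp
  | add a b ha hb =>
    rw [map_add]
    simp only [map_add, Finset.sum_add_distrib]
    rw [ha, hb]

theorem comp_sum (hD : IsMDecomposition m D) (y : Fin t → ι → F) (hy : ∀ i, y i ∈ D i) (i : Fin t) :
    comp hD i (∑ j, y j) = y i := by
  rw [map_sum, Finset.sum_eq_single i]
  · exact comp_same hD (hy i)
  · intro j _ hj
    exact comp_ne hD (hy j) hj
  · simp

theorem card_eq (hD : IsMDecomposition m D) : t * m = Fintype.card ι := by
  have h1 := (eqv hD).finrank_eq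
  rw [Module.finrank_directSum] at h1
  simp only [hD.finrank_eq, Finset.sum_const, Finset.card_univ, Fintype.card_fin, smul_eq_mul] at h1
  rw [h1, Module.finrank_fintype_fun_eq_card]

/-- The characteristic function of the non zero vectors. -/
noncomputable def nu (F : Type*) [Field F] {ι : Type} (y : ι → F) : F := by
  classical
  exact if y = 0 then 0 else 1

theorem nu_zero {ι : Type} : nu F (0 : ι → F) = 0 := by simp [nu]

theorem nu_ne {ι : Type} {y : ι → F} (h : y ≠ 0) : nu F y = 1 := by simp [nu, h]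

/-- The weight (in the field). -/
noncomputable def wt (hD : IsMDecomposition m D) (x : ι → F) : F := ∑ i, nu F (comp hD i x)

/-- Components of the image under an element of the stabiliser. -/
theorem comp_stab (hD : IsMDecomposition m D) (g : Matrix.GeneralLinearGroup ι F) (σ : Equiv.Perm (Fin t))
    (hσ : ∀ i, (D i).map (Matrix.toLin' (g : Matrix ι ι F)) = D (σ i)) (x : ι → F) (i : Fin t) :
    comp hD (σ i) ((g : Matrix ι ι F) *ᵥ x) = (g : Matrix ι ι F) *ᵥ comp hD i x := by
  have hmem : ∀ j, (g : Matrix ι ι F) *ᵥ comp hD (σ.symm j) x ∈ D j := by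
    intro j
    have h1 := hσ (σ.symm j)
    rw [Equiv.apply_symm_apply] at h1
    rw [← h1]
    exact Submodule.mem_map.mpr ⟨_, comp_mem hD _ x, by simp⟩
  have hsum : (g : Matrix ι ι F) *ᵥ x = ∑ j, (g : Matrix ι ι F) *ᵥ comp hD (σ.symm j) x := by
    conv_lhs => rw [← sum_comp hD x]
    rw [Matrix.mulVec_sum]
    exact (Equiv.sum_comp σ.symm (fun i => (g : Matrix ι ι F) *ᵥ comp hD i x)).symm
  rw [hsum, comp_sum hD _ hmem]
  simp

theorem mulVec_eq_zero_iff (g : Matrix.GeneralLinearGroup ι F) (y : ι → F) :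
    (g : Matrix ι ι F) *ᵥ y = 0 ↔ y = 0 := by
  constructor
  · intro h
    have h1 := congrArg (fun z => ((g⁻¹ : Matrix.GeneralLinearGroup ι F) : Matrix ι ι F) *ᵥ z) h
    simpa [Matrix.mulVec_mulVec, ← Units.val_mul] using h1
  · rintro rfl
    simp

theorem nu_mulVec (g : Matrix.GeneralLinearGroup ι F) (y : ι → F) :
    nu F ((g : Matrix ι ι F) *ᵥ y) = nu F y := by
  by_cases h : y = 0
  · rw [h]
    simp
  · rw [nu_ne h, nu_ne (fun h2 => h ((mulVec_eq_zero_iff g y).mp h2))]

theorem wt_stab (hD : IsMDecomposition m D) {g : Matrix.GeneralLinearGroup ι F}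
    (hg : g ∈ decompositionStabilizer D) (x : ι → F) : wt hD ((g : Matrix ι ι F) *ᵥ x) = wt hD x := by
  obtain ⟨σ, hσ⟩ := hg
  unfold wt
  rw [← Equiv.sum_comp σ]
  refine Finset.sum_congr rfl fun i _ => ?_
  rw [comp_stab hD g σ hσ, nu_mulVec]

/-- The stabiliser of the weight function. -/
def wtStab (hD : IsMDecomposition m D) : Subgroup (Matrix.GeneralLinearGroup ι F) where
  carrier := {g | ∀ x, wt hD ((g : Matrix ι ι F) *ᵥ x) = wt hD x}
  mul_mem' := by
    intro a b ha hb x
    rw [Units.val_mul, ← Matrix.mulVec_mulVec, ha, hb]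
  one_mem' := by
    intro x
    simp
  inv_mem' := by
    intro a ha x
    have h := ha (((a⁻¹ : Matrix.GeneralLinearGroup ι F) : Matrix ι ι F) *ᵥ x)
    rw [Matrix.mulVec_mulVec, ← Units.val_mul, mul_inv_cancel, Units.val_one, Matrix.one_mulVec] at h
    exact h.symm

theorem stab_le_wtStab (hD : IsMDecomposition m D) : decompositionStabilizer D ≤ wtStab hD :=
  fun _ hg x => wt_stab hD hg x

/-- An element of a single summand with two non zero components cannot be the image of a vector of a summand
under the stabiliser. -/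
theorem not_stab_of_two_comp (hD : IsMDecomposition m D) (g : Matrix.GeneralLinearGroup ι F) {i i₁ i₂ : Fin t}
    {x : ι → F} (hx : x ∈ D i) (h12 : i₁ ≠ i₂) (h1 : comp hD i₁ ((g : Matrix ι ι F) *ᵥ x) ≠ 0)
    (h2 : comp hD i₂ ((g : Matrix ι ι F) *ᵥ x) ≠ 0) : g ∉ decompositionStabilizer D := by
  rintro ⟨σ, hσ⟩
  have hmem : (g : Matrix ι ι F) *ᵥ x ∈ D (σ i) := by
    rw [← hσ i]
    exact Submodule.mem_map.mpr ⟨x, hx, by simp⟩
  by_cases h : σ i = i₁
  · apply h2
    apply comp_ne hD hmem
    rw [h]
    exact h12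
  · apply h1
    exact comp_ne hD hmem h

theorem exists_ne_zero (hD : IsMDecomposition m D) (i : Fin t) : ∃ v ∈ D i, v ≠ 0 := by
  have h := hD.finrank_eq i
  have hpos := hD.pos
  by_contra hno
  push Not at hno
  have h2 : D i = ⊥ := (Submodule.eq_bot_iff _).mpr hno
  rw [h2, finrank_bot] at h
  omega

end CfsgLib.ClassMax.Decomp
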