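import Cfsg.Agent.Lib.ClassMax.DecompSp

/-! Monomial subgroups of `SL_n` for small fields are not maximal. -/

set_option autoImplicit false
set_option linter.unusedSimpArgs false
set_option linter.unusedVariables false
set_option linter.unusedSectionVars false
set_option linter.style.haveILetI false

namespace CfsgLib.ClassMax.Decomp

open Matrix Cfsg Cfsg.Geo

variable {ι : Type} [Fintype ι] [DecidableEq ι] {F : Type*} [Field F] {t m : ℕ}
  {D : Fin t → Submodule F (ι → F)}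

/-- The vector representing a linear functional. -/
noncomputable def fvec (s : (ι → F) →ₗ[F] F) : ι → F := fun j => s (Pi.single j 1)

theorem fvec_dot (s : (ι → F) →ₗ[F] F) (x : ι → F) : x ⬝ᵥ fvec s = s x := by
  have h1 : x = ∑ j, x j • (Pi.single j (1 : F) : ι → F) := by
    ext i
    simp [Finset.sum_apply, Pi.single_apply]
  conv_rhs => rw [h1, map_sum]
  simp [dotProduct, fvec]

noncomputable def elM (s : (ι → F) →ₗ[F] F) (u : ι → F) : Matrix ι ι F := 1 + vecMulVec u (fvec s)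

theorem elM_mulVec (s : (ι → F) →ₗ[F] F) (u x : ι → F) : elM s u *ᵥ x = x + s x • u := by
  rw [elM, add_mulVec, one_mulVec, CfsgLib.ClassGeo.vecMulVec_mulVec', dotProduct_comm, fvec_dot]

theorem elM_det (s : (ι → F) →ₗ[F] F) (u : ι → F) : (elM s u).det = 1 + s u := by
  rw [elM, vecMulVec_eq Unit, det_one_add_replicateCol_mul_replicateRow, dotProduct_comm, fvec_dot]

/-- The element `x ↦ x + s(x) u` of the general linear group. -/
noncomputable def elG (s : (ι → F) →ₗ[F] F) (u : ι → F) (h : 1 + s u ≠ 0) : Matrix.GeneralLinearGroup ι F :=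
  Matrix.GeneralLinearGroup.mkOfDetNeZero (elM s u) (by rw [elM_det]; exact h)

theorem elG_mulVec (s : (ι → F) →ₗ[F] F) (u : ι → F) (h : 1 + s u ≠ 0) (x : ι → F) :
    ((elG s u h : Matrix.GeneralLinearGroup ι F) : Matrix ι ι F) *ᵥ x = x + s x • u :=
  elM_mulVec s u x

theorem elG_det (s : (ι → F) →ₗ[F] F) (u : ι → F) (h : 1 + s u ≠ 0) :
    ((Matrix.GeneralLinearGroup.det (elG s u h) : Fˣ) : F) = 1 + s u := by
  show (elM s u).det = _
  exact elM_det s u

theorem elG_mem_SL (s : (ι → F) →ₗ[F] F) (u : ι → F) (h0 : s u = 0) (h : 1 + s u ≠ 0) :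
    elG s u h ∈ specialLinear ι F := by
  show Matrix.GeneralLinearGroup.det (elG s u h) = 1
  apply Units.ext
  rw [elG_det, h0, add_zero]
  rfl

variable (hD : IsMDecomposition m D)

/-- A basis of the `i`-th summand. -/
noncomputable def ebas (i : Fin t) : Module.Basis (Fin m) F (D i) :=
  Module.finBasisOfFinrankEq F (D i) (hD.finrank_eq i)

/-- Coordinates. -/
noncomputable def coord (i : Fin t) (k : Fin m) : (ι → F) →ₗ[F] F :=
  ((ebas hD i).coord k) ∘ₗ ((comp hD i).codRestrict (D i) (comp_mem hD i))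

noncomputable def bv (i : Fin t) (k : Fin m) : ι → F := (ebas hD i k : D i)

theorem bv_mem (i : Fin t) (k : Fin m) : bv hD i k ∈ D i := (ebas hD i k).2

theorem coord_bv_same (i : Fin t) (k l : Fin m) : coord hD i k (bv hD i l) = if l = k then 1 else 0 := by
  have h1 : ((comp hD i).codRestrict (D i) (comp_mem hD i)) (bv hD i l) = ebas hD i l := by
    apply Subtype.ext
    exact comp_same hD (bv_mem hD i l)
  show ((ebas hD i).coord k) (((comp hD i).codRestrict (D i) (comp_mem hD i)) (bv hD i l)) = _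
  rw [h1, Module.Basis.coord_apply, Module.Basis.repr_self, Finsupp.single_apply]

theorem coord_bv_ne {i j : Fin t} (hij : i ≠ j) (k l : Fin m) : coord hD j k (bv hD i l) = 0 := by
  have h1 : ((comp hD j).codRestrict (D j) (comp_mem hD j)) (bv hD i l) = 0 := by
    apply Subtype.ext
    exact comp_ne hD (bv_mem hD i l) hij
  show ((ebas hD j).coord k) (((comp hD j).codRestrict (D j) (comp_mem hD j)) (bv hD i l)) = _
  rw [h1, map_zero]

theorem comp_eq_zero_iff (i : Fin t) (x : ι → F) : comp hD i x = 0 ↔ ∀ k, coord hD i k x = 0 := by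
  constructor
  · intro h k
    have h1 : ((comp hD i).codRestrict (D i) (comp_mem hD i)) x = 0 := by
      apply Subtype.ext
      exact h
    show ((ebas hD i).coord k) (((comp hD i).codRestrict (D i) (comp_mem hD i)) x) = _
    rw [h1, map_zero]
  · intro h
    have h1 : ((comp hD i).codRestrict (D i) (comp_mem hD i)) x = 0 := by
      apply (ebas hD i).ext_elem
      intro k
      have := h k
      simpa [coord] using this
    exact congrArg Subtype.val h1

theorem nu_of_coord (i : Fin t) (x : ι → F) (h : ∃ k, coord hD i k x ≠ 0) : nu F (comp hD i x) = 1 := by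
  apply nu_ne
  intro h0
  obtain ⟨k, hk⟩ := h
  exact hk ((comp_eq_zero_iff hD i x).mp h0 k)

theorem wt_bv (i : Fin t) (k : Fin m) : wt hD (bv hD i k) = 1 := by
  unfold wt
  rw [Finset.sum_eq_single i]
  · apply nu_of_coord
    exact ⟨k, by rw [coord_bv_same]; simp⟩
  · intro j _ hj
    rw [comp_ne hD (bv_mem hD i k) hj.symm, nu_zero]
  · simp

theorem wt_bv_add {i j : Fin t} (hij : i ≠ j) (k : Fin m) : wt hD (bv hD i k + bv hD j k) = 1 + 1 := by
  unfold wt
  rw [Finset.sum_eq_add i j hij]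
  · congr 1
    · rw [map_add, comp_same hD (bv_mem hD i k), comp_ne hD (bv_mem hD j k) hij.symm, add_zero]
      apply nu_ne
      intro h0
      have := (comp_eq_zero_iff hD i _).mp ((comp_same hD (bv_mem hD i k)).trans h0) k
      rw [coord_bv_same] at this
      simp at this
    · rw [map_add, comp_same hD (bv_mem hD j k), comp_ne hD (bv_mem hD i k) hij, zero_add]
      apply nu_ne
      intro h0
      have := (comp_eq_zero_iff hD j _).mp ((comp_same hD (bv_mem hD j k)).trans h0) k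
      rw [coord_bv_same] at this
      simp at this
  · intro c _ hc
    rw [map_add, comp_ne hD (bv_mem hD i k) hc.1.symm, comp_ne hD (bv_mem hD j k) hc.2.symm, add_zero, nu_zero]
  · simp
  · simp

/-- The element which is not in the weight stabiliser. -/
theorem exists_not_wt {i j : Fin t} (hij : i ≠ j) (k : Fin m) :
    ∃ g ∈ specialLinear ι F, g ∉ wtStab hD := by
  have h0 : coord hD i k (bv hD j k) = 0 := coord_bv_ne hD hij.symm k k
  have h1 : 1 + coord hD i k (bv hD j k) ≠ 0 := by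
    rw [h0, add_zero]
    exact one_ne_zero
  refine ⟨elG (coord hD i k) (bv hD j k) h1, elG_mem_SL _ _ h0 h1, ?_⟩
  intro h
  have h2 := h (bv hD i k)
  rw [elG_mulVec, coord_bv_same, if_pos rfl, one_smul, wt_bv_add hD hij, wt_bv] at h2
  have h3 : (1 : F) = 0 := add_eq_left.mp h2
  exact one_ne_zero h3

theorem final_GL {g₁ : Matrix.GeneralLinearGroup ι F} (h1 : g₁ ∈ specialLinear ι F) (h2 : g₁ ∈ wtStab hD)
    (h3 : g₁ ∉ decompositionStabilizer D) {i j : Fin t} (hij : i ≠ j) (k : Fin m) :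
    ∃ K : Subgroup (Matrix.GeneralLinearGroup ι F),
      decompositionStabilizer D ⊓ specialLinear ι F < K ∧ K < specialLinear ι F := by
  obtain ⟨g₂, hg₂, hg₂'⟩ := exists_not_wt hD hij k
  refine ⟨specialLinear ι F ⊓ wtStab hD, ?_, ?_⟩
  · rw [SetLike.lt_iff_le_and_exists]
    constructor
    · rintro g ⟨h4, h5⟩
      exact ⟨h5, stab_le_wtStab hD h4⟩
    · exact ⟨g₁, ⟨h1, h2⟩, fun h => h3 h.1⟩
  · rw [SetLike.lt_iff_le_and_exists]
    exact ⟨inf_le_left, g₂, hg₂, fun h => hg₂' h.2⟩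

section Special

theorem sum_four {A : Type*} [AddCommMonoid A] {i0 i1 i2 i3 : Fin t} (h01 : i0 ≠ i1) (h02 : i0 ≠ i2)
    (h03 : i0 ≠ i3) (h12 : i1 ≠ i2) (h13 : i1 ≠ i3) (h23 : i2 ≠ i3) (d : Fin t → A)
    (hd : ∀ i, i ≠ i0 → i ≠ i1 → i ≠ i2 → i ≠ i3 → d i = 0) : ∑ i, d i = d i0 + d i1 + d i2 + d i3 := by
  classical
  rw [← Finset.sum_subset (Finset.subset_univ ({i0, i1, i2, i3} : Finset (Fin t)))]
  · rw [Finset.sum_insert (by simp [h01, h02, h03]), Finset.sum_insert (by simp [h12, h13]),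
      Finset.sum_insert (by simp [h23]), Finset.sum_singleton]
    abel
  · intro i _ hi
    simp only [Finset.mem_insert, Finset.mem_singleton, not_or] at hi
    exact hd i hi.1 hi.2.1 hi.2.2.1 hi.2.2.2

theorem sum_three {A : Type*} [AddCommMonoid A] {i0 i1 i2 : Fin t} (h01 : i0 ≠ i1) (h02 : i0 ≠ i2)
    (h12 : i1 ≠ i2) (d : Fin t → A)
    (hd : ∀ i, i ≠ i0 → i ≠ i1 → i ≠ i2 → d i = 0) : ∑ i, d i = d i0 + d i1 + d i2 := by
  classical
  rw [← Finset.sum_subset (Finset.subset_univ ({i0, i1, i2} : Finset (Fin t)))]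
  · rw [Finset.sum_insert (by simp [h01, h02]), Finset.sum_insert (by simp [h12]), Finset.sum_singleton]
    abel
  · intro i _ hi
    simp only [Finset.mem_insert, Finset.mem_singleton, not_or] at hi
    exact hd i hi.1 hi.2.1 hi.2.2

variable (hD1 : IsMDecomposition 1 D)

/-- The weight in terms of the coordinates, for a decomposition into lines. -/
theorem wt_eq_one {P : F → F} (hP0 : P 0 = 0) (hP1 : ∀ c, c ≠ 0 → P c = 1) (x : ι → F) :
    wt hD1 x = ∑ i, P (coord hD1 i 0 x) := by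
  unfold wt
  refine Finset.sum_congr rfl fun i _ => ?_
  by_cases h : coord hD1 i 0 x = 0
  · have h1 : comp hD1 i x = 0 := (comp_eq_zero_iff hD1 i x).mpr (fun k => by
      rw [Subsingleton.elim k 0]
      exact h)
    rw [h1, nu_zero, h, hP0]
  · rw [hP1 _ h]
    exact nu_of_coord hD1 i x ⟨0, h⟩

/-- The functional `c₀ + c₁ + c₂ + c₃`. -/
noncomputable def s4 (i0 i1 i2 i3 : Fin t) : (ι → F) →ₗ[F] F :=
  coord hD1 i0 0 + coord hD1 i1 0 + coord hD1 i2 0 + coord hD1 i3 0

/-- The vector `b₀ + b₁ + b₂ + b₃`. -/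
noncomputable def w4 (i0 i1 i2 i3 : Fin t) : ι → F :=
  bv hD1 i0 0 + bv hD1 i1 0 + bv hD1 i2 0 + bv hD1 i3 0

theorem coord_w4_of_not {i0 i1 i2 i3 i : Fin t} (h0 : i ≠ i0) (h1 : i ≠ i1) (h2 : i ≠ i2) (h3 : i ≠ i3) :
    coord hD1 i 0 (w4 hD1 i0 i1 i2 i3) = 0 := by
  simp only [w4, map_add]
  rw [coord_bv_ne hD1 h0.symm, coord_bv_ne hD1 h1.symm, coord_bv_ne hD1 h2.symm, coord_bv_ne hD1 h3.symm]
  simp

theorem coord_w4_0 {i0 i1 i2 i3 : Fin t} (h01 : i0 ≠ i1) (h02 : i0 ≠ i2) (h03 : i0 ≠ i3) :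
    coord hD1 i0 0 (w4 hD1 i0 i1 i2 i3) = 1 := by
  simp only [w4, map_add]
  rw [coord_bv_same, coord_bv_ne hD1 h01.symm, coord_bv_ne hD1 h02.symm, coord_bv_ne hD1 h03.symm]
  simp

theorem coord_w4_1 {i0 i1 i2 i3 : Fin t} (h01 : i0 ≠ i1) (h12 : i1 ≠ i2) (h13 : i1 ≠ i3) :
    coord hD1 i1 0 (w4 hD1 i0 i1 i2 i3) = 1 := by
  simp only [w4, map_add]
  rw [coord_bv_same, coord_bv_ne hD1 h01, coord_bv_ne hD1 h12.symm, coord_bv_ne hD1 h13.symm]
  simp

theorem coord_w4_2 {i0 i1 i2 i3 : Fin t} (h02 : i0 ≠ i2) (h12 : i1 ≠ i2) (h23 : i2 ≠ i3) :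
    coord hD1 i2 0 (w4 hD1 i0 i1 i2 i3) = 1 := by
  simp only [w4, map_add]
  rw [coord_bv_same, coord_bv_ne hD1 h02, coord_bv_ne hD1 h12, coord_bv_ne hD1 h23.symm]
  simp

theorem coord_w4_3 {i0 i1 i2 i3 : Fin t} (h03 : i0 ≠ i3) (h13 : i1 ≠ i3) (h23 : i2 ≠ i3) :
    coord hD1 i3 0 (w4 hD1 i0 i1 i2 i3) = 1 := by
  simp only [w4, map_add]
  rw [coord_bv_same, coord_bv_ne hD1 h03, coord_bv_ne hD1 h13, coord_bv_ne hD1 h23]
  simp

theorem s4_w4 {i0 i1 i2 i3 : Fin t} (h01 : i0 ≠ i1) (h02 : i0 ≠ i2) (h03 : i0 ≠ i3) (h12 : i1 ≠ i2)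
    (h13 : i1 ≠ i3) (h23 : i2 ≠ i3) : s4 hD1 i0 i1 i2 i3 (w4 hD1 i0 i1 i2 i3) = 1 + 1 + 1 + 1 := by
  show coord hD1 i0 0 _ + coord hD1 i1 0 _ + coord hD1 i2 0 _ + coord hD1 i3 0 _ = _
  rw [coord_w4_0 hD1 h01 h02 h03, coord_w4_1 hD1 h01 h12 h13, coord_w4_2 hD1 h02 h12 h23,
    coord_w4_3 hD1 h03 h13 h23]

/-- Invariance of the weight under `x ↦ x + s(x) w`. -/
theorem wt_s4 {i0 i1 i2 i3 : Fin t} (h01 : i0 ≠ i1) (h02 : i0 ≠ i2) (h03 : i0 ≠ i3) (h12 : i1 ≠ i2)
    (h13 : i1 ≠ i3) (h23 : i2 ≠ i3) {P : F → F} (hP0 : P 0 = 0) (hP1 : ∀ c, c ≠ 0 → P c = 1)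
    (hid : ∀ a b c d : F, P (a + (a + b + c + d)) + P (b + (a + b + c + d)) + P (c + (a + b + c + d)) +
      P (d + (a + b + c + d)) = P a + P b + P c + P d) (x : ι → F) :
    wt hD1 (x + s4 hD1 i0 i1 i2 i3 x • w4 hD1 i0 i1 i2 i3) = wt hD1 x := by
  rw [wt_eq_one hD1 hP0 hP1, wt_eq_one hD1 hP0 hP1]
  rw [← sub_eq_zero, ← Finset.sum_sub_distrib]
  have hc : ∀ i, coord hD1 i 0 (x + s4 hD1 i0 i1 i2 i3 x • w4 hD1 i0 i1 i2 i3) =
      coord hD1 i 0 x + s4 hD1 i0 i1 i2 i3 x * coord hD1 i 0 (w4 hD1 i0 i1 i2 i3) := by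
    intro i
    rw [map_add, map_smul, smul_eq_mul]
  rw [sum_four h01 h02 h03 h12 h13 h23]
  · simp only [hc]
    rw [coord_w4_0 hD1 h01 h02 h03, coord_w4_1 hD1 h01 h12 h13, coord_w4_2 hD1 h02 h12 h23,
      coord_w4_3 hD1 h03 h13 h23]
    have hs : s4 hD1 i0 i1 i2 i3 x = coord hD1 i0 0 x + coord hD1 i1 0 x + coord hD1 i2 0 x + coord hD1 i3 0 x := rfl
    rw [hs, mul_one]
    have := hid (coord hD1 i0 0 x) (coord hD1 i1 0 x) (coord hD1 i2 0 x) (coord hD1 i3 0 x)
    linear_combination this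
  · intro i a0 a1 a2 a3
    rw [hc, coord_w4_of_not hD1 a0 a1 a2 a3]
    simp

variable [Fintype F]

theorem F_pow_card (a : F) (ha : a ≠ 0) : a ^ (Fintype.card F - 1) = 1 := FiniteField.pow_card_sub_one_eq_one a ha

theorem F_cast_card : ((Fintype.card F : ℕ) : F) = 0 := FiniteField.cast_card_eq_zero F

/-- Characteristic two, lines. -/
theorem main_one_even (hD1 : IsMDecomposition 1 D) (ht : 4 ≤ t) (h2 : (2 : F) = 0) (hc : ∀ c : F, c ≠ 0 → c ^ 3 = 1) :
    ∃ K : Subgroup (Matrix.GeneralLinearGroup ι F),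
      decompositionStabilizer D ⊓ specialLinear ι F < K ∧ K < specialLinear ι F := by
  let i0 : Fin t := ⟨0, by omega⟩
  let i1 : Fin t := ⟨1, by omega⟩
  let i2 : Fin t := ⟨2, by omega⟩
  let i3 : Fin t := ⟨3, by omega⟩
  have h01 : i0 ≠ i1 := by simp [i0, i1, Fin.ext_iff]
  have h02 : i0 ≠ i2 := by simp [i0, i2, Fin.ext_iff]
  have h03 : i0 ≠ i3 := by simp [i0, i3, Fin.ext_iff]
  have h12 : i1 ≠ i2 := by simp [i1, i2, Fin.ext_iff]
  have h13 : i1 ≠ i3 := by simp [i1, i3, Fin.ext_iff]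
  have h23 : i2 ≠ i3 := by simp [i2, i3, Fin.ext_iff]
  have hsw : s4 hD1 i0 i1 i2 i3 (w4 hD1 i0 i1 i2 i3) = 0 := by
    rw [s4_w4 hD1 h01 h02 h03 h12 h13 h23]
    linear_combination 2 * h2
  have hne : 1 + s4 hD1 i0 i1 i2 i3 (w4 hD1 i0 i1 i2 i3) ≠ 0 := by
    rw [hsw, add_zero]
    exact one_ne_zero
  refine final_GL hD1 (g₁ := elG _ _ hne) (elG_mem_SL _ _ hsw hne) ?_ ?_ h01 0
  · intro x
    rw [elG_mulVec]
    refine wt_s4 hD1 h01 h02 h03 h12 h13 h23 (P := fun c => c ^ 3) (by simp) hc ?_ x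
    intro a b c d
    linear_combination (5 * (a + b + c + d) ^ 3 - 3 * (a + b + c + d) * (a * b + a * c + a * d + b * c + b * d + c * d)) * h2
  · have himg : ∀ k, coord hD1 k 0 (((elG _ _ hne : Matrix.GeneralLinearGroup ι F) : Matrix ι ι F) *ᵥ bv hD1 i0 0) =
        coord hD1 k 0 (bv hD1 i0 0) + coord hD1 k 0 (w4 hD1 i0 i1 i2 i3) := by
      intro k
      rw [elG_mulVec]
      have hs : s4 hD1 i0 i1 i2 i3 (bv hD1 i0 0) = 1 := by
        show coord hD1 i0 0 _ + coord hD1 i1 0 _ + coord hD1 i2 0 _ + coord hD1 i3 0 _ = _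
        rw [coord_bv_same, coord_bv_ne hD1 h01, coord_bv_ne hD1 h02, coord_bv_ne hD1 h03]
        simp
      rw [hs, one_smul, map_add]
    refine not_stab_of_two_comp hD1 _ (bv_mem hD1 i0 0) h12 ?_ ?_
    · intro h0
      have h5 := (comp_eq_zero_iff hD1 _ _).mp h0 0
      rw [himg, coord_bv_ne hD1 h01, coord_w4_1 hD1 h01 h12 h13, zero_add] at h5
      exact one_ne_zero h5
    · intro h0
      have h5 := (comp_eq_zero_iff hD1 _ _).mp h0 0
      rw [himg, coord_bv_ne hD1 h02, coord_w4_2 hD1 h02 h12 h23, zero_add] at h5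
      exact one_ne_zero h5

/-- Characteristic three, lines. -/
theorem main_one_three (hD1 : IsMDecomposition 1 D) (ht : 4 ≤ t) (h3 : (3 : F) = 0) (hc : ∀ c : F, c ≠ 0 → c ^ 2 = 1) :
    ∃ K : Subgroup (Matrix.GeneralLinearGroup ι F),
      decompositionStabilizer D ⊓ specialLinear ι F < K ∧ K < specialLinear ι F := by
  let i0 : Fin t := ⟨0, by omega⟩
  let i1 : Fin t := ⟨1, by omega⟩
  let i2 : Fin t := ⟨2, by omega⟩
  let i3 : Fin t := ⟨3, by omega⟩
  have h01 : i0 ≠ i1 := by simp [i0, i1, Fin.ext_iff]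
  have h02 : i0 ≠ i2 := by simp [i0, i2, Fin.ext_iff]
  have h03 : i0 ≠ i3 := by simp [i0, i3, Fin.ext_iff]
  have h12 : i1 ≠ i2 := by simp [i1, i2, Fin.ext_iff]
  have h13 : i1 ≠ i3 := by simp [i1, i3, Fin.ext_iff]
  have h23 : i2 ≠ i3 := by simp [i2, i3, Fin.ext_iff]
  have h2ne : (1 : F) + 1 ≠ 0 := by
    intro h
    have : (1 : F) = 0 := by linear_combination h3 - h
    exact one_ne_zero this
  have hsw : s4 hD1 i0 i1 i2 i3 (w4 hD1 i0 i1 i2 i3) = 1 := by
    rw [s4_w4 hD1 h01 h02 h03 h12 h13 h23]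
    linear_combination h3
  have hne : 1 + s4 hD1 i0 i1 i2 i3 (w4 hD1 i0 i1 i2 i3) ≠ 0 := by
    rw [hsw]
    exact h2ne
  have hr0 : coord hD1 i0 0 (bv hD1 i0 0) = 1 := by
    rw [coord_bv_same]
    simp
  have hne2 : 1 + coord hD1 i0 0 (bv hD1 i0 0) ≠ 0 := by
    rw [hr0]
    exact h2ne
  let h := elG _ _ hne
  let r := elG _ _ hne2
  have hP0 : (fun c : F => c ^ 2) 0 = 0 := by simp
  have hh : h ∈ wtStab hD1 := by
    intro x
    show wt hD1 (((elG _ _ hne : Matrix.GeneralLinearGroup ι F) : Matrix ι ι F) *ᵥ x) = _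
    rw [elG_mulVec]
    refine wt_s4 hD1 h01 h02 h03 h12 h13 h23 (P := fun c => c ^ 2) hP0 hc ?_ x
    intro a b c d
    linear_combination (2 * (a + b + c + d) ^ 2) * h3
  have hr : r ∈ wtStab hD1 := by
    intro x
    show wt hD1 (((elG _ _ hne2 : Matrix.GeneralLinearGroup ι F) : Matrix ι ι F) *ᵥ x) = _
    rw [elG_mulVec, wt_eq_one hD1 hP0 hc, wt_eq_one hD1 hP0 hc]
    refine Finset.sum_congr rfl fun i _ => ?_
    rw [map_add, map_smul, smul_eq_mul]
    by_cases hi : i = i0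
    · subst hi
      rw [hr0]
      show (coord hD1 i0 0 x + coord hD1 i0 0 x * 1) ^ 2 = (coord hD1 i0 0 x) ^ 2
      linear_combination (coord hD1 i0 0 x) ^ 2 * h3
    · rw [coord_bv_ne hD1 (Ne.symm hi)]
      simp
  have hdet : r * h ∈ specialLinear ι F := by
    show Matrix.GeneralLinearGroup.det (r * h) = 1
    apply Units.ext
    rw [map_mul, Units.val_mul, elG_det, elG_det, hr0, hsw]
    show _ = (1 : F)
    linear_combination h3
  refine final_GL hD1 (g₁ := r * h) hdet (mul_mem hr hh) ?_ h01 0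
  have himg : ∀ k, k ≠ i0 → coord hD1 k 0 (((r * h : Matrix.GeneralLinearGroup ι F) : Matrix ι ι F) *ᵥ bv hD1 i1 0) =
      coord hD1 k 0 (bv hD1 i1 0) + coord hD1 k 0 (w4 hD1 i0 i1 i2 i3) := by
    intro k hk
    rw [Units.val_mul, ← Matrix.mulVec_mulVec]
    show coord hD1 k 0 (((elG _ _ hne2 : Matrix.GeneralLinearGroup ι F) : Matrix ι ι F) *ᵥ
      (((elG _ _ hne : Matrix.GeneralLinearGroup ι F) : Matrix ι ι F) *ᵥ bv hD1 i1 0)) = _
    rw [elG_mulVec, elG_mulVec]
    have hs : s4 hD1 i0 i1 i2 i3 (bv hD1 i1 0) = 1 := by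
      show coord hD1 i0 0 _ + coord hD1 i1 0 _ + coord hD1 i2 0 _ + coord hD1 i3 0 _ = _
      rw [coord_bv_same, coord_bv_ne hD1 h01.symm, coord_bv_ne hD1 h12, coord_bv_ne hD1 h13]
      simp
    rw [hs, one_smul, map_add, map_smul, smul_eq_mul, coord_bv_ne hD1 (Ne.symm hk), mul_zero, add_zero, map_add]
  refine not_stab_of_two_comp hD1 _ (bv_mem hD1 i1 0) h23 ?_ ?_
  · intro h0
    have h5 := (comp_eq_zero_iff hD1 _ _).mp h0 0
    rw [himg _ h02.symm, coord_bv_ne hD1 h12, coord_w4_2 hD1 h02 h12 h23, zero_add] at h5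
    exact one_ne_zero h5
  · intro h0
    have h5 := (comp_eq_zero_iff hD1 _ _).mp h0 0
    rw [himg _ h03.symm, coord_bv_ne hD1 h13, coord_w4_3 hD1 h03 h13 h23, zero_add] at h5
    exact one_ne_zero h5

theorem wt_eq_two (hq : Fintype.card F = 2) (hD2 : IsMDecomposition 2 D) (x : ι → F) :
    wt hD2 x = ∑ i, (coord hD2 i 0 x + coord hD2 i 1 x + coord hD2 i 0 x * coord hD2 i 1 x) := by
  have h2 : (1 : F) + 1 = 0 := f2_two hq
  unfold wt
  refine Finset.sum_congr rfl fun i _ => ?_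
  by_cases h : coord hD2 i 0 x = 0
  · by_cases h' : coord hD2 i 1 x = 0
    · have h1 : comp hD2 i x = 0 := (comp_eq_zero_iff hD2 i x).mpr (fun k => by
        fin_cases k
        · exact h
        · exact h')
      rw [h1, nu_zero, h, h']
      simp
    · rw [nu_of_coord hD2 i x ⟨1, h'⟩, h, (f2_cases hq _).resolve_left h']
      simp
  · rw [nu_of_coord hD2 i x ⟨0, h⟩, (f2_cases hq _).resolve_left h]
    rcases f2_cases hq (coord hD2 i 1 x) with h' | h'
    · rw [h']
      simp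
    · rw [h', mul_one]
      linear_combination -h2

/-- Two dimensional summands over the field with two elements. -/
theorem main_two (hq : Fintype.card F = 2) (hD2 : IsMDecomposition 2 D) (ht : 3 ≤ t) :
    ∃ K : Subgroup (Matrix.GeneralLinearGroup ι F),
      decompositionStabilizer D ⊓ specialLinear ι F < K ∧ K < specialLinear ι F := by
  have h2 : (1 : F) + 1 = 0 := f2_two hq
  let i0 : Fin t := ⟨0, by omega⟩
  let i1 : Fin t := ⟨1, by omega⟩
  let i2 : Fin t := ⟨2, by omega⟩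
  have h01 : i0 ≠ i1 := by simp [i0, i1, Fin.ext_iff]
  have h02 : i0 ≠ i2 := by simp [i0, i2, Fin.ext_iff]
  have h12 : i1 ≠ i2 := by simp [i1, i2, Fin.ext_iff]
  let s : (ι → F) →ₗ[F] F := coord hD2 i0 1 + coord hD2 i1 1 + coord hD2 i2 1
  let w : ι → F := bv hD2 i0 0 + bv hD2 i1 0 + bv hD2 i2 0
  have hw1 : ∀ i, coord hD2 i 1 w = 0 := by
    intro i
    have hz : ∀ j, coord hD2 i 1 (bv hD2 j 0) = 0 := by
      intro j
      by_cases hj : j = i
      · subst hj
        rw [coord_bv_same]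
        simp
      · exact coord_bv_ne hD2 hj 1 0
    show coord hD2 i 1 (bv hD2 i0 0 + bv hD2 i1 0 + bv hD2 i2 0) = 0
    rw [map_add, map_add, hz, hz, hz]
    simp
  have hw0 : ∀ i, coord hD2 i 0 w = (if i = i0 then 1 else 0) + (if i = i1 then 1 else 0) + (if i = i2 then 1 else 0) := by
    intro i
    have hz : ∀ j, coord hD2 i 0 (bv hD2 j 0) = if i = j then 1 else 0 := by
      intro j
      by_cases hj : i = j
      · subst hj
        rw [coord_bv_same]
        simp
      · rw [coord_bv_ne hD2 (Ne.symm hj), if_neg hj]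
    show coord hD2 i 0 (bv hD2 i0 0 + bv hD2 i1 0 + bv hD2 i2 0) = _
    rw [map_add, map_add, hz, hz, hz]
  have hsw : s w = 0 := by
    show coord hD2 i0 1 w + coord hD2 i1 1 w + coord hD2 i2 1 w = 0
    rw [hw1, hw1, hw1]
    simp
  have hne : 1 + s w ≠ 0 := by
    rw [hsw, add_zero]
    exact one_ne_zero
  refine final_GL hD2 (g₁ := elG _ _ hne) (elG_mem_SL _ _ hsw hne) ?_ ?_ h01 0
  · intro x
    rw [elG_mulVec, wt_eq_two hq, wt_eq_two hq, ← sub_eq_zero, ← Finset.sum_sub_distrib]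
    have hc0 : ∀ i, coord hD2 i 0 (x + s x • w) = coord hD2 i 0 x + s x * coord hD2 i 0 w := by
      intro i
      rw [map_add, map_smul, smul_eq_mul]
    have hc1 : ∀ i, coord hD2 i 1 (x + s x • w) = coord hD2 i 1 x := by
      intro i
      rw [map_add, map_smul, smul_eq_mul, hw1, mul_zero, add_zero]
    simp only [hc0, hc1]
    rw [sum_three h01 h02 h12]
    · rw [hw0, hw0, hw0]
      simp only [if_true, h01, h01.symm, h02, h02.symm, h12, h12.symm, if_false, add_zero, zero_add, mul_one]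
      have hs : s x = coord hD2 i0 1 x + coord hD2 i1 1 x + coord hD2 i2 1 x := rfl
      have hss : s x * s x = s x := by
        rcases f2_cases hq (s x) with h | h <;> rw [h] <;> simp
      have e : coord hD2 i0 1 x + coord hD2 i1 1 x + coord hD2 i2 1 x = s x := rfl
      have hh2 : (2 : F) = 0 := by linear_combination h2
      linear_combination (s x) * e + hss + (2 * s x) * hh2
    · intro i a0 a1 a2
      rw [hw0, if_neg a0, if_neg a1, if_neg a2]
      simp
  · have hsx : s (bv hD2 i0 1) = 1 := by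
      show coord hD2 i0 1 _ + coord hD2 i1 1 _ + coord hD2 i2 1 _ = _
      rw [coord_bv_same, coord_bv_ne hD2 h01, coord_bv_ne hD2 h02]
      simp
    have himg : ∀ k, coord hD2 k 0 (((elG _ _ hne : Matrix.GeneralLinearGroup ι F) : Matrix ι ι F) *ᵥ bv hD2 i0 1) =
        coord hD2 k 0 (bv hD2 i0 1) + coord hD2 k 0 w := by
      intro k
      rw [elG_mulVec, hsx, one_smul, map_add]
    refine not_stab_of_two_comp hD2 _ (bv_mem hD2 i0 1) h12 ?_ ?_
    · intro h0
      have h5 := (comp_eq_zero_iff hD2 _ _).mp h0 0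
      rw [himg, coord_bv_ne hD2 h01, hw0] at h5
      simp [h01.symm, h12] at h5
    · intro h0
      have h5 := (comp_eq_zero_iff hD2 _ _).mp h0 0
      rw [himg, coord_bv_ne hD2 h02, hw0] at h5
      simp [h02.symm, h12.symm] at h5

/-- S5635. -/
theorem gl_main (hn : 13 ≤ Fintype.card ι) (hD : IsMDecomposition m D)
    (h : (m = 1 ∧ Fintype.card F ≤ 4) ∨ (m = 2 ∧ Fintype.card F = 2)) :
    ∃ K : Subgroup (Matrix.GeneralLinearGroup ι F),
      decompositionStabilizer D ⊓ specialLinear ι F < K ∧ K < specialLinear ι F := by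
  have hcard := card_eq hD
  rcases h with ⟨rfl, hq⟩ | ⟨rfl, hq⟩
  · have ht : 4 ≤ t := by omega
    have hq1 : 1 < Fintype.card F := Fintype.one_lt_card
    have hcast := F_cast_card (F := F)
    have hq' : Fintype.card F = 2 ∨ Fintype.card F = 3 ∨ Fintype.card F = 4 := by omega
    rcases hq' with h' | h' | h'
    · refine main_one_even hD ht ?_ ?_
      · rw [h'] at hcast
        simpa using hcast
      · intro c hc
        have := F_pow_card c hc
        rw [h'] at this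
        simp only [Nat.add_one_sub_one, pow_one] at this
        rw [this]
        simp
    · refine main_one_three hD ht ?_ ?_
      · rw [h'] at hcast
        simpa using hcast
      · intro c hc
        have := F_pow_card c hc
        rw [h'] at this
        simpa using this
    · refine main_one_even hD ht ?_ ?_
      · rw [h'] at hcast
        have h5 : (2 : F) ^ 2 = 0 := by
          have : ((4 : ℕ) : F) = 0 := hcast
          push_cast at this
          linear_combination this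
        exact eq_zero_of_pow_eq_zero h5
      · intro c hc
        have := F_pow_card c hc
        rw [h'] at this
        simpa using this
  · exact main_two hq hD (by omega)

end Special

end CfsgLib.ClassMax.Decomp
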