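import Cfsg.Agent.Lib.ClassMax.Decomp

/-! `Sp₂(2) ≀ S_t` lies in an orthogonal group. -/

set_option autoImplicit false
set_option linter.unusedSimpArgs false
set_option linter.unusedVariables false
set_option linter.unusedSectionVars false
set_option linter.style.haveILetI false

namespace CfsgLib.ClassMax.Decomp

open Matrix Cfsg Cfsg.Geo CfsgLib.ClassGeo

section F2

variable {F : Type*} [Field F] [Fintype F]

theorem f2_cases (hq : Fintype.card F = 2) (a : F) : a = 0 ∨ a = 1 := by
  classical
  by_contra h
  push Not at h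
  have h1 : ({0, 1, a} : Finset F).card = 3 := by
    rw [Finset.card_insert_of_notMem, Finset.card_insert_of_notMem, Finset.card_singleton]
    · simp [h.2.symm]
    · simp [h.1.symm]
  have h2 := Finset.card_le_univ ({0, 1, a} : Finset F)
  omega

theorem f2_two (hq : Fintype.card F = 2) : (1 : F) + 1 = 0 := by
  rcases f2_cases hq (1 + 1 : F) with h | h
  · exact h
  · exfalso
    have : (1 : F) = 0 := by linear_combination h
    exact one_ne_zero this

end F2

variable {F : Type*} [Field F] [Fintype F] {m t : ℕ} {D : Fin t → Submodule F (Fin m ⊕ Fin m → F)}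

theorem symp_sum_left {κ : Type*} (s : Finset κ) (u : κ → Fin m ⊕ Fin m → F) (y : Fin m ⊕ Fin m → F) :
    sympForm m F (∑ i ∈ s, u i) y = ∑ i ∈ s, sympForm m F (u i) y := by
  classical
  induction s using Finset.induction_on with
  | empty => simp [symp_zero_left]
  | insert a s ha ih => rw [Finset.sum_insert ha, Finset.sum_insert ha, symp_add_left, ih]

theorem symp_sum_right {κ : Type*} (s : Finset κ) (u : κ → Fin m ⊕ Fin m → F) (y : Fin m ⊕ Fin m → F) :
    sympForm m F y (∑ i ∈ s, u i) = ∑ i ∈ s, sympForm m F y (u i) := by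
  classical
  induction s using Finset.induction_on with
  | empty => simp [symp_zero_right]
  | insert a s ha ih => rw [Finset.sum_insert ha, Finset.sum_insert ha, symp_add_right, ih]

theorem symp_comp (hD : IsNondegenerateMDecomposition (sympForm m F) 2 D) (x y : Fin m ⊕ Fin m → F) :
    sympForm m F x y = ∑ i, sympForm m F (comp hD.decomp i x) (comp hD.decomp i y) := by
  conv_lhs => rw [← sum_comp hD.decomp x, ← sum_comp hD.decomp y]
  rw [symp_sum_left]
  refine Finset.sum_congr rfl fun i _ => ?_
  rw [symp_sum_right, Finset.sum_eq_single i]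
  · intro j _ hj
    exact hD.orthogonal i j hj.symm _ (comp_mem hD.decomp i x) _ (comp_mem hD.decomp j y)
  · simp

theorem zero_form (hq : Fintype.card F = 2) (hD : IsNondegenerateMDecomposition (sympForm m F) 2 D) {i : Fin t}
    {y v : Fin m ⊕ Fin m → F} (hy : y ∈ D i) (hv : v ∈ D i) (hv0 : v ≠ 0) (h : sympForm m F y v = 0) :
    y = 0 ∨ y = v := by
  by_contra hne
  push Not at hne
  obtain ⟨hy0, hyv⟩ := hne
  obtain ⟨⟨x, hx, hxv⟩, -⟩ := hD.nondegenerate i v hv hv0
  apply hxv
  have hind : LinearIndependent F ![y, v] := by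
    rw [LinearIndependent.pair_iff]
    intro s r hsr
    rcases f2_cases hq s with rfl | rfl <;> rcases f2_cases hq r with rfl | rfl
    · simp
    · exfalso
      apply hv0
      simpa using hsr
    · exfalso
      apply hy0
      simpa using hsr
    · exfalso
      apply hyv
      simp only [one_smul] at hsr
      have h2 : (1 : F) + 1 = 0 := f2_two hq
      have h3 : v + v = 0 := by
        have : v + v = ((1 : F) + 1) • v := by rw [add_smul, one_smul]
        rw [this, h2, zero_smul]
      calc y = y + (v + v) := by rw [h3, add_zero]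
        _ = (y + v) + v := by rw [add_assoc]
        _ = v := by rw [hsr, zero_add]
  have hfr := finrank_span_eq_card hind
  have hle : Submodule.span F (Set.range ![y, v]) ≤ D i := by
    rw [Submodule.span_le]
    rintro _ ⟨k, rfl⟩
    fin_cases k
    · exact hy
    · exact hv
  have heq := Submodule.eq_of_le_of_finrank_eq hle (by
    rw [hfr, hD.decomp.finrank_eq i]
    simp)
  rw [← heq] at hx
  obtain ⟨a, b, rfl⟩ : ∃ a b : F, x = a • y + b • v := by
    have hx2 : x ∈ Submodule.span F ({y, v} : Set (Fin m ⊕ Fin m → F)) := by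
      convert hx using 2
      simp [Matrix.range_cons, Set.pair_comm, Set.union_comm]
    exact Submodule.mem_span_pair.mp hx2 |>.imp fun a ha => ha.imp fun b hb => hb.symm
  rw [symp_add_left, symp_smul_left, symp_smul_left, h, symp_self]
  ring

/-- The polar identity in a single summand. -/
theorem nu_polar (hq : Fintype.card F = 2) (hD : IsNondegenerateMDecomposition (sympForm m F) 2 D) {i : Fin t}
    {y z : Fin m ⊕ Fin m → F} (hy : y ∈ D i) (hz : z ∈ D i) :
    nu F (y + z) = nu F y + nu F z + sympForm m F y z := by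
  have h2 : (1 : F) + 1 = 0 := f2_two hq
  by_cases hy0 : y = 0
  · subst hy0
    simp [nu_zero, symp_zero_left]
  by_cases hz0 : z = 0
  · subst hz0
    simp [nu_zero, symp_zero_right]
  by_cases hyz : y = z
  · subst hyz
    have h3 : y + y = 0 := by
      have : y + y = ((1 : F) + 1) • y := by rw [add_smul, one_smul]
      rw [this, h2, zero_smul]
    rw [h3, nu_zero, nu_ne hy0, symp_self, h2, add_zero]
  have hne : y + z ≠ 0 := by
    intro h
    apply hyz
    have h3 : z + z = 0 := by
      have : z + z = ((1 : F) + 1) • z := by rw [add_smul, one_smul]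
      rw [this, h2, zero_smul]
    calc y = y + (z + z) := by rw [h3, add_zero]
      _ = (y + z) + z := by rw [add_assoc]
      _ = z := by rw [h, zero_add]
  have hB : sympForm m F y z = 1 := by
    rcases f2_cases hq (sympForm m F y z) with h | h
    · rcases zero_form hq hD hy hz hz0 h with h4 | h4
      · exact absurd h4 hy0
      · exact absurd h4 hyz
    · exact h
  rw [nu_ne hne, nu_ne hy0, nu_ne hz0, hB, h2, zero_add]

/-- The weight is a quadratic form with polar form the symplectic form. -/
theorem wt_polar (hq : Fintype.card F = 2) (hD : IsNondegenerateMDecomposition (sympForm m F) 2 D)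
    (x y : Fin m ⊕ Fin m → F) : wt hD.decomp (x + y) = wt hD.decomp x + wt hD.decomp y + sympForm m F x y := by
  rw [symp_comp hD x y]
  unfold wt
  rw [← Finset.sum_add_distrib, ← Finset.sum_add_distrib]
  refine Finset.sum_congr rfl fun i _ => ?_
  rw [map_add]
  exact nu_polar hq hD (comp_mem hD.decomp i x) (comp_mem hD.decomp i y)

theorem wt_single (hD : IsMDecomposition 2 D) {i : Fin t} {v : Fin m ⊕ Fin m → F} (hv : v ∈ D i) (hv0 : v ≠ 0) :
    wt hD v = 1 := by
  unfold wt
  rw [Finset.sum_eq_single i]
  · rw [comp_same hD hv, nu_ne hv0]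
  · intro j _ hj
    rw [comp_ne hD hv hj.symm, nu_zero]
  · simp

theorem sympT_zero (v : Fin m ⊕ Fin m → F) : sympTransvection m v 0 = 1 := by
  simp [sympTransvection]

/-- The symplectic transvection as an element of the general linear group. -/
noncomputable def tvG (v : Fin m ⊕ Fin m → F) : Matrix.GeneralLinearGroup (Fin m ⊕ Fin m) F where
  val := sympTransvection m v 1
  inv := sympTransvection m v (-1)
  val_inv := by rw [sympTransvection_mul, add_neg_cancel, sympT_zero]
  inv_val := by rw [sympTransvection_mul, neg_add_cancel, sympT_zero]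

theorem tvG_mulVec (v x : Fin m ⊕ Fin m → F) :
    ((tvG v : Matrix.GeneralLinearGroup (Fin m ⊕ Fin m) F) : Matrix _ _ F) *ᵥ x = x + (sympForm m F x v) • v := by
  show sympTransvection m v 1 *ᵥ x = _
  rw [sympTransvection_mulVec, one_mul]

theorem tvG_mem (v : Fin m ⊕ Fin m → F) : tvG v ∈ spGL m F := by
  intro x y
  exact (mem_sp_iff _).mp (sympTransvection_mem v 1) x y

/-- S5648. -/
theorem sp_main (hm : 7 ≤ m) (hq : Fintype.card F = 2)
    (hD : IsNondegenerateMDecomposition (sympForm m F) 2 D) :
    ∃ K : Subgroup (Matrix.GeneralLinearGroup (Fin m ⊕ Fin m) F),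
      decompositionStabilizer D ⊓ spGL m F < K ∧ K < spGL m F := by
  have h2 : (1 : F) + 1 = 0 := f2_two hq
  have hd := hD.decomp
  have hcard := card_eq hd
  simp only [Fintype.card_sum, Fintype.card_fin] at hcard
  have ht : 7 ≤ t := by omega
  let i0 : Fin t := ⟨0, by omega⟩
  let i1 : Fin t := ⟨1, by omega⟩
  let i2 : Fin t := ⟨2, by omega⟩
  have h01 : i0 ≠ i1 := by simp [i0, i1, Fin.ext_iff]
  have h02 : i0 ≠ i2 := by simp [i0, i2, Fin.ext_iff]
  have h12 : i1 ≠ i2 := by simp [i1, i2, Fin.ext_iff]
  obtain ⟨v0, hv0, hv00⟩ := exists_ne_zero hd i0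
  obtain ⟨v1, hv1, hv10⟩ := exists_ne_zero hd i1
  obtain ⟨v2, hv2, hv20⟩ := exists_ne_zero hd i2
  have b01 : sympForm m F v0 v1 = 0 := hD.orthogonal i0 i1 h01 _ hv0 _ hv1
  have b02 : sympForm m F v0 v2 = 0 := hD.orthogonal i0 i2 h02 _ hv0 _ hv2
  have b12 : sympForm m F v1 v2 = 0 := hD.orthogonal i1 i2 h12 _ hv1 _ hv2
  have w0 := wt_single hd hv0 hv00
  have w1 := wt_single hd hv1 hv10
  have w2 := wt_single hd hv2 hv20
  refine ⟨spGL m F ⊓ wtStab hd, ?_, ?_⟩
  · rw [SetLike.lt_iff_le_and_exists]
    constructor
    · rintro g ⟨h1, h3⟩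
      exact ⟨h3, stab_le_wtStab hd h1⟩
    · set v := v0 + v1 + v2 with hv
      have wv : wt hd v = 1 := by
        rw [hv, wt_polar hq hD, wt_polar hq hD, w0, w1, w2, b01, symp_add_left, b02, b12, h2]
        simp
      refine ⟨tvG v, ⟨tvG_mem v, ?_⟩, ?_⟩
      · intro x
        rw [tvG_mulVec]
        rcases f2_cases hq (sympForm m F x v) with h | h
        · rw [h, zero_smul, add_zero]
        · rw [h, one_smul, wt_polar hq hD, h, wv, add_assoc, h2, add_zero]
      · rintro ⟨hs, -⟩
        obtain ⟨⟨x, hx, hxv⟩, -⟩ := hD.nondegenerate i0 v0 hv0 hv00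
        have hBx : sympForm m F x v = 1 := by
          have e1 : sympForm m F x v = sympForm m F x v0 := by
            rw [hv, symp_add_right, symp_add_right, hD.orthogonal i0 i1 h01 _ hx _ hv1,
              hD.orthogonal i0 i2 h02 _ hx _ hv2]
            ring
          rw [e1]
          exact (f2_cases hq _).resolve_left hxv
        have himg : ((tvG v : Matrix.GeneralLinearGroup (Fin m ⊕ Fin m) F) : Matrix _ _ F) *ᵥ x = x + v := by
          rw [tvG_mulVec, hBx, one_smul]
        refine not_stab_of_two_comp hd (tvG v) hx h12 ?_ ?_ hs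
        · rw [himg, map_add, comp_ne hd hx h01, hv, map_add, map_add, comp_ne hd hv0 h01, comp_same hd hv1,
            comp_ne hd hv2 h12.symm]
          simpa using hv10
        · rw [himg, map_add, comp_ne hd hx h02, hv, map_add, map_add, comp_ne hd hv0 h02, comp_ne hd hv1 h12,
            comp_same hd hv2]
          simpa using hv20
  · rw [SetLike.lt_iff_le_and_exists]
    refine ⟨inf_le_left, ?_⟩
    set w := v0 + v1 with hw
    have hw0 : w ≠ 0 := by
      intro h
      have h3 := congrArg (comp hd i0) h
      rw [hw, map_add, comp_same hd hv0, comp_ne hd hv1 h01.symm, add_zero, map_zero] at h3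
      exact hv00 h3
    have ww : wt hd w = 0 := by
      rw [hw, wt_polar hq hD, w0, w1, b01, h2, add_zero]
    refine ⟨tvG w, tvG_mem w, ?_⟩
    rintro ⟨-, hst⟩
    have hx : ∃ x, sympForm m F x w ≠ 0 := by
      by_contra hno
      push Not at hno
      exact hw0 (symp_nondeg hno)
    obtain ⟨x, hxw⟩ := hx
    have hBx : sympForm m F x w = 1 := (f2_cases hq _).resolve_left hxw
    have h3 := hst x
    rw [tvG_mulVec, hBx, one_smul, wt_polar hq hD, hBx, ww, add_zero] at h3
    have h4 : (1 : F) = 0 := by
      have h5 : wt hd x + 1 = wt hd x + 0 := by rw [h3, add_zero]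
      exact add_left_cancel h5
    exact one_ne_zero h4

end CfsgLib.ClassMax.Decomp
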