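import Cfsg.Agent.Lib.ClassMax.DecompGL

/-! Stabilisers of decompositions into non degenerate planes in `SU_n(2)` are not maximal. -/

set_option autoImplicit false
set_option linter.unusedSimpArgs false
set_option linter.unusedVariables false
set_option linter.unusedSectionVars false
set_option linter.style.haveILetI false

namespace CfsgLib.ClassMax.Decomp

open Matrix Cfsg Cfsg.Geo

section General

variable {ι : Type} [Fintype ι] [DecidableEq ι] {F : Type*} [Field F]

/-- The stabiliser of a function on the space. -/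
def fnStab {A : Type*} (φ : (ι → F) → A) : Subgroup (Matrix.GeneralLinearGroup ι F) where
  carrier := {g | ∀ x, φ ((g : Matrix ι ι F) *ᵥ x) = φ x}
  mul_mem' := by
    intro a b ha hb x
    rw [Units.val_mul, ← Matrix.mulVec_mulVec, ha, hb]
  one_mem' := by
    intro x
    simp
  inv_mem' := by
    intro a ha x
    have h := ha (((a⁻¹ : Matrix.GeneralLinearGroup ι F) : Matrix ι ι F) *ᵥ x)
    rw [Matrix.mulVec_mulVec, ← Units.val_mul, mul_inv_cancel, Units.val_one, Matrix.one_mulVec] at h
    exact h.symm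

end General

variable {F : Type*} [Field F] [Fintype F] {n t : ℕ}

section F4

theorem f4_two (hF : Fintype.card F = 4) : (2 : F) = 0 := by
  have h := FiniteField.cast_card_eq_zero F
  rw [hF] at h
  have h5 : (2 : F) ^ 2 = 0 := by
    have : ((4 : ℕ) : F) = 0 := h
    push_cast at this
    linear_combination this
  exact eq_zero_of_pow_eq_zero h5

theorem f4_cube (hF : Fintype.card F = 4) (c : F) (hc : c ≠ 0) : c ^ 3 = 1 := by
  have := FiniteField.pow_card_sub_one_eq_one c hc
  rw [hF] at this
  simpa using this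

theorem f4_four (hF : Fintype.card F = 4) (c : F) : c ^ 4 = c := by
  by_cases hc : c = 0
  · simp [hc]
  · rw [pow_succ, f4_cube hF c hc, one_mul]

theorem f4_fix (hF : Fintype.card F = 4) {c : F} (h : c ^ 2 = c) : c = 0 ∨ c = 1 := by
  have : c * (c - 1) = 0 := by linear_combination h
  rcases mul_eq_zero.mp this with h1 | h1
  · exact Or.inl h1
  · exact Or.inr (sub_eq_zero.mp h1)

theorem f4_exists_ne (hF : Fintype.card F = 4) (r : F) : ∃ c : F, c ≠ 0 ∧ c ≠ r := by
  classical
  obtain ⟨c, -, hc⟩ := Finset.exists_mem_notMem_of_card_lt_card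
    (s := ({0, r} : Finset F)) (t := Finset.univ) (by
      calc ({0, r} : Finset F).card ≤ 2 := Finset.card_le_two
        _ < _ := by rw [Finset.card_univ, hF]; norm_num)
  simp only [Finset.mem_insert, Finset.mem_singleton, not_or] at hc
  exact ⟨c, hc.1, hc.2⟩

end F4

local notation "hh" => hermForm n F 2

theorem hh_add_left (x y v : Fin n → F) : hh (x + y) v = hh x v + hh y v := by
  simp only [hermForm, Pi.add_apply, add_mul, Finset.sum_add_distrib]

theorem hh_smul_left (c : F) (x v : Fin n → F) : hh (c • x) v = c * hh x v := by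
  simp only [hermForm, Pi.smul_apply, smul_eq_mul, Finset.mul_sum, mul_assoc]

theorem hh_zero_left (v : Fin n → F) : hh 0 v = 0 := by
  simp [hermForm]

theorem hh_zero_right (v : Fin n → F) : hh v 0 = 0 := by
  simp [hermForm]

theorem hh_add_right (h2 : (2 : F) = 0) (v x y : Fin n → F) : hh v (x + y) = hh v x + hh v y := by
  simp only [hermForm, Pi.add_apply, ← Finset.sum_add_distrib]
  refine Finset.sum_congr rfl fun i _ => ?_
  linear_combination (v i * x i * y i) * h2

theorem hh_smul_right (c : F) (v x : Fin n → F) : hh v (c • x) = c ^ 2 * hh v x := by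
  simp only [hermForm, Pi.smul_apply, smul_eq_mul, Finset.mul_sum]
  refine Finset.sum_congr rfl fun i _ => ?_
  ring

theorem hh_herm (hF : Fintype.card F = 4) (x y : Fin n → F) : hh y x = (hh x y) ^ 2 := by
  have h2 := f4_two hF
  haveI : CharP F 2 := by
    have hc : ringChar F = 2 := FiniteField.even_card_iff_char_two.mpr (by rw [hF])
    exact hc ▸ ringChar.charP F
  haveI : Fact (Nat.Prime 2) := ⟨Nat.prime_two⟩
  simp only [hermForm]
  rw [sum_pow_char]
  refine Finset.sum_congr rfl fun i _ => ?_
  have := f4_four hF (y i)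
  rw [mul_pow, ← pow_mul]
  show y i * x i ^ 2 = x i ^ 2 * y i ^ 4
  rw [this]
  ring

theorem hh_sum_left {κ : Type*} (s : Finset κ) (u : κ → Fin n → F) (y : Fin n → F) :
    hh (∑ i ∈ s, u i) y = ∑ i ∈ s, hh (u i) y := by
  classical
  induction s using Finset.induction_on with
  | empty => simp [hh_zero_left]
  | insert a s ha ih => rw [Finset.sum_insert ha, Finset.sum_insert ha, hh_add_left, ih]

/-- The linear functional `x ↦ h(x, w)`. -/
noncomputable def hLin (w : Fin n → F) : (Fin n → F) →ₗ[F] F where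
  toFun x := hh x w
  map_add' x y := hh_add_left x y w
  map_smul' c x := hh_smul_left c x w

theorem hLin_apply (w x : Fin n → F) : hLin w x = hh x w := rfl

/-- The unitary transvection. -/
noncomputable def uT (w : Fin n → F) (hw : hh w w = 0) : Matrix.GeneralLinearGroup (Fin n) F :=
  elG (hLin w) w (by
    rw [hLin_apply, hw, add_zero]
    exact one_ne_zero)

theorem uT_mulVec (w : Fin n → F) (hw : hh w w = 0) (x : Fin n → F) :
    ((uT w hw : Matrix.GeneralLinearGroup (Fin n) F) : Matrix _ _ F) *ᵥ x = x + hh x w • w := by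
  rw [uT, elG_mulVec, hLin_apply]

theorem uT_SL (w : Fin n → F) (hw : hh w w = 0) : uT w hw ∈ specialLinear (Fin n) F :=
  elG_mem_SL _ _ hw _

theorem uT_GU (hF : Fintype.card F = 4) (w : Fin n → F) (hw : hh w w = 0) : uT w hw ∈ GU n F 2 := by
  have h2 := f4_two hF
  intro x y
  show hh (((uT w hw : Matrix.GeneralLinearGroup (Fin n) F) : Matrix _ _ F) *ᵥ x)
    (((uT w hw : Matrix.GeneralLinearGroup (Fin n) F) : Matrix _ _ F) *ᵥ y) = hh x y
  rw [uT_mulVec, uT_mulVec, hh_add_left, hh_add_right h2, hh_add_right h2, hh_smul_left, hh_smul_left,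
    hh_smul_right, hh_smul_right, hw, hh_herm hF y w]
  linear_combination (hh x w * (hh y w) ^ 2) * h2

theorem exists_frame (hF : Fintype.card F = 4) {W : Submodule F (Fin n → F)} (hW : Module.finrank F W = 2)
    (hnd : IsNondegenerateOn (hermForm n F 2) W) :
    ∃ a b : Fin n → F, a ∈ W ∧ b ∈ W ∧ hh a a = 1 ∧ hh b b = 1 ∧ hh a b = 0 ∧
      ∀ y ∈ W, y = hh y a • a + hh y b • b := by
  have h2 := f4_two hF
  have hne : ∃ y ∈ W, y ≠ 0 := by
    by_contra hno
    push Not at hno
    have h3 : W = ⊥ := (Submodule.eq_bot_iff _).mpr hno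
    rw [h3, finrank_bot] at hW
    omega
  -- a non isotropic vector
  obtain ⟨a, haW, haa⟩ : ∃ a ∈ W, hh a a ≠ 0 := by
    by_contra hno
    push Not at hno
    obtain ⟨y, hy, hy0⟩ := hne
    obtain ⟨⟨x, hx, hxy⟩, -⟩ := hnd y hy hy0
    obtain ⟨c, hc0, hcr⟩ := f4_exists_ne hF (hh x y)
    have h3 := hno (x + c • y) (W.add_mem hx (W.smul_mem c hy))
    rw [hh_add_left, hh_add_right h2, hh_add_right h2, hh_smul_left, hh_smul_right, hh_smul_right, hh_smul_left,
      hno x hx, hno y hy, hh_herm hF x y] at h3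
    have h4 : c * hh x y * (c + hh x y) = 0 := by linear_combination h3
    rcases mul_eq_zero.mp h4 with h5 | h5
    · rcases mul_eq_zero.mp h5 with h6 | h6
      · exact hc0 h6
      · exact hxy h6
    · apply hcr
      linear_combination h5 - (hh x y) * h2
  have hfix : ∀ y : Fin n → F, hh y y ≠ 0 → hh y y = 1 := by
    intro y hy
    have h3 := hh_herm hF y y
    exact (f4_fix hF h3.symm).resolve_left hy
  have haa1 := hfix a haa
  -- a second vector
  obtain ⟨z, hzW, hz⟩ : ∃ z ∈ W, z ∉ Submodule.span F {a} := by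
    by_contra hno
    push Not at hno
    have hle : W ≤ Submodule.span F {a} := hno
    have h3 := Submodule.finrank_mono hle
    have h4 := finrank_span_singleton (K := F) (v := a) (by
      rintro rfl
      exact haa (hh_zero_left 0))
    rw [h4, hW] at h3
    omega
  set b := z + hh z a • a with hb
  have hbW : b ∈ W := W.add_mem hzW (W.smul_mem _ haW)
  have hb0 : b ≠ 0 := by
    intro h
    apply hz
    have h3 : z = hh z a • a := by
      have h4 : z + hh z a • a + hh z a • a = hh z a • a := by rw [← hb, h, zero_add]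
      have h5 : hh z a • a + hh z a • a = 0 := by
        rw [← add_smul]
        have : hh z a + hh z a = 0 := by linear_combination (hh z a) * h2
        rw [this, zero_smul]
      rw [add_assoc, h5, add_zero] at h4
      exact h4
    rw [h3]
    exact Submodule.smul_mem _ _ (Submodule.mem_span_singleton_self a)
  have hba : hh b a = 0 := by
    rw [hb, hh_add_left, hh_smul_left, haa1]
    linear_combination (hh z a) * h2
  have hab : hh a b = 0 := by
    rw [hh_herm hF b a, hba]
    simp
  -- the pair spans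
  have hind : LinearIndependent F ![a, b] := by
    rw [LinearIndependent.pair_iff]
    intro s r hsr
    have h3 := congrArg (fun u => hh u a) hsr
    simp only [hh_add_left, hh_smul_left, hba, haa1, hh_zero_left] at h3
    have hs : s = 0 := by simpa using h3
    refine ⟨hs, ?_⟩
    rw [hs, zero_smul, zero_add] at hsr
    exact (smul_eq_zero.mp hsr).resolve_right hb0
  have hfr := finrank_span_eq_card hind
  have hle : Submodule.span F (Set.range ![a, b]) ≤ W := by
    rw [Submodule.span_le]
    rintro _ ⟨k, rfl⟩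
    fin_cases k
    · exact haW
    · exact hbW
  have heq := Submodule.eq_of_le_of_finrank_eq hle (by
    rw [hfr, hW]
    simp)
  have hmem : ∀ y ∈ W, ∃ α β : F, y = α • a + β • b := by
    intro y hy
    rw [← heq] at hy
    have hx2 : y ∈ Submodule.span F ({a, b} : Set (Fin n → F)) := by
      convert hy using 2
      simp [Matrix.range_cons, Set.pair_comm, Set.union_comm]
    obtain ⟨α, β, h⟩ := Submodule.mem_span_pair.mp hx2
    exact ⟨α, β, h.symm⟩
  have hbb : hh b b ≠ 0 := by
    intro hbb
    obtain ⟨⟨x, hx, hxb⟩, -⟩ := hnd b hbW hb0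
    obtain ⟨α, β, rfl⟩ := hmem x hx
    apply hxb
    rw [hh_add_left, hh_smul_left, hh_smul_left, hab, hbb]
    ring
  have hbb1 := hfix b hbb
  refine ⟨a, b, haW, hbW, haa1, hbb1, hab, ?_⟩
  intro y hy
  obtain ⟨α, β, rfl⟩ := hmem y hy
  have e1 : hh (α • a + β • b) a = α := by
    rw [hh_add_left, hh_smul_left, hh_smul_left, haa1, hba]
    ring
  have e2 : hh (α • a + β • b) b = β := by
    rw [hh_add_left, hh_smul_left, hh_smul_left, hbb1, hab]
    ring
  rw [e1, e2]

variable {D : Fin t → Submodule F (Fin n → F)}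

/-- Weight of a vector of a summand (number of coordinates in the unique orthonormal frame). -/
noncomputable def psi (y : Fin n → F) : ℕ := by
  classical
  exact if y = 0 then 0 else if hh y y = 0 then 2 else 1

noncomputable def HH (hD : IsMDecomposition 2 D) (x : Fin n → F) : ℕ := ∑ i, psi (comp hD i x)

theorem psi_isom {g : Matrix.GeneralLinearGroup (Fin n) F} (hg : g ∈ GU n F 2) (y : Fin n → F) :
    psi ((g : Matrix (Fin n) (Fin n) F) *ᵥ y) = psi y := by
  have h1 : hh ((g : Matrix (Fin n) (Fin n) F) *ᵥ y) ((g : Matrix (Fin n) (Fin n) F) *ᵥ y) = hh y y := hg y y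
  unfold psi
  by_cases h0 : y = 0
  · rw [h0]
    simp
  · have h0' : (g : Matrix (Fin n) (Fin n) F) *ᵥ y ≠ 0 := fun h => h0 ((mulVec_eq_zero_iff g y).mp h)
    rw [if_neg h0', if_neg h0, h1]

theorem HH_stab (hD : IsMDecomposition 2 D) {g : Matrix.GeneralLinearGroup (Fin n) F}
    (hs : g ∈ decompositionStabilizer D) (hg : g ∈ GU n F 2) (x : Fin n → F) :
    HH hD ((g : Matrix (Fin n) (Fin n) F) *ᵥ x) = HH hD x := by
  obtain ⟨σ, hσ⟩ := hs
  unfold HH
  rw [← Equiv.sum_comp σ]
  refine Finset.sum_congr rfl fun i _ => ?_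
  rw [comp_stab hD g σ hσ, psi_isom hg]

/-- Indicator of the non zero elements. -/
noncomputable def ind (c : F) : ℕ := by
  classical
  exact if c = 0 then 0 else 1

theorem ind_zero : ind (0 : F) = 0 := by simp [ind]

theorem ind_ne {c : F} (h : c ≠ 0) : ind c = 1 := by simp [ind, h]

theorem psi_frame (hF : Fintype.card F = 4) {a b y : Fin n → F} (haa : hh a a = 1) (hbb : hh b b = 1)
    (hab : hh a b = 0) (hy : y = hh y a • a + hh y b • b) : psi y = ind (hh y a) + ind (hh y b) := by
  have h2 := f4_two hF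
  have hba : hh b a = 0 := by
    rw [hh_herm hF a b, hab]
    simp
  set α := hh y a with hα
  set β := hh y b with hβ
  have hyy : hh y y = α ^ 3 + β ^ 3 := by
    conv_lhs => rw [hy]
    simp only [hh_add_left, hh_add_right h2, hh_smul_left, hh_smul_right, haa, hbb, hab, hba]
    ring
  have hy0 : y = 0 → α = 0 ∧ β = 0 := by
    intro h
    rw [hα, hβ, h, hh_zero_left, hh_zero_left]
    exact ⟨rfl, rfl⟩
  unfold psi
  by_cases ha0 : α = 0
  · by_cases hb0 : β = 0
    · have : y = 0 := by
        rw [hy, ha0, hb0]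
        simp
      rw [if_pos this, ha0, hb0, ind_zero]
    · have hne : y ≠ 0 := fun h => hb0 (hy0 h).2
      rw [if_neg hne, hyy, ha0, f4_cube hF β hb0, ind_zero, ind_ne hb0]
      simp
  · have hne : y ≠ 0 := fun h => ha0 (hy0 h).1
    rw [if_neg hne, hyy, f4_cube hF α ha0, ind_ne ha0]
    by_cases hb0 : β = 0
    · rw [hb0, ind_zero]
      simp
    · rw [f4_cube hF β hb0, ind_ne hb0]
      have : (1 : F) + 1 = 0 := by linear_combination h2
      simp [this]

theorem hh_comp (hD : IsNondegenerateMDecomposition (hermForm n F 2) 2 D) (x : Fin n → F) {i : Fin t}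
    {v : Fin n → F} (hv : v ∈ D i) : hh x v = hh (comp hD.decomp i x) v := by
  conv_lhs => rw [← sum_comp hD.decomp x]
  rw [hh_sum_left, Finset.sum_eq_single i]
  · intro j _ hj
    exact hD.orthogonal j i hj _ (comp_mem hD.decomp j x) _ hv
  · simp

/-- S5656. -/
theorem su_main (hF : Fintype.card F = 4) (hn : 13 ≤ n) (hD : IsNondegenerateMDecomposition (hermForm n F 2) 2 D) :
    ∃ K : Subgroup (Matrix.GeneralLinearGroup (Fin n) F),
      decompositionStabilizer D ⊓ (GU n F 2 ⊓ specialLinear (Fin n) F) < K ∧ K < GU n F 2 ⊓ specialLinear (Fin n) F := by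
  classical
  have h2 := f4_two hF
  have h11 : (1 : F) + 1 = 0 := by linear_combination h2
  have hd := hD.decomp
  have hcard := card_eq hd
  simp only [Fintype.card_fin] at hcard
  have ht : 4 ≤ t := by omega
  choose a b haW hbW haa hbb hab hexp using fun i => exists_frame hF (hd.finrank_eq i) (hD.nondegenerate i)
  let i0 : Fin t := ⟨0, by omega⟩
  let i1 : Fin t := ⟨1, by omega⟩
  let i2 : Fin t := ⟨2, by omega⟩
  let i3 : Fin t := ⟨3, by omega⟩
  have h01 : i0 ≠ i1 := by simp [i0, i1, Fin.ext_iff]
  have h02 : i0 ≠ i2 := by simp [i0, i2, Fin.ext_iff]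
  have h03 : i0 ≠ i3 := by simp [i0, i3, Fin.ext_iff]
  have h12 : i1 ≠ i2 := by simp [i1, i2, Fin.ext_iff]
  have h13 : i1 ≠ i3 := by simp [i1, i3, Fin.ext_iff]
  have h23 : i2 ≠ i3 := by simp [i2, i3, Fin.ext_iff]
  -- inner products of the frame
  have aaa : ∀ i j, hh (a i) (a j) = if i = j then 1 else 0 := by
    intro i j
    by_cases hij : i = j
    · subst hij
      rw [if_pos rfl, haa]
    · rw [if_neg hij]
      exact hD.orthogonal i j hij _ (haW i) _ (haW j)
  have aab : ∀ i j, hh (a i) (b j) = 0 := by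
    intro i j
    by_cases hij : i = j
    · subst hij
      exact hab i
    · exact hD.orthogonal i j hij _ (haW i) _ (hbW j)
  have aba : ∀ i j, hh (b i) (a j) = 0 := by
    intro i j
    rw [hh_herm hF (a j) (b i), aab]
    simp
  have HHf : ∀ x, HH hd x = ∑ i, (ind (hh x (a i)) + ind (hh x (b i))) := by
    intro x
    unfold HH
    refine Finset.sum_congr rfl fun i _ => ?_
    rw [hh_comp hD x (haW i), hh_comp hD x (hbW i)]
    exact psi_frame hF (haa i) (hbb i) (hab i) (hexp i _ (comp_mem hd i x))
  -- the first element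
  let w : Fin n → F := a i0 + a i1
  have hww : hh w w = 0 := by
    show hh (a i0 + a i1) (a i0 + a i1) = 0
    rw [hh_add_left, hh_add_right h2, hh_add_right h2, aaa, aaa, aaa, aaa]
    simp [h01, h01.symm, h11]
  let g₁ := uT w hww
  have hg₁a : ∀ x i, hh (((g₁ : Matrix.GeneralLinearGroup (Fin n) F) : Matrix _ _ F) *ᵥ x) (a i) =
      hh x (a (Equiv.swap i0 i1 i)) := by
    intro x i
    rw [uT_mulVec, hh_add_left, hh_smul_left]
    have e1 : hh x w = hh x (a i0) + hh x (a i1) := hh_add_right h2 _ _ _
    have e2 : hh w (a i) = (if i0 = i then 1 else 0) + (if i1 = i then 1 else 0) := by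
      show hh (a i0 + a i1) (a i) = _
      rw [hh_add_left, aaa, aaa]
    rw [e1, e2]
    by_cases hi0 : i = i0
    · subst hi0
      rw [Equiv.swap_apply_left, if_pos rfl, if_neg h01.symm]
      linear_combination (hh x (a i0)) * h2
    · by_cases hi1 : i = i1
      · subst hi1
        rw [Equiv.swap_apply_right, if_pos rfl, if_neg h01]
        linear_combination (hh x (a i1)) * h2
      · rw [Equiv.swap_apply_of_ne_of_ne hi0 hi1, if_neg (Ne.symm hi0), if_neg (Ne.symm hi1)]
        ring
  have hg₁b : ∀ x i, hh (((g₁ : Matrix.GeneralLinearGroup (Fin n) F) : Matrix _ _ F) *ᵥ x) (b i) = hh x (b i) := by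
    intro x i
    rw [uT_mulVec, hh_add_left, hh_smul_left]
    have e2 : hh w (b i) = 0 := by
      show hh (a i0 + a i1) (b i) = _
      rw [hh_add_left, aab, aab, add_zero]
    rw [e2, mul_zero, add_zero]
  have hg₁H : g₁ ∈ fnStab (HH hd) := by
    intro x
    rw [HHf, HHf]
    simp only [hg₁a, hg₁b]
    rw [Finset.sum_add_distrib, Finset.sum_add_distrib]
    congr 1
    exact Equiv.sum_comp (Equiv.swap i0 i1) (fun i => ind (hh x (a i)))
  have hg₁S : g₁ ∉ decompositionStabilizer D := by
    have hx : a i0 + b i0 ∈ D i0 := (D i0).add_mem (haW i0) (hbW i0)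
    have hcoef : hh (a i0 + b i0) w = 1 := by
      show hh (a i0 + b i0) (a i0 + a i1) = 1
      rw [hh_add_left, hh_add_right h2, hh_add_right h2, aaa, aaa, aba, aba]
      simp [h01]
    have himg : ((g₁ : Matrix.GeneralLinearGroup (Fin n) F) : Matrix _ _ F) *ᵥ (a i0 + b i0) = b i0 + a i1 := by
      rw [uT_mulVec, hcoef, one_smul]
      show a i0 + b i0 + (a i0 + a i1) = b i0 + a i1
      ext k
      simp only [Pi.add_apply]
      linear_combination (a i0 k) * h2
    refine not_stab_of_two_comp hd g₁ hx h01 ?_ ?_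
    · rw [himg, map_add, comp_same hd (hbW i0), comp_ne hd (haW i1) h01.symm, add_zero]
      intro h
      have := hbb i0
      rw [h, hh_zero_left] at this
      exact zero_ne_one this
    · rw [himg, map_add, comp_ne hd (hbW i0) h01, comp_same hd (haW i1), zero_add]
      intro h
      have := haa i1
      rw [h, hh_zero_left] at this
      exact zero_ne_one this
  -- the second element
  let w' : Fin n → F := a i0 + a i1 + a i2 + a i3
  have e3 : ∀ i, hh w' (a i) = (if i0 = i then 1 else 0) + (if i1 = i then 1 else 0) + (if i2 = i then 1 else 0) +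
      (if i3 = i then 1 else 0) := by
    intro i
    show hh (a i0 + a i1 + a i2 + a i3) (a i) = _
    rw [hh_add_left, hh_add_left, hh_add_left, aaa, aaa, aaa, aaa]
  have e4 : ∀ i, hh w' (b i) = 0 := by
    intro i
    show hh (a i0 + a i1 + a i2 + a i3) (b i) = _
    rw [hh_add_left, hh_add_left, hh_add_left, aab, aab, aab, aab]
    simp
  have hww' : hh w' w' = 0 := by
    have e5 : hh w' w' = hh w' (a i0) + hh w' (a i1) + hh w' (a i2) + hh w' (a i3) := by
      show hh w' (a i0 + a i1 + a i2 + a i3) = _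
      rw [hh_add_right h2, hh_add_right h2, hh_add_right h2]
    rw [e5, e3, e3, e3, e3]
    simp only [if_true, h01, h01.symm, h02, h02.symm, h03, h03.symm, h12, h12.symm, h13, h13.symm, h23, h23.symm,
      if_false, add_zero, zero_add]
    linear_combination 2 * h2
  let g₂ := uT w' hww'
  have hg₂H : g₂ ∉ fnStab (HH hd) := by
    intro hs
    have h5 := hs (a i0)
    have hc : hh (a i0) w' = 1 := by
      show hh (a i0) (a i0 + a i1 + a i2 + a i3) = 1
      rw [hh_add_right h2, hh_add_right h2, hh_add_right h2, aaa, aaa, aaa, aaa]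
      simp [h01, h02, h03]
    rw [uT_mulVec, hc, one_smul, HHf, HHf] at h5
    have lhs : ∑ i, (ind (hh (a i0 + w') (a i)) + ind (hh (a i0 + w') (b i))) = 3 := by
      rw [sum_four h01 h02 h03 h12 h13 h23]
      · simp only [hh_add_left, aaa, aab, aba, e3, e4]
        simp only [if_true, h01, h01.symm, h02, h02.symm, h03, h03.symm, h12, h12.symm, h13, h13.symm, h23, h23.symm,
          if_false, add_zero, zero_add, ind_zero, ind_ne (one_ne_zero (α := F))]
        rw [h11, ind_zero]
      · intro i a0 a1 a2 a3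
        simp only [hh_add_left, aaa, aab, aba, e3, e4]
        rw [if_neg (Ne.symm a0), if_neg (Ne.symm a1), if_neg (Ne.symm a2), if_neg (Ne.symm a3)]
        simp [ind_zero]
    have rhs : ∑ i, (ind (hh (a i0) (a i)) + ind (hh (a i0) (b i))) = 1 := by
      rw [Finset.sum_eq_single i0]
      · rw [aaa, aab, if_pos rfl, ind_zero, ind_ne (one_ne_zero (α := F))]
      · intro j _ hj
        rw [aaa, aab, if_neg (Ne.symm hj), ind_zero]
        rfl
      · simp
    rw [lhs, rhs] at h5
    omega
  refine ⟨(GU n F 2 ⊓ specialLinear (Fin n) F) ⊓ fnStab (HH hd), ?_, ?_⟩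
  · rw [SetLike.lt_iff_le_and_exists]
    constructor
    · rintro g ⟨h4, h5⟩
      exact ⟨h5, fun x => HH_stab hd h4 h5.1 x⟩
    · exact ⟨g₁, ⟨⟨uT_GU hF w hww, uT_SL w hww⟩, hg₁H⟩, fun h => hg₁S h.1⟩
  · rw [SetLike.lt_iff_le_and_exists]
    exact ⟨inf_le_left, g₂, ⟨uT_GU hF w' hww', uT_SL w' hww'⟩, fun h => hg₂H h.2⟩

end CfsgLib.ClassMax.Decomp
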