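import Cfsg.Agent.Lib.ClassMax.TensorO2

/-! Decompositions into hyperbolic planes in `Ω` over small fields. -/

set_option autoImplicit false
set_option linter.unusedSimpArgs false
set_option linter.unusedVariables false
set_option linter.unusedSectionVars false
set_option linter.style.haveILetI false

namespace CfsgLib.ClassMax.OmegaR

open Matrix Cfsg Cfsg.Geo CfsgLib.ClassMax.Decomp CfsgLib.ClassMax.TensorK CfsgLib.ClassGeo CfsgLib.ClassGeo.Orth

variable {F : Type*} [Field F] [Fintype F] {ι : Type} [Fintype ι] [DecidableEq ι] {Q : (ι → F) → F}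

local notation "𝔅" => QuadraticMap.polar Q

theorem q_sum (Q : (ι → F) → F) (a b : ι → F) : Q (a + b) = QuadraticMap.polar Q a b + Q a + Q b := by
  simp only [QuadraticMap.polar]
  ring

theorem hyp_pair (hQ : IsNondegenerateQuadraticForm Q) {W : Submodule F (ι → F)} (hW : Module.finrank F W = 2)
    (hnd : IsNondegenerateOn 𝔅 W) (hp : IsPlusTypeOn Q W) :
    ∃ e f : ι → F, e ∈ W ∧ f ∈ W ∧ Q e = 0 ∧ Q f = 0 ∧ 𝔅 e f = 1 ∧ ∀ x ∈ W, ∃ α β : F, x = α • e + β • f := by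
  classical
  have hB := hQ.polar_bilinear
  obtain ⟨U, hUW, hts, hUd⟩ := hp
  have hU0 : U ≠ ⊥ := by
    rintro rfl
    rw [finrank_bot, hW] at hUd
    omega
  obtain ⟨e, heU, he0⟩ := Submodule.exists_mem_ne_zero_of_ne_bot hU0
  have hQe : Q e = 0 := hts e heU
  have heW := hUW heU
  obtain ⟨-, x, hx, hex⟩ := hnd e heW he0
  obtain ⟨f₀, hf₀⟩ : ∃ f₀, f₀ = (𝔅 e x)⁻¹ • x := ⟨_, rfl⟩
  have hf₀W : f₀ ∈ W := by rw [hf₀]; exact W.smul_mem _ hx
  have hef₀ : 𝔅 e f₀ = 1 := by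
    rw [hf₀, hB.smul_right]
    exact inv_mul_cancel₀ hex
  have hee : 𝔅 e e = 0 := by rw [polar_self' hQ, hQe, mul_zero]
  have hf₀e : 𝔅 f₀ e = 1 := by rw [QuadraticMap.polar_comm]; exact hef₀
  obtain ⟨f, hf⟩ : ∃ f, f = f₀ + (- Q f₀) • e := ⟨_, rfl⟩
  have hfW : f ∈ W := by rw [hf]; exact W.add_mem hf₀W (W.smul_mem _ heW)
  have hQf : Q f = 0 := by
    rw [hf, q_sum Q, hB.smul_right, hf₀e, hQ.smul, hQe]
    ring
  have hef : 𝔅 e f = 1 := by
    rw [hf, hB.add_right, hB.smul_right, hef₀, hee]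
    ring
  have hfe : 𝔅 f e = 1 := by rw [QuadraticMap.polar_comm]; exact hef
  have hff : 𝔅 f f = 0 := by rw [polar_self' hQ, hQf, mul_zero]
  refine ⟨e, f, heW, hfW, hQe, hQf, hef, ?_⟩
  have hind : LinearIndependent F ![e, f] := by
    rw [LinearIndependent.pair_iff]
    intro s r hsr
    have h3 := congrArg (fun u => 𝔅 e u) hsr
    simp only [hB.add_right, hB.smul_right, hef, hee, bil_zero_right hB] at h3
    have h4 := congrArg (fun u => 𝔅 f u) hsr
    simp only [hB.add_right, hB.smul_right, hfe, hff, bil_zero_right hB] at h4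
    exact ⟨by simpa using h4, by simpa using h3⟩
  have hfr := finrank_span_eq_card hind
  have hle : Submodule.span F (Set.range ![e, f]) ≤ W := by
    rw [Submodule.span_le]
    rintro _ ⟨k, rfl⟩
    fin_cases k
    · exact heW
    · exact hfW
  have heq := Submodule.eq_of_le_of_finrank_eq hle (by
    rw [hfr, hW]
    simp)
  intro y hy
  rw [← heq] at hy
  have hx2 : y ∈ Submodule.span F ({e, f} : Set (ι → F)) := by
    convert hy using 2
    simp [Matrix.range_cons, Set.pair_comm, Set.union_comm]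
  obtain ⟨α, β, h⟩ := Submodule.mem_span_pair.mp hx2
  exact ⟨α, β, h.symm⟩

section F5

theorem f5_five (hq : Fintype.card F = 5) : (5 : F) = 0 := by
  have h := FiniteField.cast_card_eq_zero F
  rw [hq] at h
  exact_mod_cast h

theorem f5_two_ne (hq : Fintype.card F = 5) : (2 : F) ≠ 0 := by
  intro h
  have h5 := f5_five hq
  have : (1 : F) = 0 := by linear_combination h5 - 2 * h
  exact one_ne_zero this

theorem f5_cases (hq : Fintype.card F = 5) (a : F) : a = 0 ∨ a = 1 ∨ a = -1 ∨ a = 2 ∨ a = -2 := by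
  have h := FiniteField.pow_card a
  rw [hq] at h
  have h5 := f5_five hq
  have h2 : a * (a - 1) * (a + 1) * (a - 2) * (a + 2) = 0 := by linear_combination h + (a - a ^ 3) * h5
  rcases mul_eq_zero.mp h2 with h3 | h3
  · rcases mul_eq_zero.mp h3 with h4 | h4
    · rcases mul_eq_zero.mp h4 with h6 | h6
      · rcases mul_eq_zero.mp h6 with h7 | h7
        · exact Or.inl h7
        · exact Or.inr (Or.inl (sub_eq_zero.mp h7))
      · exact Or.inr (Or.inr (Or.inl (eq_neg_of_add_eq_zero_left h6)))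
    · exact Or.inr (Or.inr (Or.inr (Or.inl (sub_eq_zero.mp h4))))
  · exact Or.inr (Or.inr (Or.inr (Or.inr (eq_neg_of_add_eq_zero_left h3))))

theorem frame_abs5 (hq : Fintype.card F = 5) (hQ : IsNondegenerateQuadraticForm Q) {t : ℕ}
    {D : Fin t → Submodule F (ι → F)} {A : Type} (jj : A → Fin t) (a : A → ι → F) (μ : F) (hμ : μ ≠ 0)
    (hι : 2 ≤ Fintype.card ι)
    (hor : ∀ i j, i ≠ j → ∀ u ∈ D i, ∀ v ∈ D j, 𝔅 u v = 0)
    (hnd : ∀ i, ∀ w ∈ D i, w ≠ 0 → ∃ x ∈ D i, 𝔅 x w ≠ 0)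
    (ha : ∀ l, a l ∈ D (jj l)) (hQa : ∀ l, Q (a l) = μ) (hort : ∀ l l', l ≠ l' → 𝔅 (a l) (a l') = 0)
    (hchar : ∀ j x, x ∈ D j → Q x = μ → ∃ (s : F) (l : A), jj l = j ∧ x = s • a l)
    (l₀ l₁ l₂ l₃ : A) (h01 : jj l₀ ≠ jj l₁) (h02 : jj l₀ ≠ jj l₂) (h03 : jj l₀ ≠ jj l₃) (h12 : jj l₁ ≠ jj l₂)
    (h13 : jj l₁ ≠ jj l₃) (h23 : jj l₂ ≠ jj l₃)
    (hb : ∃ b ∈ D (jj l₀), b ≠ 0 ∧ 𝔅 b (a l₀) = 0) :
    ∃ K : Subgroup (Matrix.GeneralLinearGroup ι F),
      decompositionStabilizer D ⊓ omegaGL Q < K ∧ K < omegaGL Q := by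
  classical
  have h5 := f5_five hq
  have h20 := f5_two_ne hq
  have hB := hQ.polar_bilinear
  have hcF : Fintype.card F ≠ 2 ∨ Fintype.card ι ≠ 4 := Or.inl (by omega)
  have hQB : ∀ x, Q x = 3 * 𝔅 x x := by
    intro x
    rw [polar_self' hQ]
    linear_combination (-(Q x)) * h5
  have hself : ∀ l, 𝔅 (a l) (a l) = 2 * μ := by
    intro l
    rw [polar_self' hQ, hQa]
  have hcomm : ∀ x y, 𝔅 x y = 𝔅 y x := fun x y => QuadraticMap.polar_comm Q x y
  have hne : ∀ {l l' : A}, jj l ≠ jj l' → l ≠ l' := by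
    rintro l l' h rfl
    exact h rfl
  let S : (ι → F) → Prop := fun x => ∃ j, x ∈ D j ∧ Q x = μ
  have hSa : ∀ l, S (a l) := fun l => ⟨jj l, ha l, hQa l⟩
  have hTS : ∀ g ∈ decompositionStabilizer D ⊓ omegaGL Q, ∀ x, S x → S ((g : Matrix ι ι F) *ᵥ x) := by
    rintro g ⟨⟨σ, hσ⟩, hgO⟩ x ⟨j, hx, hQx⟩
    refine ⟨σ j, ?_, by rw [omega_isom hgO, hQx]⟩
    rw [← hσ j]
    exact Submodule.mem_map_of_mem (f := Matrix.toLin' (g : Matrix ι ι F)) hx
  have hfn : ∀ g ∈ decompositionStabilizer D ⊓ omegaGL Q, g ∈ fnStab S := by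
    intro g hg x
    refine propext ⟨fun h => ?_, hTS g hg x⟩
    have h6 := hTS g⁻¹ (inv_mem hg) _ h
    rwa [Matrix.mulVec_mulVec, ← Units.val_mul, inv_mul_cancel, Units.val_one, Matrix.one_mulVec] at h6
  have hSrf : ∀ v : ι → F, (∀ l, ∃ (s : F) (l' : A), s * s = 1 ∧ rf Q v (a l) = s • a l') →
      ∀ x, S x → S (rf Q v x) := by
    rintro v hv x ⟨j, hx, hQx⟩
    obtain ⟨s, l, rfl, rfl⟩ := hchar j x hx hQx
    obtain ⟨s', l', hs', hrf⟩ := hv l
    have hss : s * s = 1 := by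
      rw [hQ.smul, hQa] at hQx
      have : s ^ 2 = 1 := mul_right_cancel₀ hμ (by rw [hQx, one_mul])
      linear_combination this
    refine ⟨jj l', ?_, ?_⟩
    · rw [rf_smul hQ, hrf]
      exact Submodule.smul_mem _ _ (Submodule.smul_mem _ _ (ha l'))
    · rw [rf_smul hQ, hrf, smul_smul, hQ.smul, hQa]
      have : (s * s') ^ 2 = 1 := by linear_combination (s' * s') * hss + hs'
      rw [this, one_mul]
  have hQd : ∀ l l', l ≠ l' → Q (a l - a l') = 2 * μ := by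
    intro l l' h
    rw [hQB, bil_sub_left hB, bil_sub_right hB, bil_sub_right hB, hself, hself, hort l l' h, hort l' l h.symm]
    linear_combination (2 * μ) * h5
  have hdiff : ∀ l l', l ≠ l' → ∀ l'', ∃ (s : F) (l''' : A), s * s = 1 ∧ rf Q (a l - a l') (a l'') = s • a l''' := by
    intro l l' h l''
    refine ⟨1, ?_⟩
    have hQ2 : (2 * μ) ≠ 0 := mul_ne_zero h20 hμ
    by_cases h1 : l'' = l
    · subst h1
      refine ⟨l', by ring, ?_⟩
      rw [rf, hQd _ _ h, bil_sub_left hB, hself, hort l' l'' h.symm, sub_zero, inv_mul_cancel₀ hQ2, one_smul, one_smul]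
      abel
    by_cases h2 : l'' = l'
    · subst h2
      refine ⟨l, by ring, ?_⟩
      rw [rf, hQd _ _ h, bil_sub_left hB, hself, hort l l'' h, zero_sub, mul_neg, inv_mul_cancel₀ hQ2, neg_smul, one_smul, one_smul]
      abel
    · refine ⟨l'', by ring, ?_⟩
      rw [one_smul]
      apply rf_of_zero
      rw [bil_sub_left hB, hort l l'' (Ne.symm h1), hort l' l'' (Ne.symm h2), sub_zero]
  have hdiff_eq : ∀ l l', l ≠ l' → rf Q (a l - a l') (a l) = a l' := by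
    intro l l' h
    have hQ2 : (2 * μ) ≠ 0 := mul_ne_zero h20 hμ
    rw [rf, hQd _ _ h, bil_sub_left hB, hself, hort l' l h.symm, sub_zero, inv_mul_cancel₀ hQ2, one_smul]
    abel
  let K : Subgroup (Matrix.GeneralLinearGroup ι F) := omegaGL Q ⊓ fnStab S
  have hl01 := hne h01
  have hl02 := hne h02
  have hl03 := hne h03
  have hl12 := hne h12
  have hl13 := hne h13
  have hl23 := hne h23
  refine ⟨K, ?_, ?_⟩
  · rw [SetLike.lt_iff_le_and_exists]
    constructor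
    · rintro g ⟨hgT, hgO⟩
      exact ⟨hgO, hfn g ⟨hgT, hgO⟩⟩
    · have hv0 : Q (a l₀ - a l₁) ≠ 0 := by rw [hQd _ _ hl01]; exact mul_ne_zero h20 hμ
      have hw0 : Q (a l₀ - a l₂) ≠ 0 := by rw [hQd _ _ hl02]; exact mul_ne_zero h20 hμ
      obtain ⟨g, hgO, hg⟩ := omega_two_refl hQ hι hcF hv0 hw0 ⟨2 * μ, by rw [hQd _ _ hl01, hQd _ _ hl02]⟩
      refine ⟨g, ⟨hgO, ?_⟩, ?_⟩
      · intro x
        rw [hg]
        exact two_refl_stab hQ hv0 hw0 (hSrf _ (hdiff _ _ hl01)) (hSrf _ (hdiff _ _ hl02)) x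
      · rintro ⟨⟨σ, hσ⟩, -⟩
        obtain ⟨b, hbm, hb0, hbo⟩ := hb
        have hba2 : 𝔅 (a l₂) b = 0 := hor (jj l₂) (jj l₀) h02.symm _ (ha l₂) _ hbm
        have hba1 : 𝔅 (a l₁) b = 0 := hor (jj l₁) (jj l₀) h01.symm _ (ha l₁) _ hbm
        have hba0 : 𝔅 (a l₀) b = 0 := by rw [hcomm]; exact hbo
        have hgb : ((g : Matrix.GeneralLinearGroup ι F) : Matrix ι ι F) *ᵥ b = b := by
          rw [hg, rf_of_zero (show 𝔅 (a l₀ - a l₂) b = 0 by rw [bil_sub_left hB, hba0, hba2, sub_zero]),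
            rf_of_zero (show 𝔅 (a l₀ - a l₁) b = 0 by rw [bil_sub_left hB, hba0, hba1, sub_zero])]
        have hga : ((g : Matrix.GeneralLinearGroup ι F) : Matrix ι ι F) *ᵥ a l₀ = a l₂ := by
          rw [hg, hdiff_eq _ _ hl02]
          apply rf_of_zero
          rw [bil_sub_left hB, hort _ _ hl02, hort _ _ hl12, sub_zero]
        have hm : ∀ y ∈ D (jj l₀), ((g : Matrix.GeneralLinearGroup ι F) : Matrix ι ι F) *ᵥ y ∈ D (σ (jj l₀)) := by
          intro y hy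
          rw [← hσ (jj l₀)]
          exact Submodule.mem_map_of_mem (f := Matrix.toLin' (g : Matrix ι ι F)) hy
        have h4 := hm _ (ha l₀)
        have h6 := hm _ hbm
        rw [hga] at h4
        rw [hgb] at h6
        have hj : σ (jj l₀) = jj l₂ := by
          by_contra hne2
          have := hor _ _ hne2 _ h4 _ (ha l₂)
          rw [hself] at this
          exact (mul_ne_zero h20 hμ) this
        rw [hj] at h6
        obtain ⟨x, hx, hxb⟩ := hnd _ b hbm hb0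
        exact hxb (hor _ _ h02 _ hx _ h6)
  · rw [SetLike.lt_iff_le_and_exists]
    obtain ⟨v, hv⟩ : ∃ v, v = (2 : F) • a l₀ + a l₁ + a l₂ := ⟨_, rfl⟩
    have hBv0 : 𝔅 v (a l₀) = 4 * μ := by
      rw [hv, hB.add_left, hB.add_left, hB.smul_left, hself, hort _ _ hl01.symm, hort _ _ hl02.symm]
      ring
    have hBv1 : 𝔅 v (a l₁) = 2 * μ := by
      rw [hv, hB.add_left, hB.add_left, hB.smul_left, hself, hort _ _ hl01, hort _ _ hl12.symm]
      ring
    have hBv2 : 𝔅 v (a l₂) = 2 * μ := by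
      rw [hv, hB.add_left, hB.add_left, hB.smul_left, hself, hort _ _ hl02, hort _ _ hl12]
      ring
    have hBv3 : 𝔅 (a l₃) (a l₀) = 0 := hort _ _ hl03.symm
    have hQv : Q v = μ := by
      have h6 : 𝔅 v v = 12 * μ := by
        calc 𝔅 v v = 𝔅 v ((2 : F) • a l₀ + a l₁ + a l₂) := by rw [← hv]
          _ = _ := by
            rw [hB.add_right, hB.add_right, hB.smul_right, hBv0, hBv1, hBv2]
            ring
      rw [hQB, h6]
      linear_combination (7 * μ) * h5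
    have hv0 : Q v ≠ 0 := by rw [hQv]; exact hμ
    have hw0 : Q (a l₃) ≠ 0 := by rw [hQa]; exact hμ
    obtain ⟨g, hgO, hg⟩ := omega_two_refl hQ hι hcF hv0 hw0 ⟨μ, by rw [hQv, hQa]⟩
    refine ⟨inf_le_left, g, hgO, ?_⟩
    rintro ⟨-, hfnS⟩
    have hS := hfnS (a l₀)
    have hS2 : S (((g : Matrix.GeneralLinearGroup ι F) : Matrix ι ι F) *ᵥ a l₀) := by
      rw [hS]
      exact hSa l₀
    rw [hg, rf_of_zero hBv3] at hS2
    have hy : rf Q v (a l₀) = a l₀ - (4 : F) • v := by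
      rw [rf, hBv0, hQv]
      congr 2
      field_simp
    rw [hy] at hS2
    obtain ⟨j, hj, -⟩ := hS2
    have hj1 : j = jj l₁ := by
      by_contra hne2
      have h6 := hor _ _ hne2 _ hj _ (ha l₁)
      rw [bil_sub_left hB, hort _ _ hl01, hB.smul_left, hBv1] at h6
      have h7 : 2 * μ = 0 := by linear_combination h6 + (2 * μ) * h5
      exact (mul_ne_zero h20 hμ) h7
    have hj2 : j = jj l₂ := by
      by_contra hne2
      have h6 := hor _ _ hne2 _ hj _ (ha l₂)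
      rw [bil_sub_left hB, hort _ _ hl02, hB.smul_left, hBv2] at h6
      have h7 : 2 * μ = 0 := by linear_combination h6 + (2 * μ) * h5
      exact (mul_ne_zero h20 hμ) h7
    exact h12 (hj1.symm.trans hj2)

theorem plane5_main (hq : Fintype.card F = 5) (hQ : IsNondegenerateQuadraticForm Q) {t : ℕ}
    {D : Fin t → Submodule F (ι → F)} (hO : IsOrthogonalMDecomposition Q 2 D) (hplus : ∀ i, IsPlusTypeOn Q (D i))
    (ht : 4 ≤ t) :
    ∃ K : Subgroup (Matrix.GeneralLinearGroup ι F),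
      decompositionStabilizer D ⊓ omegaGL Q < K ∧ K < omegaGL Q := by
  classical
  have hd := hO.decomp
  have hm := hd.decomp
  have hB := hQ.polar_bilinear
  have h5 := f5_five hq
  have h20 := f5_two_ne hq
  have hcardι : t * 2 = Fintype.card ι := card_eq hm
  choose e f he hf hQe hQf hef hexp using fun j => hyp_pair hQ (hm.finrank_eq j) (hd.nondegenerate j) (hplus j)
  have hee : ∀ j, 𝔅 (e j) (e j) = 0 := fun j => by rw [polar_self' hQ, hQe, mul_zero]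
  have hff : ∀ j, 𝔅 (f j) (f j) = 0 := fun j => by rw [polar_self' hQ, hQf, mul_zero]
  have hfe : ∀ j, 𝔅 (f j) (e j) = 1 := fun j => by rw [QuadraticMap.polar_comm]; exact hef j
  have hform : ∀ j (s r s' r' : F), 𝔅 (s • e j + r • f j) (s' • e j + r' • f j) = s * r' + r * s' := by
    intro j s r s' r'
    simp only [hB.add_left, hB.add_right, hB.smul_left, hB.smul_right, hee, hff, hef, hfe]
    ring
  have hQform : ∀ j (s r : F), Q (s • e j + r • f j) = s * r := by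
    intro j s r
    rw [q_sum Q, hB.smul_left, hB.smul_right, hef, hQ.smul, hQ.smul, hQe, hQf]
    ring
  let cA : Fin 2 → F := ![1, 2]
  let cB : Fin 2 → F := ![1, 3]
  let a : Fin t × Fin 2 → ι → F := fun l => cA l.2 • e l.1 + cB l.2 • f l.1
  have hmem : ∀ l, a l ∈ D l.1 := fun l => (D l.1).add_mem ((D l.1).smul_mem _ (he l.1)) ((D l.1).smul_mem _ (hf l.1))
  have hQa : ∀ l, Q (a l) = 1 := by
    rintro ⟨j, i⟩
    show Q (cA i • e j + cB i • f j) = 1
    rw [hQform]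
    fin_cases i
    · simp [cA, cB]
    · simp [cA, cB]
      linear_combination h5
  have hor : ∀ i j, i ≠ j → ∀ u ∈ D i, ∀ v ∈ D j, 𝔅 u v = 0 := fun i j hij => hd.orthogonal i j hij
  have hort : ∀ l l', l ≠ l' → 𝔅 (a l) (a l') = 0 := by
    rintro ⟨j, i⟩ ⟨j', i'⟩ hne
    by_cases hj : j = j'
    · subst hj
      have hi : i ≠ i' := fun h => hne (by rw [h])
      show 𝔅 (cA i • e j + cB i • f j) (cA i' • e j + cB i' • f j) = 0
      rw [hform]
      fin_cases i <;> fin_cases i'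
      · exact absurd rfl hi
      · simp [cA, cB]
        linear_combination h5
      · simp [cA, cB]
        linear_combination h5
      · exact absurd rfl hi
    · exact hor j j' hj _ (hmem (j, i)) _ (hmem (j', i'))
  let j₀ : Fin t := ⟨0, by omega⟩
  let j₁ : Fin t := ⟨1, by omega⟩
  let j₂ : Fin t := ⟨2, by omega⟩
  let j₃ : Fin t := ⟨3, by omega⟩
  refine frame_abs5 hq hQ Prod.fst a 1 one_ne_zero (by omega) hor (fun i w hw hw0 => (hd.nondegenerate i w hw hw0).1)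
    hmem hQa hort ?_ (j₀, 0) (j₁, 0) (j₂, 0) (j₃, 0) ?_ ?_ ?_ ?_ ?_ ?_ ?_
  · intro j x hx hQx
    obtain ⟨α, β, rfl⟩ := hexp j x hx
    rw [hQform] at hQx
    rcases f5_cases hq α with h | h | h | h | h
    · rw [h, zero_mul] at hQx
      exact absurd hQx.symm one_ne_zero
    · have hβ : β = 1 := by rw [h, one_mul] at hQx; exact hQx
      refine ⟨1, (j, 0), rfl, ?_⟩
      simp [a, cA, cB, h, hβ]
    · have hβ : β = -1 := by rw [h] at hQx; linear_combination -hQx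
      refine ⟨-1, (j, 0), rfl, ?_⟩
      simp [a, cA, cB, h, hβ]
    · have hβ : β = 3 := by rw [h] at hQx; linear_combination 3 * hQx - β * h5
      refine ⟨1, (j, 1), rfl, ?_⟩
      simp [a, cA, cB, h, hβ]
    · have hβ : β = -3 := by rw [h] at hQx; linear_combination -3 * hQx + β * h5 * (-1)
      refine ⟨-1, (j, 1), rfl, ?_⟩
      simp [a, cA, cB, h, hβ]
  · simp [j₀, j₁, Fin.ext_iff]
  · simp [j₀, j₂, Fin.ext_iff]
  · simp [j₀, j₃, Fin.ext_iff]
  · simp [j₁, j₂, Fin.ext_iff]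
  · simp [j₁, j₃, Fin.ext_iff]
  · simp [j₂, j₃, Fin.ext_iff]
  · refine ⟨a (j₀, 1), hmem (j₀, 1), ?_, ?_⟩
    · intro h
      have h1 := hQa (j₀, 1)
      rw [h] at h1
      have h8 := hQ.smul 0 0
      simp only [zero_smul] at h8
      rw [h8] at h1
      simp at h1
    · exact hort _ _ (by simp)

end F5

section Char2

theorem plane2_main (hq : Fintype.card F = 2) (hQ : IsNondegenerateQuadraticForm Q) {t : ℕ}
    {D : Fin t → Submodule F (ι → F)} (hO : IsOrthogonalMDecomposition Q 2 D) (hplus : ∀ i, IsPlusTypeOn Q (D i))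
    (ht : 4 ≤ t) :
    ∃ K : Subgroup (Matrix.GeneralLinearGroup ι F),
      decompositionStabilizer D ⊓ omegaGL Q < K ∧ K < omegaGL Q := by
  classical
  have hd := hO.decomp
  have hm := hd.decomp
  have hB := hQ.polar_bilinear
  have h11 := f2_two hq
  have h2 : (2 : F) = 0 := by linear_combination h11
  have hcardι : t * 2 = Fintype.card ι := card_eq hm
  have hι : 2 ≤ Fintype.card ι := by omega
  have hcF : Fintype.card F ≠ 2 ∨ Fintype.card ι ≠ 4 := Or.inr (by omega)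
  have hneg : ∀ x : ι → F, -x = x := by
    intro x
    ext i
    have : x i + x i = 0 := by linear_combination (x i) * h11
    simpa using neg_eq_of_add_eq_zero_left this
  have hrf : ∀ w, Q w = 1 → ∀ x, rf Q w x = x + (𝔅 w x) • w := by
    intro w hw x
    rw [rf, hw, inv_one, one_mul, sub_eq_add_neg, hneg]
  choose e f he hf hQe hQf hef hexp using fun j => hyp_pair hQ (hm.finrank_eq j) (hd.nondegenerate j) (hplus j)
  have hor : ∀ i j, i ≠ j → ∀ u ∈ D i, ∀ v ∈ D j, 𝔅 u v = 0 := fun i j hij => hd.orthogonal i j hij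
  have hnd : ∀ i, ∀ w ∈ D i, w ≠ 0 → ∃ x ∈ D i, 𝔅 x w ≠ 0 := fun i w hw hw0 => (hd.nondegenerate i w hw hw0).1
  have hee : ∀ j, 𝔅 (e j) (e j) = 0 := fun j => by rw [polar_self' hQ, hQe, mul_zero]
  have hff : ∀ j, 𝔅 (f j) (f j) = 0 := fun j => by rw [polar_self' hQ, hQf, mul_zero]
  have hfe : ∀ j, 𝔅 (f j) (e j) = 1 := fun j => by rw [QuadraticMap.polar_comm]; exact hef j
  obtain ⟨a, hadef⟩ : ∃ a : Fin t → ι → F, ∀ j, a j = e j + f j := ⟨_, fun _ => rfl⟩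
  have ha : ∀ j, a j ∈ D j := fun j => by
    rw [hadef]
    exact (D j).add_mem (he j) (hf j)
  have hQa : ∀ j, Q (a j) = 1 := by
    intro j
    rw [hadef, q_sum Q, hQe, hQf, hef]
    ring
  have hBaa : ∀ i j, 𝔅 (a i) (a j) = 0 := by
    intro i j
    by_cases hij : i = j
    · subst hij
      rw [polar_self' hQ, h2, zero_mul]
    · exact hor _ _ hij _ (ha i) _ (ha j)
  have hae : ∀ j, 𝔅 (a j) (e j) = 1 := by
    intro j
    rw [hadef, hB.add_left, hee, hfe, zero_add]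
  have hea : ∀ j, 𝔅 (e j) (a j) = 1 := by
    intro j
    rw [QuadraticMap.polar_comm]
    exact hae j
  let S : (ι → F) → Prop := fun x => ∃ j, x ∈ D j ∧ Q x = 1
  have hchar : ∀ x, S x → ∃ j, x = a j := by
    rintro x ⟨j, hx, hQx⟩
    obtain ⟨α, β, rfl⟩ := hexp j x hx
    refine ⟨j, ?_⟩
    rw [hadef]
    have h3 : α * β = 1 := by
      rw [q_sum Q, hB.smul_left, hB.smul_right, hef, hQ.smul, hQ.smul, hQe, hQf] at hQx
      linear_combination hQx
    rcases f2_cases hq α with h | h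
    · rw [h, zero_mul] at h3
      exact absurd h3.symm one_ne_zero
    rcases f2_cases hq β with h' | h'
    · rw [h', mul_zero] at h3
      exact absurd h3.symm one_ne_zero
    · rw [h, h', one_smul, one_smul]
  have hTS : ∀ g ∈ decompositionStabilizer D ⊓ omegaGL Q, ∀ x, S x → S ((g : Matrix ι ι F) *ᵥ x) := by
    rintro g ⟨⟨σ, hσ⟩, hgO⟩ x ⟨j, hx, hQx⟩
    refine ⟨σ j, ?_, by rw [omega_isom hgO, hQx]⟩
    rw [← hσ j]
    exact Submodule.mem_map_of_mem (f := Matrix.toLin' (g : Matrix ι ι F)) hx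
  have hfn : ∀ g ∈ decompositionStabilizer D ⊓ omegaGL Q, g ∈ fnStab S := by
    intro g hg x
    refine propext ⟨fun h => ?_, hTS g hg x⟩
    have h6 := hTS g⁻¹ (inv_mem hg) _ h
    rwa [Matrix.mulVec_mulVec, ← Units.val_mul, inv_mul_cancel, Units.val_one, Matrix.one_mulVec] at h6
  let j₀ : Fin t := ⟨0, by omega⟩
  let j₁ : Fin t := ⟨1, by omega⟩
  let j₂ : Fin t := ⟨2, by omega⟩
  let j₃ : Fin t := ⟨3, by omega⟩
  have h01 : j₀ ≠ j₁ := by simp [j₀, j₁, Fin.ext_iff]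
  have h02 : j₀ ≠ j₂ := by simp [j₀, j₂, Fin.ext_iff]
  have h03 : j₀ ≠ j₃ := by simp [j₀, j₃, Fin.ext_iff]
  have h12 : j₁ ≠ j₂ := by simp [j₁, j₂, Fin.ext_iff]
  have hK : decompositionStabilizer D ⊓ omegaGL Q ≤ omegaGL Q ⊓ fnStab S := by
    rintro g ⟨hgT, hgO⟩
    exact ⟨hgO, hfn g ⟨hgT, hgO⟩⟩
  refine ⟨omegaGL Q ⊓ fnStab S, ?_, ?_⟩
  · rw [SetLike.lt_iff_le_and_exists]
    refine ⟨hK, ?_⟩
    obtain ⟨v, hv⟩ : ∃ v, v = a j₀ + a j₁ + a j₂ := ⟨_, rfl⟩
    have hQv : Q v = 1 := by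
      rw [hv, q_sum Q, q_sum Q, hB.add_left, hBaa, hBaa, hBaa, hQa, hQa, hQa]
      linear_combination h11
    have hva : ∀ j, 𝔅 v (a j) = 0 := by
      intro j
      rw [hv, hB.add_left, hB.add_left, hBaa, hBaa, hBaa]
      ring
    have hQa3 : Q (a j₃) = 1 := hQa j₃
    have hv0 : Q v ≠ 0 := by rw [hQv]; exact one_ne_zero
    have hw0 : Q (a j₃) ≠ 0 := by rw [hQa3]; exact one_ne_zero
    obtain ⟨g, hgO, hg⟩ := omega_two_refl hQ hι hcF hv0 hw0 ⟨1, by rw [hQv, hQa3]⟩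
    refine ⟨g, ⟨hgO, ?_⟩, ?_⟩
    · intro x
      rw [hg]
      refine two_refl_stab hQ hv0 hw0 ?_ ?_ x
      · intro y hy
        obtain ⟨j, rfl⟩ := hchar y hy
        rwa [rf_of_zero (hva j)]
      · intro y hy
        obtain ⟨j, rfl⟩ := hchar y hy
        rwa [rf_of_zero (hBaa j₃ j)]
    · rintro ⟨⟨σ, hσ⟩, -⟩
      have hga : ((g : Matrix.GeneralLinearGroup ι F) : Matrix ι ι F) *ᵥ a j₀ = a j₀ := by
        rw [hg, rf_of_zero (hBaa j₃ j₀), rf_of_zero (hva j₀)]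
      have hge : ((g : Matrix.GeneralLinearGroup ι F) : Matrix ι ι F) *ᵥ e j₀ = e j₀ + v := by
        have h3 : 𝔅 (a j₃) (e j₀) = 0 := hor _ _ h03.symm _ (ha _) _ (he _)
        have h4 : 𝔅 v (e j₀) = 1 := by
          rw [hv, hB.add_left, hB.add_left, hae, hor _ _ h01.symm _ (ha _) _ (he _), hor _ _ h02.symm _ (ha _) _ (he _)]
          ring
        rw [hg, rf_of_zero h3, hrf _ hQv, h4, one_smul]
      have hmem : ∀ y ∈ D j₀, ((g : Matrix.GeneralLinearGroup ι F) : Matrix ι ι F) *ᵥ y ∈ D (σ j₀) := by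
        intro y hy
        rw [← hσ j₀]
        exact Submodule.mem_map_of_mem (f := Matrix.toLin' (g : Matrix ι ι F)) hy
      have h3 := hmem _ (ha j₀)
      rw [hga] at h3
      have h4 := hmem _ (he j₀)
      rw [hge] at h4
      have ha0 : a j₀ ≠ 0 := by
        intro h
        have h5 := hae j₀
        rw [h, bil_zero_left hB] at h5
        exact zero_ne_one h5
      have hs : σ j₀ = j₀ := by
        by_contra hne
        obtain ⟨x, hx, hxa⟩ := hnd _ _ (ha j₀) ha0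
        exact hxa (hor _ _ (Ne.symm hne) _ hx _ h3)
      rw [hs] at h4
      have h5 := hor _ _ h01 _ h4 _ (he j₁)
      rw [hB.add_left, hv, hB.add_left, hB.add_left, hae, hor _ _ h01 _ (he _) _ (he _), hor _ _ h01 _ (ha _) _ (he _),
        hor _ _ h12.symm _ (ha _) _ (he _)] at h5
      have : (1 : F) = 0 := by linear_combination h5
      exact one_ne_zero this
  · rw [SetLike.lt_iff_le_and_exists]
    refine ⟨inf_le_left, ?_⟩
    obtain ⟨u, hu⟩ : ∃ u, u = e j₀ + a j₁ := ⟨_, rfl⟩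
    have hQu : Q u = 1 := by
      rw [hu, q_sum Q, hQe, hQa, hor _ _ h01 _ (he _) _ (ha _)]
      ring
    have hQa2 : Q (a j₂) = 1 := hQa j₂
    have hv0 : Q u ≠ 0 := by rw [hQu]; exact one_ne_zero
    have hw0 : Q (a j₂) ≠ 0 := by rw [hQa2]; exact one_ne_zero
    obtain ⟨g, hgO, hg⟩ := omega_two_refl hQ hι hcF hv0 hw0 ⟨1, by rw [hQu, hQa2]⟩
    refine ⟨g, hgO, ?_⟩
    rintro ⟨-, hfnS⟩
    have hS := hfnS (a j₀)
    have hS2 : S (((g : Matrix.GeneralLinearGroup ι F) : Matrix ι ι F) *ᵥ a j₀) := by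
      rw [hS]
      exact ⟨j₀, ha j₀, hQa j₀⟩
    have hua : 𝔅 u (a j₀) = 1 := by
      rw [hu, hB.add_left, hea, hBaa]
      ring
    rw [hg, rf_of_zero (hBaa j₂ j₀), hrf _ hQu, hua, one_smul] at hS2
    obtain ⟨j, hj, -⟩ := hS2
    have hj0 : j = j₀ := by
      by_contra hne
      have h5 := hor _ _ hne _ hj _ (he j₀)
      rw [hB.add_left, hu, hB.add_left, hae, hee, hor _ _ h01.symm _ (ha _) _ (he _)] at h5
      have : (1 : F) = 0 := by linear_combination h5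
      exact one_ne_zero this
    have hj1 : j = j₁ := by
      by_contra hne
      have h5 := hor _ _ hne _ hj _ (he j₁)
      rw [hB.add_left, hu, hB.add_left, hae, hor _ _ h01 _ (ha _) _ (he _), hor _ _ h01 _ (he _) _ (he _)] at h5
      have : (1 : F) = 0 := by linear_combination h5
      exact one_ne_zero this
    exact h01 (hj0.symm.trans hj1)

theorem plane4_main (hq : Fintype.card F = 4) (hQ : IsNondegenerateQuadraticForm Q) {t : ℕ}
    {D : Fin t → Submodule F (ι → F)} (hO : IsOrthogonalMDecomposition Q 2 D) (hplus : ∀ i, IsPlusTypeOn Q (D i))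
    (ht : 4 ≤ t) :
    ∃ K : Subgroup (Matrix.GeneralLinearGroup ι F),
      decompositionStabilizer D ⊓ omegaGL Q < K ∧ K < omegaGL Q := by
  classical
  have hd := hO.decomp
  have hm := hd.decomp
  have hB := hQ.polar_bilinear
  have h2 : (2 : F) = 0 := f4_two hq
  have hcardι : t * 2 = Fintype.card ι := card_eq hm
  have hι : 2 ≤ Fintype.card ι := by omega
  have hcF : Fintype.card F ≠ 2 ∨ Fintype.card ι ≠ 4 := Or.inr (by omega)
  have hneg : ∀ x : ι → F, -x = x := by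
    intro x
    ext i
    have : x i + x i = 0 := by linear_combination (x i) * h2
    simpa using neg_eq_of_add_eq_zero_left this
  have hrf : ∀ w, Q w = 1 → ∀ x, rf Q w x = x + (𝔅 w x) • w := by
    intro w hw x
    rw [rf, hw, inv_one, one_mul, sub_eq_add_neg, hneg]
  obtain ⟨ω, hω0, hω1⟩ := f4_exists_ne hq 1
  have hωω : ω ^ 2 + ω + 1 = 0 := by
    have h3 := f4_cube hq ω hω0
    have h4 : (ω - 1) * (ω ^ 2 + ω + 1) = 0 := by linear_combination h3
    exact (mul_eq_zero.mp h4).resolve_left (sub_ne_zero.mpr hω1)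
  have hroot : ∀ s : F, s ≠ 0 → s + s ^ 2 = 0 ∨ s + s ^ 2 = 1 := by
    intro s hs
    have h3 := f4_cube hq s hs
    have h4 : (s - 1) * (s ^ 2 + s + 1) = 0 := by linear_combination h3
    rcases mul_eq_zero.mp h4 with h5 | h5
    · left
      have h6 : s = 1 := sub_eq_zero.mp h5
      rw [h6]
      linear_combination h2
    · right
      linear_combination h5 - h2
  choose e f he hf hQe hQf hef hexp using fun j => hyp_pair hQ (hm.finrank_eq j) (hd.nondegenerate j) (hplus j)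
  have hor : ∀ i j, i ≠ j → ∀ u ∈ D i, ∀ v ∈ D j, 𝔅 u v = 0 := fun i j hij => hd.orthogonal i j hij
  have hnd : ∀ i, ∀ w ∈ D i, w ≠ 0 → ∃ x ∈ D i, 𝔅 x w ≠ 0 := fun i w hw hw0 => (hd.nondegenerate i w hw hw0).1
  have hee : ∀ j, 𝔅 (e j) (e j) = 0 := fun j => by rw [polar_self' hQ, hQe, mul_zero]
  have hff : ∀ j, 𝔅 (f j) (f j) = 0 := fun j => by rw [polar_self' hQ, hQf, mul_zero]
  have hfe : ∀ j, 𝔅 (f j) (e j) = 1 := fun j => by rw [QuadraticMap.polar_comm]; exact hef j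
  have hform : ∀ j (s r s' r' : F), 𝔅 (s • e j + r • f j) (s' • e j + r' • f j) = s * r' + r * s' := by
    intro j s r s' r'
    simp only [hB.add_left, hB.add_right, hB.smul_left, hB.smul_right, hee, hff, hef, hfe]
    ring
  have hQform : ∀ j (s r : F), Q (s • e j + r • f j) = s * r := by
    intro j s r
    rw [q_sum Q, hB.smul_left, hB.smul_right, hef, hQ.smul, hQ.smul, hQe, hQf]
    ring
  let S : (ι → F) → Prop := fun x => ∃ j, x ∈ D j ∧ Q x = 1
  let C : AddSubgroup (ι → F) := AddSubgroup.closure {x | S x}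
  have hSC : ∀ x, S x → x ∈ C := fun x hx => AddSubgroup.subset_closure hx
  have hTS : ∀ g ∈ decompositionStabilizer D ⊓ omegaGL Q, ∀ x, S x → S ((g : Matrix ι ι F) *ᵥ x) := by
    rintro g ⟨⟨σ, hσ⟩, hgO⟩ x ⟨j, hx, hQx⟩
    refine ⟨σ j, ?_, by rw [omega_isom hgO, hQx]⟩
    rw [← hσ j]
    exact Submodule.mem_map_of_mem (f := Matrix.toLin' (g : Matrix ι ι F)) hx
  have hTC : ∀ g ∈ decompositionStabilizer D ⊓ omegaGL Q, ∀ x, x ∈ C → (g : Matrix ι ι F) *ᵥ x ∈ C := by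
    intro g hg x hx
    induction hx using AddSubgroup.closure_induction with
    | mem y hy => exact hSC _ (hTS g hg y hy)
    | zero => rw [Matrix.mulVec_zero]; exact C.zero_mem
    | add y z _ _ hy hz => rw [Matrix.mulVec_add]; exact C.add_mem hy hz
    | neg y _ hy => rw [Matrix.mulVec_neg]; exact C.neg_mem hy
  have hfn : ∀ g ∈ decompositionStabilizer D ⊓ omegaGL Q, g ∈ fnStab (fun x => x ∈ C) := by
    intro g hg x
    refine propext ⟨fun h => ?_, hTC g hg x⟩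
    have h6 := hTC g⁻¹ (inv_mem hg) _ h
    rwa [Matrix.mulVec_mulVec, ← Units.val_mul, inv_mul_cancel, Units.val_one, Matrix.one_mulVec] at h6
  -- the values of the form on the structure
  have hvS : ∀ x y, S x → S y → 𝔅 x y = 0 ∨ 𝔅 x y = 1 := by
    rintro x y ⟨i, hx, hQx⟩ ⟨j, hy, hQy⟩
    by_cases hij : i = j
    · subst hij
      obtain ⟨α, β, rfl⟩ := hexp i x hx
      obtain ⟨α', β', rfl⟩ := hexp i y hy
      rw [hQform] at hQx hQy
      rw [hform]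
      have hne : α * β' ≠ 0 := by
        intro h
        rcases mul_eq_zero.mp h with h | h
        · rw [h, zero_mul] at hQx
          exact zero_ne_one hQx
        · rw [h, mul_zero] at hQy
          exact zero_ne_one hQy
      have hsq : β * α' = (α * β') ^ 2 := by
        have h3 := f4_cube hq _ hne
        have h4 : (α * β') * (β * α') = 1 := by
          calc (α * β') * (β * α') = (α * β) * (α' * β') := by ring
            _ = 1 := by rw [hQx, hQy, one_mul]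
        have h5 : (α * β') * (β * α') = (α * β') * (α * β') ^ 2 := by
          rw [h4]
          linear_combination -h3
        exact mul_left_cancel₀ hne h5
      rw [hsq]
      exact hroot _ hne
    · left
      exact hor _ _ hij _ hx _ hy
  have hadd01 : ∀ a b : F, (a = 0 ∨ a = 1) → (b = 0 ∨ b = 1) → (a + b = 0 ∨ a + b = 1) := by
    rintro a b (rfl | rfl) (rfl | rfl)
    · left; ring
    · right; ring
    · right; ring
    · left; linear_combination h2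
  have hneg01 : ∀ a : F, (a = 0 ∨ a = 1) → (-a = 0 ∨ -a = 1) := by
    rintro a (rfl | rfl)
    · left; ring
    · right; linear_combination (-1 : F) * h2
  have hval : ∀ x ∈ C, ∀ y ∈ C, 𝔅 x y = 0 ∨ 𝔅 x y = 1 := by
    intro x hx y hy
    induction hx using AddSubgroup.closure_induction with
    | mem a ha =>
      induction hy using AddSubgroup.closure_induction with
      | mem b hb => exact hvS a b ha hb
      | zero => left; exact bil_zero_right hB a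
      | add b c _ _ h1 h3 =>
        rw [hB.add_right]
        exact hadd01 _ _ h1 h3
      | neg b _ h1 =>
        have : 𝔅 a (-b) = - 𝔅 a b := by
          have : -b = (-1 : F) • b := by simp
          rw [this, hB.smul_right]
          ring
        rw [this]
        exact hneg01 _ h1
    | zero => left; exact bil_zero_left hB y
    | add a b _ _ h1 h3 =>
      rw [hB.add_left]
      exact hadd01 _ _ h1 h3
    | neg a _ h1 =>
      have : 𝔅 (-a) y = - 𝔅 a y := by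
        have : -a = (-1 : F) • a := by simp
        rw [this, hB.smul_left]
        ring
      rw [this]
      exact hneg01 _ h1
  have hrfC : ∀ w ∈ C, Q w = 1 → ∀ x, x ∈ C → rf Q w x ∈ C := by
    intro w hw hQw x hx
    rw [hrf w hQw]
    rcases hval w hw x hx with h | h
    · rw [h, zero_smul, add_zero]
      exact hx
    · rw [h, one_smul]
      exact C.add_mem hx hw
  obtain ⟨a, hadef⟩ : ∃ a : Fin t → ι → F, ∀ j, a j = (1 : F) • e j + (1 : F) • f j := ⟨_, fun _ => rfl⟩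
  obtain ⟨b, hbdef⟩ : ∃ b : Fin t → ι → F, ∀ j, b j = ω • e j + (ω ^ 2) • f j := ⟨_, fun _ => rfl⟩
  have ha : ∀ j, a j ∈ D j := fun j => by
    rw [hadef]
    exact (D j).add_mem ((D j).smul_mem _ (he j)) ((D j).smul_mem _ (hf j))
  have hb : ∀ j, b j ∈ D j := fun j => by
    rw [hbdef]
    exact (D j).add_mem ((D j).smul_mem _ (he j)) ((D j).smul_mem _ (hf j))
  have hQa : ∀ j, Q (a j) = 1 := fun j => by
    rw [hadef, hQform, one_mul]
  have hQb : ∀ j, Q (b j) = 1 := fun j => by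
    rw [hbdef, hQform]
    linear_combination f4_cube hq ω hω0
  have haC : ∀ j, a j ∈ C := fun j => hSC _ ⟨j, ha j, hQa j⟩
  have hbC : ∀ j, b j ∈ C := fun j => hSC _ ⟨j, hb j, hQb j⟩
  have hBaa : ∀ i j, 𝔅 (a i) (a j) = 0 := by
    intro i j
    by_cases hij : i = j
    · subst hij
      rw [polar_self' hQ, h2, zero_mul]
    · exact hor _ _ hij _ (ha i) _ (ha j)
  have hBbb : ∀ j, 𝔅 (b j) (b j) = 0 := fun j => by rw [polar_self' hQ, h2, zero_mul]
  have hBab : ∀ j, 𝔅 (a j) (b j) = 1 := by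
    intro j
    rw [hadef, hbdef, hform]
    linear_combination hωω - h2
  let j₀ : Fin t := ⟨0, by omega⟩
  let j₁ : Fin t := ⟨1, by omega⟩
  let j₂ : Fin t := ⟨2, by omega⟩
  let j₃ : Fin t := ⟨3, by omega⟩
  have h01 : j₀ ≠ j₁ := by simp [j₀, j₁, Fin.ext_iff]
  have h02 : j₀ ≠ j₂ := by simp [j₀, j₂, Fin.ext_iff]
  have h03 : j₀ ≠ j₃ := by simp [j₀, j₃, Fin.ext_iff]
  have h12 : j₁ ≠ j₂ := by simp [j₁, j₂, Fin.ext_iff]
  have hK : decompositionStabilizer D ⊓ omegaGL Q ≤ omegaGL Q ⊓ fnStab (fun x => x ∈ C) := by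
    rintro g ⟨hgT, hgO⟩
    exact ⟨hgO, hfn g ⟨hgT, hgO⟩⟩
  refine ⟨omegaGL Q ⊓ fnStab (fun x => x ∈ C), ?_, ?_⟩
  · rw [SetLike.lt_iff_le_and_exists]
    refine ⟨hK, ?_⟩
    obtain ⟨v, hv⟩ : ∃ v, v = a j₀ + a j₁ + a j₂ := ⟨_, rfl⟩
    have hvC : v ∈ C := by
      rw [hv]
      exact C.add_mem (C.add_mem (haC _) (haC _)) (haC _)
    have hQv : Q v = 1 := by
      rw [hv, q_sum Q, q_sum Q, hB.add_left, hBaa, hBaa, hBaa, hQa, hQa, hQa]
      linear_combination h2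
    have hQa3 : Q (a j₃) = 1 := hQa j₃
    have hv0 : Q v ≠ 0 := by rw [hQv]; exact one_ne_zero
    have hw0 : Q (a j₃) ≠ 0 := by rw [hQa3]; exact one_ne_zero
    obtain ⟨g, hgO, hg⟩ := omega_two_refl hQ hι hcF hv0 hw0 ⟨1, by rw [hQv, hQa3]⟩
    refine ⟨g, ⟨hgO, ?_⟩, ?_⟩
    · intro x
      rw [hg]
      exact two_refl_stab hQ hv0 hw0 (fun y hy => hrfC v hvC hQv y hy) (fun y hy => hrfC _ (haC j₃) hQa3 y hy) x
    · rintro ⟨⟨σ, hσ⟩, -⟩
      have hva : 𝔅 v (a j₀) = 0 := by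
        rw [hv, hB.add_left, hB.add_left, hBaa, hBaa, hBaa]
        ring
      have hga : ((g : Matrix.GeneralLinearGroup ι F) : Matrix ι ι F) *ᵥ a j₀ = a j₀ := by
        rw [hg, rf_of_zero (hBaa j₃ j₀), rf_of_zero hva]
      have hge : ((g : Matrix.GeneralLinearGroup ι F) : Matrix ι ι F) *ᵥ b j₀ = b j₀ + v := by
        have h3 : 𝔅 (a j₃) (b j₀) = 0 := hor _ _ h03.symm _ (ha _) _ (hb _)
        have h4 : 𝔅 v (b j₀) = 1 := by
          rw [hv, hB.add_left, hB.add_left, hBab, hor _ _ h01.symm _ (ha _) _ (hb _), hor _ _ h02.symm _ (ha _) _ (hb _)]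
          ring
        rw [hg, rf_of_zero h3, hrf _ hQv, h4, one_smul]
      have hmem : ∀ y ∈ D j₀, ((g : Matrix.GeneralLinearGroup ι F) : Matrix ι ι F) *ᵥ y ∈ D (σ j₀) := by
        intro y hy
        rw [← hσ j₀]
        exact Submodule.mem_map_of_mem (f := Matrix.toLin' (g : Matrix ι ι F)) hy
      have h3 := hmem _ (ha j₀)
      rw [hga] at h3
      have h4 := hmem _ (hb j₀)
      rw [hge] at h4
      have ha0 : a j₀ ≠ 0 := by
        intro h
        have h5 := hBab j₀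
        rw [h, bil_zero_left hB] at h5
        exact zero_ne_one h5
      have hs : σ j₀ = j₀ := by
        by_contra hne
        obtain ⟨x, hx, hxa⟩ := hnd _ _ (ha j₀) ha0
        exact hxa (hor _ _ (Ne.symm hne) _ hx _ h3)
      rw [hs] at h4
      have h5 := hor _ _ h01 _ h4 _ (hb j₁)
      rw [hB.add_left, hv, hB.add_left, hB.add_left, hBab, hor _ _ h01 _ (hb _) _ (hb _), hor _ _ h01 _ (ha _) _ (hb _),
        hor _ _ h12.symm _ (ha _) _ (hb _)] at h5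
      have : (1 : F) = 0 := by linear_combination h5
      exact one_ne_zero this
  · rw [SetLike.lt_iff_le_and_exists]
    refine ⟨inf_le_left, ?_⟩
    obtain ⟨u, hu⟩ : ∃ u, u = ω • a j₀ + a j₁ := ⟨_, rfl⟩
    have hQu : Q u = ω := by
      rw [hu, q_sum Q, hB.smul_left, hBaa, hQ.smul, hQa, hQa]
      linear_combination hωω - h2 * ω
    have hQa2 : Q (a j₂) = 1 := hQa j₂
    have hv0 : Q u ≠ 0 := by rw [hQu]; exact hω0
    have hw0 : Q (a j₂) ≠ 0 := by rw [hQa2]; exact one_ne_zero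
    obtain ⟨g, hgO, hg⟩ := omega_two_refl hQ hι hcF hv0 hw0 ⟨ω ^ 2, by
      rw [hQu, hQa2, mul_one]
      linear_combination (-(1 : F)) * (f4_four hq ω)⟩
    refine ⟨g, hgO, ?_⟩
    rintro ⟨-, hfnS⟩
    have hS := hfnS (b j₀)
    have hS2 : ((g : Matrix.GeneralLinearGroup ι F) : Matrix ι ι F) *ᵥ b j₀ ∈ C := by
      have : (b j₀ ∈ C) := hbC j₀
      exact (cast hS.symm this)
    have hub : 𝔅 u (b j₀) = ω := by
      rw [hu, hB.add_left, hB.smul_left, hBab, hor _ _ h01.symm _ (ha _) _ (hb _)]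
      ring
    have h3 : 𝔅 (a j₂) (b j₀) = 0 := hor _ _ h02.symm _ (ha _) _ (hb _)
    have hform2 : rf Q u (b j₀) = b j₀ - u := by
      rw [rf, hQu, hub, inv_mul_cancel₀ hω0, one_smul]
    rw [hg, rf_of_zero h3, hform2] at hS2
    rcases hval _ hS2 _ (hbC j₀) with h | h
    · rw [bil_sub_left hB, hBbb, hub] at h
      exact hω0 (by linear_combination -h)
    · rw [bil_sub_left hB, hBbb, hub] at h
      apply hω1
      linear_combination -h - h2

theorem exists_dual2 (hq : Fintype.card F = 2) (hQ : IsNondegenerateQuadraticForm Q) {W : Submodule F (ι → F)}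
    (hnd : IsNondegenerateOn 𝔅 W) {e₁ e₂ : ι → F} (h1 : e₁ ∈ W) (h2 : e₂ ∈ W) (h10 : e₁ ≠ 0) (h20 : e₂ ≠ 0)
    (h120 : e₁ + e₂ ≠ 0) :
    ∃ f ∈ W, 𝔅 e₁ f = 1 ∧ 𝔅 e₂ f = 0 := by
  have hB := hQ.polar_bilinear
  have h11 := f2_two hq
  have hone : ∀ a : F, a ≠ 0 → a = 1 := fun a ha => (f2_cases hq a).resolve_left ha
  obtain ⟨-, x, hx, hex⟩ := hnd e₁ h1 h10
  obtain ⟨-, y, hy, hey⟩ := hnd e₂ h2 h20
  obtain ⟨-, z, hz, hez⟩ := hnd (e₁ + e₂) (W.add_mem h1 h2) h120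
  have hx1 := hone _ hex
  have hy1 := hone _ hey
  have hz1 := hone _ hez
  rw [hB.add_left] at hz1
  rcases f2_cases hq (𝔅 e₂ x) with a | a
  · exact ⟨x, hx, hx1, a⟩
  rcases f2_cases hq (𝔅 e₁ y) with b | b
  · exact ⟨x + y, W.add_mem hx hy, by rw [hB.add_right, hx1, b, add_zero], by rw [hB.add_right, a, hy1, h11]⟩
  rcases f2_cases hq (𝔅 e₁ z) with c | c
  · have hh : 𝔅 e₂ z = 1 := by
      rw [c, zero_add] at hz1
      exact hz1
    exact ⟨x + z, W.add_mem hx hz, by rw [hB.add_right, hx1, c, add_zero], by rw [hB.add_right, a, hh, h11]⟩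
  · have hh : 𝔅 e₂ z = 0 := by
      rw [c] at hz1
      linear_combination hz1
    exact ⟨z, hz, c, hh⟩

theorem hyp_four (hq : Fintype.card F = 2) (hQ : IsNondegenerateQuadraticForm Q) {W : Submodule F (ι → F)}
    (hW : Module.finrank F W = 4) (hnd : IsNondegenerateOn 𝔅 W) (hp : IsPlusTypeOn Q W) :
    ∃ e₁ f₁ e₂ f₂ : ι → F, e₁ ∈ W ∧ f₁ ∈ W ∧ e₂ ∈ W ∧ f₂ ∈ W ∧ Q e₁ = 0 ∧ Q f₁ = 0 ∧ Q e₂ = 0 ∧ Q f₂ = 0 ∧
      𝔅 e₁ f₁ = 1 ∧ 𝔅 e₂ f₂ = 1 ∧ 𝔅 e₁ e₂ = 0 ∧ 𝔅 e₁ f₂ = 0 ∧ 𝔅 f₁ e₂ = 0 ∧ 𝔅 f₁ f₂ = 0 ∧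
      ∀ x ∈ W, ∃ a b c d : F, x = a • e₁ + b • f₁ + c • e₂ + d • f₂ := by
  classical
  have hB := hQ.polar_bilinear
  have h11 := f2_two hq
  have h2 : (2 : F) = 0 := by linear_combination h11
  obtain ⟨U, hUW, hts, hUd⟩ := hp
  have hU2 : Module.finrank F U = 2 := by
    rw [hW] at hUd
    omega
  let bb := Module.finBasisOfFinrankEq F U hU2
  have hind : ∀ a b : F, a • (bb 0 : ι → F) + b • (bb 1 : ι → F) = 0 → a = 0 ∧ b = 0 := by
    intro a b h
    have h3 := Fintype.linearIndependent_iff.mp bb.linearIndependent ![a, b] (by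
      rw [Fin.sum_univ_two]
      apply Subtype.ext
      simpa using h)
    exact ⟨by simpa using h3 0, by simpa using h3 1⟩
  obtain ⟨e₁, he₁⟩ : ∃ e₁ : ι → F, e₁ = (bb 0 : ι → F) := ⟨_, rfl⟩
  obtain ⟨e₂, he₂⟩ : ∃ e₂ : ι → F, e₂ = (bb 1 : ι → F) := ⟨_, rfl⟩
  have he₁U : e₁ ∈ U := by rw [he₁]; exact (bb 0).2
  have he₂U : e₂ ∈ U := by rw [he₂]; exact (bb 1).2
  rw [← he₁, ← he₂] at hind
  have h10 : e₁ ≠ 0 := fun h => one_ne_zero (hind 1 0 (by rw [h]; simp)).1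
  have h20 : e₂ ≠ 0 := fun h => one_ne_zero (hind 0 1 (by rw [h]; simp)).2
  have h120 : e₁ + e₂ ≠ 0 := fun h => one_ne_zero (hind 1 1 (by rw [one_smul, one_smul]; exact h)).1
  have h210 : e₂ + e₁ ≠ 0 := by rwa [add_comm]
  have hQe₁ := hts _ he₁U
  have hQe₂ := hts _ he₂U
  have hee₁₂ : 𝔅 e₁ e₂ = 0 := by
    have := hts _ (U.add_mem he₁U he₂U)
    rw [q_sum Q, hQe₁, hQe₂] at this
    linear_combination this
  have hee₂₁ : 𝔅 e₂ e₁ = 0 := by rw [QuadraticMap.polar_comm]; exact hee₁₂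
  have hee₁ : 𝔅 e₁ e₁ = 0 := by rw [polar_self' hQ, hQe₁, mul_zero]
  have hee₂ : 𝔅 e₂ e₂ = 0 := by rw [polar_self' hQ, hQe₂, mul_zero]
  have he₁W := hUW he₁U
  have he₂W := hUW he₂U
  obtain ⟨f₁₀, hf₁₀W, h3, h4⟩ := exists_dual2 hq hQ hnd he₁W he₂W h10 h20 h120
  obtain ⟨f₂₀, hf₂₀W, h5, h6⟩ := exists_dual2 hq hQ hnd he₂W he₁W h20 h10 h210
  have hsym : ∀ x y, 𝔅 x y = 𝔅 y x := fun x y => QuadraticMap.polar_comm _ _ _
  obtain ⟨f₁, hf₁⟩ : ∃ f₁, f₁ = f₁₀ + (Q f₁₀) • e₁ := ⟨_, rfl⟩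
  have hf₁W : f₁ ∈ W := by rw [hf₁]; exact W.add_mem hf₁₀W (W.smul_mem _ he₁W)
  have hQf₁ : Q f₁ = 0 := by
    rw [hf₁, q_sum Q, hB.smul_right, hsym f₁₀ e₁, h3, hQ.smul, hQe₁]
    linear_combination (Q f₁₀) * h2
  have he₁f₁ : 𝔅 e₁ f₁ = 1 := by
    rw [hf₁, hB.add_right, hB.smul_right, hee₁, h3]
    ring
  have he₂f₁ : 𝔅 e₂ f₁ = 0 := by
    rw [hf₁, hB.add_right, hB.smul_right, hee₂₁, h4]
    ring
  obtain ⟨f₂₁, hf₂₁⟩ : ∃ f₂₁, f₂₁ = f₂₀ + (𝔅 f₁ f₂₀) • e₁ := ⟨_, rfl⟩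
  have hf₂₁W : f₂₁ ∈ W := by rw [hf₂₁]; exact W.add_mem hf₂₀W (W.smul_mem _ he₁W)
  have he₁f₂₁ : 𝔅 e₁ f₂₁ = 0 := by
    rw [hf₂₁, hB.add_right, hB.smul_right, hee₁, h6]
    ring
  have he₂f₂₁ : 𝔅 e₂ f₂₁ = 1 := by
    rw [hf₂₁, hB.add_right, hB.smul_right, hee₂₁, h5]
    ring
  have hf₁f₂₁ : 𝔅 f₁ f₂₁ = 0 := by
    rw [hf₂₁, hB.add_right, hB.smul_right, hsym f₁ e₁, he₁f₁]
    linear_combination (𝔅 f₁ f₂₀) * h2
  obtain ⟨f₂, hf₂⟩ : ∃ f₂, f₂ = f₂₁ + (Q f₂₁) • e₂ := ⟨_, rfl⟩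
  have hf₂W : f₂ ∈ W := by rw [hf₂]; exact W.add_mem hf₂₁W (W.smul_mem _ he₂W)
  have hQf₂ : Q f₂ = 0 := by
    rw [hf₂, q_sum Q, hB.smul_right, hsym f₂₁ e₂, he₂f₂₁, hQ.smul, hQe₂]
    linear_combination (Q f₂₁) * h2
  have he₁f₂ : 𝔅 e₁ f₂ = 0 := by
    rw [hf₂, hB.add_right, hB.smul_right, hee₁₂, he₁f₂₁]
    ring
  have he₂f₂ : 𝔅 e₂ f₂ = 1 := by
    rw [hf₂, hB.add_right, hB.smul_right, hee₂, he₂f₂₁]
    ring
  have hf₁f₂ : 𝔅 f₁ f₂ = 0 := by
    rw [hf₂, hB.add_right, hB.smul_right, hsym f₁ e₂, he₂f₁, hf₁f₂₁]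
    ring
  have hf₁f₁ : 𝔅 f₁ f₁ = 0 := by rw [polar_self' hQ, hQf₁, mul_zero]
  have hf₂f₂ : 𝔅 f₂ f₂ = 0 := by rw [polar_self' hQ, hQf₂, mul_zero]
  refine ⟨e₁, f₁, e₂, f₂, he₁W, hf₁W, he₂W, hf₂W, hQe₁, hQf₁, hQe₂, hQf₂, he₁f₁, he₂f₂, hee₁₂, he₁f₂,
    by rw [hsym]; exact he₂f₁, hf₁f₂, ?_⟩
  have hindep : LinearIndependent F ![e₁, f₁, e₂, f₂] := by
    rw [Fintype.linearIndependent_iff]
    intro g hg
    rw [Fin.sum_univ_four] at hg
    simp only [Matrix.cons_val_zero, Matrix.cons_val_one, Matrix.cons_val] at hg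
    have hp : ∀ y, g 0 * 𝔅 e₁ y + g 1 * 𝔅 f₁ y + g 2 * 𝔅 e₂ y + g 3 * 𝔅 f₂ y = 0 := by
      intro y
      have := congrArg (fun u => 𝔅 u y) hg
      simpa only [hB.add_left, hB.smul_left, bil_zero_left hB] using this
    have h0 := hp f₁
    have h1 := hp e₁
    have h2' := hp f₂
    have h3' := hp e₂
    rw [he₁f₁, hf₁f₁, he₂f₁, hsym f₂ f₁, hf₁f₂] at h0
    rw [hee₁, hsym f₁ e₁, he₁f₁, hee₂₁, hsym f₂ e₁, he₁f₂] at h1
    rw [he₁f₂, hf₁f₂, he₂f₂, hf₂f₂] at h2'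
    rw [hee₁₂, hsym f₁ e₂, he₂f₁, hee₂, hsym f₂ e₂, he₂f₂] at h3'
    intro i
    fin_cases i
    · simpa using h0
    · simpa using h1
    · simpa using h2'
    · simpa using h3'
  have hfr := finrank_span_eq_card hindep
  have hle : Submodule.span F (Set.range ![e₁, f₁, e₂, f₂]) ≤ W := by
    rw [Submodule.span_le]
    rintro _ ⟨k, rfl⟩
    fin_cases k
    · exact he₁W
    · exact hf₁W
    · exact he₂W
    · exact hf₂W
  have heq := Submodule.eq_of_le_of_finrank_eq hle (by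
    rw [hfr, hW]
    simp)
  intro y hy
  rw [← heq] at hy
  obtain ⟨c, hc⟩ := (Submodule.mem_span_range_iff_exists_fun F).mp hy
  rw [Fin.sum_univ_four] at hc
  refine ⟨c 0, c 1, c 2, c 3, ?_⟩
  rw [← hc]
  simp

theorem four_planes (hq : Fintype.card F = 2) (hQ : IsNondegenerateQuadraticForm Q) {W : Submodule F (ι → F)}
    (hW : Module.finrank F W = 4) (hnd : IsNondegenerateOn 𝔅 W) (hp : IsPlusTypeOn Q W) :
    ∃ A B : Fin 2 → ι → F, (∀ i, A i ∈ W) ∧ (∀ i, B i ∈ W) ∧ (∀ i, Q (A i) = 1) ∧ (∀ i, Q (B i) = 1) ∧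
      (∀ i, 𝔅 (A i) (B i) = 1) ∧ (∀ i j, i ≠ j → 𝔅 (A i) (A j) = 0) ∧ (∀ i j, i ≠ j → 𝔅 (A i) (B j) = 0) ∧
      (∀ i j, i ≠ j → 𝔅 (B i) (B j) = 0) ∧
      ∀ x ∈ W, Q x = 1 → ∃ i, x = A i ∨ x = B i ∨ x = A i + B i := by
  classical
  have hB := hQ.polar_bilinear
  have h11 := f2_two hq
  have h2 : (2 : F) = 0 := by linear_combination h11
  obtain ⟨e₁, f₁, e₂, f₂, he₁, hf₁, he₂, hf₂, hQe₁, hQf₁, hQe₂, hQf₂, hef₁, hef₂, hee, hef, hfe, hff, hspan⟩ :=
    hyp_four hq hQ hW hnd hp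
  have hsym : ∀ x y, 𝔅 x y = 𝔅 y x := fun x y => QuadraticMap.polar_comm _ _ _
  have hee₁ : 𝔅 e₁ e₁ = 0 := by rw [polar_self' hQ, hQe₁, mul_zero]
  have hee₂ : 𝔅 e₂ e₂ = 0 := by rw [polar_self' hQ, hQe₂, mul_zero]
  have hf₁f₁ : 𝔅 f₁ f₁ = 0 := by rw [polar_self' hQ, hQf₁, mul_zero]
  have hf₂f₂ : 𝔅 f₂ f₂ = 0 := by rw [polar_self' hQ, hQf₂, mul_zero]
  have hform : ∀ a b c d a' b' c' d' : F, 𝔅 (a • e₁ + b • f₁ + c • e₂ + d • f₂) (a' • e₁ + b' • f₁ + c' • e₂ + d' • f₂)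
      = a * b' + b * a' + c * d' + d * c' := by
    intro a b c d a' b' c' d'
    simp only [hB.add_left, hB.add_right, hB.smul_left, hB.smul_right, hee₁, hee₂, hf₁f₁, hf₂f₂, hef₁, hef₂, hee, hef,
      hfe, hff, hsym f₁ e₁, hsym e₂ e₁, hsym e₂ f₁, hsym f₂ e₁, hsym f₂ f₁, hsym f₂ e₂]
    ring
  have hQform : ∀ a b c d : F, Q (a • e₁ + b • f₁ + c • e₂ + d • f₂) = a * b + c * d := by
    intro a b c d
    rw [q_sum Q, q_sum Q, q_sum Q]
    simp only [hB.add_left, hB.add_right, hB.smul_left, hB.smul_right, hee₁, hee₂, hf₁f₁, hf₂f₂, hef₁, hef₂, hee, hef,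
      hfe, hff, hsym f₁ e₁, hsym e₂ e₁, hsym e₂ f₁, hsym f₂ e₁, hsym f₂ f₁, hsym f₂ e₂, hQ.smul, hQe₁, hQe₂, hQf₁, hQf₂]
    ring
  have hmem : ∀ a b c d : F, a • e₁ + b • f₁ + c • e₂ + d • f₂ ∈ W := fun a b c d =>
    W.add_mem (W.add_mem (W.add_mem (W.smul_mem _ he₁) (W.smul_mem _ hf₁)) (W.smul_mem _ he₂)) (W.smul_mem _ hf₂)
  let vv : F → F → F → F → ι → F := fun a b c d => a • e₁ + b • f₁ + c • e₂ + d • f₂
  have hvv : ∀ a b c d a' b' c' d' : F, vv a b c d + vv a' b' c' d' = vv (a + a') (b + b') (c + c') (d + d') := by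
    intro a b c d a' b' c' d'
    simp only [vv]
    module
  refine ⟨![vv 1 1 0 0, vv 0 0 1 1], ![vv 1 0 1 1, vv 1 1 1 0], ?_, ?_, ?_, ?_, ?_, ?_, ?_, ?_, ?_⟩
  · intro i
    fin_cases i <;> exact hmem _ _ _ _
  · intro i
    fin_cases i <;> exact hmem _ _ _ _
  · intro i
    fin_cases i
    · show Q (vv 1 1 0 0) = 1
      simp only [vv, hQform]
      ring
    · show Q (vv 0 0 1 1) = 1
      simp only [vv, hQform]
      ring
  · intro i
    fin_cases i
    · show Q (vv 1 0 1 1) = 1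
      simp only [vv, hQform]
      ring
    · show Q (vv 1 1 1 0) = 1
      simp only [vv, hQform]
      ring
  · intro i
    fin_cases i
    · show 𝔅 (vv 1 1 0 0) (vv 1 0 1 1) = 1
      simp only [vv, hform]
      ring
    · show 𝔅 (vv 0 0 1 1) (vv 1 1 1 0) = 1
      simp only [vv, hform]
      ring
  · intro i j hij
    fin_cases i <;> fin_cases j
    · exact absurd rfl hij
    · show 𝔅 (vv 1 1 0 0) (vv 0 0 1 1) = 0
      simp only [vv, hform]
      ring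
    · show 𝔅 (vv 0 0 1 1) (vv 1 1 0 0) = 0
      simp only [vv, hform]
      ring
    · exact absurd rfl hij
  · intro i j hij
    fin_cases i <;> fin_cases j
    · exact absurd rfl hij
    · show 𝔅 (vv 1 1 0 0) (vv 1 1 1 0) = 0
      simp only [vv, hform]
      linear_combination h2
    · show 𝔅 (vv 0 0 1 1) (vv 1 0 1 1) = 0
      simp only [vv, hform]
      linear_combination h2
    · exact absurd rfl hij
  · intro i j hij
    fin_cases i <;> fin_cases j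
    · exact absurd rfl hij
    · show 𝔅 (vv 1 0 1 1) (vv 1 1 1 0) = 0
      simp only [vv, hform]
      linear_combination h2
    · show 𝔅 (vv 1 1 1 0) (vv 1 0 1 1) = 0
      simp only [vv, hform]
      linear_combination h2
    · exact absurd rfl hij
  · intro x hx hQx
    obtain ⟨a, b, c, d, rfl⟩ := hspan x hx
    rw [hQform] at hQx
    have hadd0 : (1 : F) + 1 = 0 := h11
    have hA0 : (![vv 1 1 0 0, vv 0 0 1 1] : Fin 2 → ι → F) 0 = vv 1 1 0 0 := rfl
    have hA1 : (![vv 1 1 0 0, vv 0 0 1 1] : Fin 2 → ι → F) 1 = vv 0 0 1 1 := rfl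
    have hB0 : (![vv 1 0 1 1, vv 1 1 1 0] : Fin 2 → ι → F) 0 = vv 1 0 1 1 := rfl
    have hB1 : (![vv 1 0 1 1, vv 1 1 1 0] : Fin 2 → ι → F) 1 = vv 1 1 1 0 := rfl
    have hgoal : ∀ (a b c d : F), (a = 1 ∧ b = 1 ∧ c = 0 ∧ d = 0) ∨ (a = 1 ∧ b = 0 ∧ c = 1 ∧ d = 1) ∨
        (a = 0 ∧ b = 1 ∧ c = 1 ∧ d = 1) ∨ (a = 0 ∧ b = 0 ∧ c = 1 ∧ d = 1) ∨ (a = 1 ∧ b = 1 ∧ c = 1 ∧ d = 0) ∨
        (a = 1 ∧ b = 1 ∧ c = 0 ∧ d = 1) ∨ a * b + c * d ≠ 1 := by
      intro a b c d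
      rcases f2_cases hq a with rfl | rfl <;> rcases f2_cases hq b with rfl | rfl <;>
        rcases f2_cases hq c with rfl | rfl <;> rcases f2_cases hq d with rfl | rfl <;>
        simp [hadd0]
    rcases hgoal a b c d with ⟨rfl, rfl, rfl, rfl⟩ | ⟨rfl, rfl, rfl, rfl⟩ | ⟨rfl, rfl, rfl, rfl⟩ |
      ⟨rfl, rfl, rfl, rfl⟩ | ⟨rfl, rfl, rfl, rfl⟩ | ⟨rfl, rfl, rfl, rfl⟩ | h
    · exact ⟨0, Or.inl rfl⟩
    · exact ⟨0, Or.inr (Or.inl rfl)⟩
    · refine ⟨0, Or.inr (Or.inr ?_)⟩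
      rw [hA0, hB0, hvv]
      simp only [vv, hadd0, add_zero, zero_add]
    · exact ⟨1, Or.inl rfl⟩
    · exact ⟨1, Or.inr (Or.inl rfl)⟩
    · refine ⟨1, Or.inr (Or.inr ?_)⟩
      rw [hA1, hB1, hvv]
      simp only [vv, hadd0, add_zero, zero_add]
    · exact absurd hQx h

theorem omega_siegel2 (hq : Fintype.card F = 2) (hQ : IsNondegenerateQuadraticForm Q)
    (hι : 2 ≤ Fintype.card ι) (hι4 : Fintype.card ι ≠ 4) {u v C : ι → F} (hu : Q u = 0) (hv : Q v = 0)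
    (huv : 𝔅 u v = 0) (hC : Q C = 1) (huC : 𝔅 u C = 0) (hvC : 𝔅 v C = 0) :
    ∃ g ∈ omegaGL Q, ∀ x, ((g : Matrix.GeneralLinearGroup ι F) : Matrix ι ι F) *ᵥ x = x + 𝔅 u x • v + 𝔅 v x • u := by
  classical
  have hB := hQ.polar_bilinear
  have h11 := f2_two hq
  have h2 : (2 : F) = 0 := by linear_combination h11
  have hsym : ∀ x y, 𝔅 x y = 𝔅 y x := fun x y => QuadraticMap.polar_comm _ _ _
  have hneg : ∀ x : ι → F, -x = x := by
    intro x
    ext i
    have : x i + x i = 0 := by linear_combination (x i) * h2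
    simpa using neg_eq_of_add_eq_zero_left this
  have hrf : ∀ w, Q w = 1 → ∀ x, rf Q w x = x + (𝔅 w x) • w := by
    intro w hw x
    rw [rf, hw, inv_one, one_mul, sub_eq_add_neg, hneg]
  have hself : ∀ y, 𝔅 y y = 0 := fun y => by rw [polar_self' hQ, h2, zero_mul]
  have hcF : Fintype.card F ≠ 2 ∨ Fintype.card ι ≠ 4 := Or.inr hι4
  have hQuC : Q (u + C) = 1 := by rw [q_sum Q, huC, hu, hC]; ring
  have hQCv : Q (C + v) = 1 := by rw [q_sum Q, hsym, hvC, hv, hC]; ring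
  have hQuCv : Q (u + (C + v)) = 1 := by
    rw [q_sum Q, hB.add_right, huC, huv, hu, hQCv]
    ring
  have h1ne : (1 : F) ≠ 0 := one_ne_zero
  obtain ⟨g₁, hg₁O, hg₁⟩ := omega_two_refl hQ hι hcF (v := u + C) (w := C) (by rw [hQuC]; exact h1ne)
    (by rw [hC]; exact h1ne) ⟨1, by rw [hQuC, hC]⟩
  obtain ⟨g₂, hg₂O, hg₂⟩ := omega_two_refl hQ hι hcF (v := u + (C + v)) (w := C + v) (by rw [hQuCv]; exact h1ne)
    (by rw [hQCv]; exact h1ne) ⟨1, by rw [hQuCv, hQCv]⟩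
  refine ⟨g₁ * g₂, mul_mem hg₁O hg₂O, ?_⟩
  intro x
  rw [Units.val_mul, ← Matrix.mulVec_mulVec, hg₂, hg₁]
  obtain ⟨a, ha⟩ : ∃ a, a = 𝔅 u x := ⟨_, rfl⟩
  obtain ⟨b, hb⟩ : ∃ b, b = 𝔅 C x := ⟨_, rfl⟩
  obtain ⟨c, hc⟩ : ∃ c, c = 𝔅 v x := ⟨_, rfl⟩
  have hCu : 𝔅 C u = 0 := by rw [hsym]; exact huC
  have hCv : 𝔅 C v = 0 := by rw [hsym]; exact hvC
  have hvu : 𝔅 v u = 0 := by rw [hsym]; exact huv
  rw [← ha, ← hc, hrf _ hQCv, hB.add_left, ← hb, ← hc, hrf _ hQuCv]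
  obtain ⟨y₁, hy₁⟩ : ∃ y₁, y₁ = x + (b + c) • (C + v) := ⟨_, rfl⟩
  rw [← hy₁]
  have h3 : 𝔅 (u + (C + v)) y₁ = a + b + c := by
    rw [hy₁]
    simp only [hB.add_left, hB.add_right, hB.smul_right, hself, huC, huv, hCu, hCv, hvu, hvC, ← ha, ← hb, ← hc]
    ring
  rw [h3]
  obtain ⟨y, hy⟩ : ∃ y, y = y₁ + (a + b + c) • (u + (C + v)) := ⟨_, rfl⟩
  rw [← hy, hrf _ hC]
  have h4 : 𝔅 C y = b := by
    rw [hy, hy₁]
    simp only [hB.add_left, hB.add_right, hB.smul_right, hself, huC, huv, hCu, hCv, hvu, hvC, ← ha, ← hb, ← hc]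
    ring
  have h5 : 𝔅 u y = a := by
    rw [hy, hy₁]
    simp only [hB.add_left, hB.add_right, hB.smul_right, hself, huC, huv, hCu, hCv, hvu, hvC, ← ha, ← hb, ← hc]
    ring
  rw [h4, hrf _ hQuC]
  have h6 : 𝔅 (u + C) (y + b • C) = a + b := by
    rw [hB.add_left, hB.add_right, hB.add_right, hB.smul_right, hB.smul_right, h5, h4, hself, huC]
    ring
  rw [h6, hy, hy₁]
  funext i
  simp only [Pi.add_apply, Pi.smul_apply, smul_eq_mul]
  linear_combination (u i * (a + b) + v i * (b + c) + C i * (a + 2 * b + c)) * h2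

theorem planes_abs (hq : Fintype.card F = 2) (hQ : IsNondegenerateQuadraticForm Q) {t : ℕ}
    {D : Fin t → Submodule F (ι → F)} {L : Type} [DecidableEq L] (jj : L → Fin t) (A B : L → ι → F)
    (hι : 2 ≤ Fintype.card ι) (hι4 : Fintype.card ι ≠ 4)
    (hor : ∀ i j, i ≠ j → ∀ u ∈ D i, ∀ v ∈ D j, 𝔅 u v = 0)
    (hA : ∀ l, A l ∈ D (jj l)) (hB' : ∀ l, B l ∈ D (jj l))
    (hQA : ∀ l, Q (A l) = 1) (hQB : ∀ l, Q (B l) = 1) (hAB : ∀ l, 𝔅 (A l) (B l) = 1)
    (hAA' : ∀ l l', l ≠ l' → 𝔅 (A l) (A l') = 0) (hAB' : ∀ l l', l ≠ l' → 𝔅 (A l) (B l') = 0)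
    (hBB' : ∀ l l', l ≠ l' → 𝔅 (B l) (B l') = 0)
    (hchar : ∀ j x, x ∈ D j → Q x = 1 → ∃ l, jj l = j ∧ (x = A l ∨ x = B l ∨ x = A l + B l))
    (l₀ l₀' l₁ l₂ l₃ : L) (h00 : jj l₀ = jj l₀') (hne : l₀ ≠ l₀') (h01 : jj l₀ ≠ jj l₁) (h02 : jj l₀ ≠ jj l₂)
    (h03 : jj l₀ ≠ jj l₃) (h12 : jj l₁ ≠ jj l₂) (h13 : jj l₁ ≠ jj l₃) (h23 : jj l₂ ≠ jj l₃) :
    ∃ K : Subgroup (Matrix.GeneralLinearGroup ι F),
      decompositionStabilizer D ⊓ omegaGL Q < K ∧ K < omegaGL Q := by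
  classical
  have hB := hQ.polar_bilinear
  have h11 := f2_two hq
  have h2 : (2 : F) = 0 := by linear_combination h11
  have hsym : ∀ x y, 𝔅 x y = 𝔅 y x := fun x y => QuadraticMap.polar_comm _ _ _
  have hself : ∀ y, 𝔅 y y = 0 := fun y => by rw [polar_self' hQ, h2, zero_mul]
  have hneg : ∀ x : ι → F, -x = x := by
    intro x
    ext i
    have : x i + x i = 0 := by linear_combination (x i) * h2
    simpa using neg_eq_of_add_eq_zero_left this
  have hrf : ∀ w, Q w = 1 → ∀ x, rf Q w x = x + (𝔅 w x) • w := by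
    intro w hw x
    rw [rf, hw, inv_one, one_mul, sub_eq_add_neg, hneg]
  have hBA : ∀ l, 𝔅 (B l) (A l) = 1 := fun l => by rw [hsym]; exact hAB l
  have hBA' : ∀ l l', l ≠ l' → 𝔅 (B l) (A l') = 0 := fun l l' h => by rw [hsym]; exact hAB' l' l h.symm
  have hcF : Fintype.card F ≠ 2 ∨ Fintype.card ι ≠ 4 := Or.inr hι4
  let S : (ι → F) → Prop := fun x => ∃ j, x ∈ D j ∧ Q x = 1
  have hSA : ∀ l, S (A l) := fun l => ⟨jj l, hA l, hQA l⟩
  have hSB : ∀ l, S (B l) := fun l => ⟨jj l, hB' l, hQB l⟩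
  have hSAB : ∀ l, S (A l + B l) := fun l => ⟨jj l, (D _).add_mem (hA l) (hB' l), by
    rw [q_sum Q, hAB, hQA, hQB]
    linear_combination h11⟩
  have hTS : ∀ g ∈ decompositionStabilizer D ⊓ omegaGL Q, ∀ x, S x → S ((g : Matrix ι ι F) *ᵥ x) := by
    rintro g ⟨⟨σ, hσ⟩, hgO⟩ x ⟨j, hx, hQx⟩
    refine ⟨σ j, ?_, by rw [omega_isom hgO, hQx]⟩
    rw [← hσ j]
    exact Submodule.mem_map_of_mem (f := Matrix.toLin' (g : Matrix ι ι F)) hx
  have hfn : ∀ g ∈ decompositionStabilizer D ⊓ omegaGL Q, g ∈ fnStab S := by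
    intro g hg x
    refine propext ⟨fun h => ?_, hTS g hg x⟩
    have h6 := hTS g⁻¹ (inv_mem hg) _ h
    rwa [Matrix.mulVec_mulVec, ← Units.val_mul, inv_mul_cancel, Units.val_one, Matrix.one_mulVec] at h6
  have hK : decompositionStabilizer D ⊓ omegaGL Q ≤ omegaGL Q ⊓ fnStab S := by
    rintro g ⟨hgT, hgO⟩
    exact ⟨hgO, hfn g ⟨hgT, hgO⟩⟩
  have hne₀ : l₀' ≠ l₁ := fun h => h01 (by rw [h00, h])
  have hne₁ : l₀ ≠ l₁ := fun h => h01 (by rw [h])
  have hne₂ : l₀ ≠ l₂ := fun h => h02 (by rw [h])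
  have hne₃ : l₀ ≠ l₃ := fun h => h03 (by rw [h])
  have hne₄ : l₁ ≠ l₂ := fun h => h12 (by rw [h])
  have hne₅ : l₁ ≠ l₃ := fun h => h13 (by rw [h])
  have hne₆ : l₂ ≠ l₃ := fun h => h23 (by rw [h])
  have hne₇ : l₀' ≠ l₂ := fun h => h02 (by rw [h00, h])
  refine ⟨omegaGL Q ⊓ fnStab S, ?_, ?_⟩
  · rw [SetLike.lt_iff_le_and_exists]
    refine ⟨hK, ?_⟩
    obtain ⟨u, hu⟩ : ∃ u, u = A l₀' + A l₁ := ⟨_, rfl⟩
    obtain ⟨v, hv⟩ : ∃ v, v = B l₀' + B l₁ := ⟨_, rfl⟩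
    have hQu : Q u = 0 := by
      rw [hu, q_sum Q, hAA' _ _ hne₀, hQA, hQA]
      linear_combination h11
    have hQv : Q v = 0 := by
      rw [hv, q_sum Q, hBB' _ _ hne₀, hQB, hQB]
      linear_combination h11
    have huv : 𝔅 u v = 0 := by
      rw [hu, hv, hB.add_left, hB.add_right, hB.add_right, hAB, hAB, hAB' _ _ hne₀, hAB' _ _ hne₀.symm]
      linear_combination h11
    have huC : 𝔅 u (A l₂) = 0 := by
      rw [hu, hB.add_left, hAA' _ _ hne₇, hAA' _ _ hne₄, add_zero]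
    have hvC : 𝔅 v (A l₂) = 0 := by
      rw [hv, hB.add_left, hBA' _ _ hne₇, hBA' _ _ hne₄, add_zero]
    obtain ⟨g, hgO, hg⟩ := omega_siegel2 hq hQ hι hι4 hQu hQv huv (hQA l₂) huC hvC
    -- the action on the generators
    have hτA : ∀ m, ∃ m', g.1 *ᵥ A m = A m' ∧ g.1 *ᵥ B m = B m' := by
      intro m
      by_cases hm0 : m = l₀'
      · subst hm0
        refine ⟨l₁, ?_, ?_⟩
        · rw [hg, hu, hv, hB.add_left, hB.add_left, hself, hAA' _ _ hne₀.symm, hBA, hBA' _ _ hne₀.symm]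
          funext i
          simp only [Pi.add_apply, Pi.smul_apply, smul_eq_mul]
          linear_combination (A m i) * h2
        · rw [hg, hu, hv, hB.add_left, hB.add_left, hAB, hAB' _ _ hne₀.symm, hself, hBB' _ _ hne₀.symm]
          funext i
          simp only [Pi.add_apply, Pi.smul_apply, smul_eq_mul]
          linear_combination (B m i) * h2
      by_cases hm1 : m = l₁
      · subst hm1
        refine ⟨l₀', ?_, ?_⟩
        · rw [hg, hu, hv, hB.add_left, hB.add_left, hAA' _ _ hne₀, hself, hBA' _ _ hne₀, hBA]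
          funext i
          simp only [Pi.add_apply, Pi.smul_apply, smul_eq_mul]
          linear_combination (A m i) * h2
        · rw [hg, hu, hv, hB.add_left, hB.add_left, hAB' _ _ hne₀, hAB, hBB' _ _ hne₀, hself]
          funext i
          simp only [Pi.add_apply, Pi.smul_apply, smul_eq_mul]
          linear_combination (B m i) * h2
      · refine ⟨m, ?_, ?_⟩
        · rw [hg, hu, hv, hB.add_left, hB.add_left, hAA' _ _ (Ne.symm hm0), hAA' _ _ (Ne.symm hm1),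
            hBA' _ _ (Ne.symm hm0), hBA' _ _ (Ne.symm hm1)]
          simp
        · rw [hg, hu, hv, hB.add_left, hB.add_left, hAB' _ _ (Ne.symm hm0), hAB' _ _ (Ne.symm hm1),
            hBB' _ _ (Ne.symm hm0), hBB' _ _ (Ne.symm hm1)]
          simp
    have hinv : ∀ x, g.1 *ᵥ (g.1 *ᵥ x) = x := by
      intro x
      rw [hg, hg, hB.add_right, hB.add_right, hB.add_right, hB.add_right, hB.smul_right, hB.smul_right,
        hB.smul_right, hB.smul_right, huv, hself u, hself v, hsym v u, huv]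
      funext i
      simp only [Pi.add_apply, Pi.smul_apply, smul_eq_mul]
      linear_combination (𝔅 u x * v i + 𝔅 v x * u i) * h2
    have hmap : ∀ x, S x → S (g.1 *ᵥ x) := by
      rintro x ⟨j, hx, hQx⟩
      obtain ⟨l, -, h⟩ := hchar j x hx hQx
      obtain ⟨m', h3, h4⟩ := hτA l
      rcases h with rfl | rfl | rfl
      · rw [h3]; exact hSA m'
      · rw [h4]; exact hSB m'
      · rw [Matrix.mulVec_add, h3, h4]; exact hSAB m'
    refine ⟨g, ⟨hgO, ?_⟩, ?_⟩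
    · intro x
      refine propext ⟨fun h => ?_, hmap x⟩
      have := hmap _ h
      rwa [hinv] at this
    · rintro ⟨⟨σ, hσ⟩, -⟩
      have hga : g.1 *ᵥ A l₀ = A l₀ := by
        rw [hg, hu, hv, hB.add_left, hB.add_left, hAA' _ _ (Ne.symm hne), hAA' _ _ hne₁.symm,
          hBA' _ _ (Ne.symm hne), hBA' _ _ hne₁.symm]
        simp
      have hge : g.1 *ᵥ A l₀' = A l₁ := by
        rw [hg, hu, hv, hB.add_left, hB.add_left, hself, hAA' _ _ hne₀.symm, hBA, hBA' _ _ hne₀.symm]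
        funext i
        simp only [Pi.add_apply, Pi.smul_apply, smul_eq_mul]
        linear_combination (A l₀' i) * h2
      have hmem : ∀ y ∈ D (jj l₀), g.1 *ᵥ y ∈ D (σ (jj l₀)) := by
        intro y hy
        rw [← hσ (jj l₀)]
        exact Submodule.mem_map_of_mem (f := Matrix.toLin' (g : Matrix ι ι F)) hy
      have h3 := hmem _ (hA l₀)
      rw [hga] at h3
      have h4 := hmem (A l₀') (by rw [h00]; exact hA l₀')
      rw [hge] at h4
      have hs : σ (jj l₀) = jj l₀ := by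
        by_contra hne'
        have := hor _ _ hne' _ h3 _ (hB' l₀)
        rw [hAB] at this
        exact one_ne_zero this
      rw [hs] at h4
      have := hor _ _ h01 _ h4 _ (hB' l₁)
      rw [hAB] at this
      exact one_ne_zero this
  · rw [SetLike.lt_iff_le_and_exists]
    refine ⟨inf_le_left, ?_⟩
    obtain ⟨u, hu⟩ : ∃ u, u = A l₀ + A l₁ + A l₂ := ⟨_, rfl⟩
    have hQu : Q u = 1 := by
      rw [hu, q_sum Q, q_sum Q, hB.add_left, hAA' _ _ hne₁, hAA' _ _ hne₂, hAA' _ _ hne₄, hQA, hQA, hQA]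
      linear_combination h11
    have h1ne : (1 : F) ≠ 0 := one_ne_zero
    obtain ⟨g, hgO, hg⟩ := omega_two_refl hQ hι hcF (v := u) (w := A l₃) (by rw [hQu]; exact h1ne)
      (by rw [hQA]; exact h1ne) ⟨1, by rw [hQu, hQA]⟩
    refine ⟨g, hgO, ?_⟩
    rintro ⟨-, hfnS⟩
    have hS := hfnS (B l₀)
    have hS2 : S (((g : Matrix.GeneralLinearGroup ι F) : Matrix ι ι F) *ᵥ B l₀) := by
      rw [hS]
      exact hSB l₀
    have hub : 𝔅 u (B l₀) = 1 := by
      rw [hu, hB.add_left, hB.add_left, hAB, hAB' _ _ hne₁.symm, hAB' _ _ hne₂.symm]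
      ring
    rw [hg, rf_of_zero (hAB' _ _ hne₃.symm), hrf _ hQu, hub, one_smul] at hS2
    obtain ⟨j, hj, -⟩ := hS2
    have hj0 : j = jj l₀ := by
      by_contra hne'
      have h5 := hor _ _ hne' _ hj _ (hB' l₀)
      rw [hB.add_left, hself, hub] at h5
      exact one_ne_zero (by linear_combination h5)
    have hj1 : j = jj l₁ := by
      by_contra hne'
      have h5 := hor _ _ hne' _ hj _ (hB' l₁)
      rw [hB.add_left, hBB' _ _ hne₁, hu, hB.add_left, hB.add_left, hAB' _ _ hne₁, hAB, hAB' _ _ hne₄.symm] at h5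
      exact one_ne_zero (by linear_combination h5)
    exact h01 (hj0.symm.trans hj1)

theorem four2_main (hq : Fintype.card F = 2) (hQ : IsNondegenerateQuadraticForm Q) {t : ℕ}
    {D : Fin t → Submodule F (ι → F)} (hO : IsOrthogonalMDecomposition Q 4 D) (hplus : ∀ i, IsPlusTypeOn Q (D i))
    (ht : 4 ≤ t) :
    ∃ K : Subgroup (Matrix.GeneralLinearGroup ι F),
      decompositionStabilizer D ⊓ omegaGL Q < K ∧ K < omegaGL Q := by
  classical
  have hd := hO.decomp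
  have hm := hd.decomp
  have hcardι : t * 4 = Fintype.card ι := card_eq hm
  have hι : 2 ≤ Fintype.card ι := by omega
  have hι4 : Fintype.card ι ≠ 4 := by omega
  choose A B hA hB' hQA hQB hAB hAA hAB' hBB hchar using
    fun j => four_planes hq hQ (hm.finrank_eq j) (hd.nondegenerate j) (hplus j)
  have hor : ∀ i j, i ≠ j → ∀ u ∈ D i, ∀ v ∈ D j, 𝔅 u v = 0 := fun i j hij => hd.orthogonal i j hij
  have hne : ∀ l l' : Fin t × Fin 2, l ≠ l' → l.1 = l'.1 → l.2 ≠ l'.2 := by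
    rintro ⟨a, b⟩ ⟨c, d⟩ h1 h2 h3
    exact h1 (Prod.ext h2 h3)
  let j₀ : Fin t := ⟨0, by omega⟩
  let j₁ : Fin t := ⟨1, by omega⟩
  let j₂ : Fin t := ⟨2, by omega⟩
  let j₃ : Fin t := ⟨3, by omega⟩
  refine planes_abs hq hQ (L := Fin t × Fin 2) Prod.fst (fun l => A l.1 l.2) (fun l => B l.1 l.2) hι hι4 hor
    (fun l => hA _ _) (fun l => hB' _ _) (fun l => hQA _ _) (fun l => hQB _ _) (fun l => hAB _ _) ?_ ?_ ?_ ?_
    (j₀, 0) (j₀, 1) (j₁, 0) (j₂, 0) (j₃, 0) rfl (by simp) ?_ ?_ ?_ ?_ ?_ ?_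
  · intro l l' h
    by_cases h1 : l.1 = l'.1
    · have := hne l l' h h1
      obtain ⟨a, b⟩ := l
      obtain ⟨c, d⟩ := l'
      obtain rfl : a = c := h1
      exact hAA a b d this
    · exact hor _ _ h1 _ (hA _ _) _ (hA _ _)
  · intro l l' h
    by_cases h1 : l.1 = l'.1
    · have := hne l l' h h1
      obtain ⟨a, b⟩ := l
      obtain ⟨c, d⟩ := l'
      obtain rfl : a = c := h1
      exact hAB' a b d this
    · exact hor _ _ h1 _ (hA _ _) _ (hB' _ _)
  · intro l l' h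
    by_cases h1 : l.1 = l'.1
    · have := hne l l' h h1
      obtain ⟨a, b⟩ := l
      obtain ⟨c, d⟩ := l'
      obtain rfl : a = c := h1
      exact hBB a b d this
    · exact hor _ _ h1 _ (hB' _ _) _ (hB' _ _)
  · intro j x hx hQx
    obtain ⟨i, h⟩ := hchar j x hx hQx
    exact ⟨(j, i), rfl, h⟩
  all_goals simp [j₀, j₁, j₂, j₃, Fin.ext_iff]

end Char2

end CfsgLib.ClassMax.OmegaR
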