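import Cfsg.Agent.Lib.ClassMax.OmegaRefl

/-! Decomposition stabilisers in `Ω` over `F₃` via frames of equal norm. -/

set_option autoImplicit false
set_option linter.unusedSimpArgs false
set_option linter.unusedVariables false
set_option linter.unusedSectionVars false
set_option linter.style.haveILetI false

namespace CfsgLib.ClassMax.OmegaR

open Matrix Cfsg Cfsg.Geo CfsgLib.ClassMax.Decomp CfsgLib.ClassMax.TensorK CfsgLib.ClassGeo CfsgLib.ClassGeo.Orth

variable {F : Type*} [Field F] [Fintype F] {ι : Type} [Fintype ι] [DecidableEq ι] {Q : (ι → F) → F}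

local notation "𝔅" => QuadraticMap.polar Q

theorem bil_sub_right {B : (ι → F) → (ι → F) → F} (hB : IsBilinearForm B) (w x y : ι → F) :
    B w (x - y) = B w x - B w y := by
  have : x - y = x + (-1 : F) • y := by simp [sub_eq_add_neg]
  rw [this, hB.add_right, hB.smul_right]
  ring

theorem rf_smul (hQ : IsNondegenerateQuadraticForm Q) (v : ι → F) (s : F) (x : ι → F) :
    rf Q v (s • x) = s • rf Q v x := by
  have hB := hQ.polar_bilinear
  unfold rf
  rw [hB.smul_right, smul_sub, smul_smul]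
  congr 2
  ring

theorem frame_abs (hq : Fintype.card F = 3) (hQ : IsNondegenerateQuadraticForm Q) {t : ℕ}
    {D : Fin t → Submodule F (ι → F)} {A : Type} (jj : A → Fin t) (a : A → ι → F) (μ : F) (hμ : μ ≠ 0)
    (hι : 2 ≤ Fintype.card ι)
    (hor : ∀ i j, i ≠ j → ∀ u ∈ D i, ∀ v ∈ D j, 𝔅 u v = 0)
    (hnd : ∀ i, ∀ w ∈ D i, w ≠ 0 → ∃ x ∈ D i, 𝔅 x w ≠ 0)
    (ha : ∀ l, a l ∈ D (jj l)) (hQa : ∀ l, Q (a l) = μ) (hort : ∀ l l', l ≠ l' → 𝔅 (a l) (a l') = 0)
    (hchar : ∀ j x, x ∈ D j → Q x = μ → ∃ (s : F) (l : A), jj l = j ∧ x = s • a l)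
    (l₀ l₁ l₂ l₃ : A) (h01 : jj l₀ ≠ jj l₁) (h02 : jj l₀ ≠ jj l₂) (h03 : jj l₀ ≠ jj l₃) (h12 : jj l₁ ≠ jj l₂)
    (h13 : jj l₁ ≠ jj l₃) (h23 : jj l₂ ≠ jj l₃)
    (hb : ∃ b ∈ D (jj l₀), b ≠ 0 ∧ 𝔅 b (a l₀) = 0) :
    ∃ K : Subgroup (Matrix.GeneralLinearGroup ι F),
      decompositionStabilizer D ⊓ omegaGL Q < K ∧ K < omegaGL Q := by
  classical
  have h3 := f3_three hq
  have h20 := f3_two_ne hq
  have hB := hQ.polar_bilinear
  have hcF : Fintype.card F ≠ 2 ∨ Fintype.card ι ≠ 4 := Or.inl (by omega)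
  have hQB : ∀ x, Q x = 2 * 𝔅 x x := by
    intro x
    rw [polar_self' hQ]
    linear_combination (-(Q x)) * h3
  have hself : ∀ l, 𝔅 (a l) (a l) = 2 * μ := by
    intro l
    rw [polar_self' hQ, hQa]
  have hcomm : ∀ x y, 𝔅 x y = 𝔅 y x := fun x y => QuadraticMap.polar_comm Q x y
  have hne : ∀ {l l' : A}, jj l ≠ jj l' → l ≠ l' := by
    rintro l l' h rfl
    exact h rfl
  let S : (ι → F) → Prop := fun x => ∃ j, x ∈ D j ∧ Q x = μ
  have hSa : ∀ l, S (a l) := fun l => ⟨jj l, ha l, hQa l⟩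
  -- the subgroup contains the stabiliser
  have hTS : ∀ g ∈ decompositionStabilizer D ⊓ omegaGL Q, ∀ x, S x → S ((g : Matrix ι ι F) *ᵥ x) := by
    rintro g ⟨⟨σ, hσ⟩, hgO⟩ x ⟨j, hx, hQx⟩
    refine ⟨σ j, ?_, by rw [omega_isom hgO, hQx]⟩
    rw [← hσ j]
    exact Submodule.mem_map_of_mem (f := Matrix.toLin' (g : Matrix ι ι F)) hx
  have hfn : ∀ g ∈ decompositionStabilizer D ⊓ omegaGL Q, g ∈ fnStab S := by
    intro g hg x
    refine propext ⟨fun h => ?_, hTS g hg x⟩
    have h5 := hTS g⁻¹ (inv_mem hg) _ h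
    rwa [Matrix.mulVec_mulVec, ← Units.val_mul, inv_mul_cancel, Units.val_one, Matrix.one_mulVec] at h5
  -- reflections permuting the frame preserve the structure
  have hSrf : ∀ v : ι → F, (∀ l, ∃ (s : F) (l' : A), s * s = 1 ∧ rf Q v (a l) = s • a l') →
      ∀ x, S x → S (rf Q v x) := by
    rintro v hv x ⟨j, hx, hQx⟩
    obtain ⟨s, l, rfl, rfl⟩ := hchar j x hx hQx
    obtain ⟨s', l', hs', hrf⟩ := hv l
    have hss : s * s = 1 := by
      rw [hQ.smul, hQa] at hQx
      have : s ^ 2 = 1 := mul_right_cancel₀ hμ (by rw [hQx, one_mul])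
      linear_combination this
    refine ⟨jj l', ?_, ?_⟩
    · rw [rf_smul hQ, hrf]
      exact Submodule.smul_mem _ _ (Submodule.smul_mem _ _ (ha l'))
    · rw [rf_smul hQ, hrf, smul_smul, hQ.smul, hQa]
      have : (s * s') ^ 2 = 1 := by linear_combination (s' * s') * hss + hs'
      rw [this, one_mul]
  -- differences
  have hQd : ∀ l l', l ≠ l' → Q (a l - a l') = 2 * μ := by
    intro l l' h
    rw [hQB, bil_sub_left hB, bil_sub_right hB, bil_sub_right hB, hself, hself, hort l l' h, hort l' l h.symm]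
    linear_combination (2 * μ) * h3
  have hdiff : ∀ l l', l ≠ l' → ∀ l'', ∃ (s : F) (l''' : A), s * s = 1 ∧ rf Q (a l - a l') (a l'') = s • a l''' := by
    intro l l' h l''
    refine ⟨1, ?_⟩
    have hQ2 : (2 * μ) ≠ 0 := mul_ne_zero h20 hμ
    by_cases h1 : l'' = l
    · subst h1
      refine ⟨l', by ring, ?_⟩
      rw [rf, hQd _ _ h, bil_sub_left hB, hself, hort l' l'' h.symm, sub_zero, inv_mul_cancel₀ hQ2, one_smul, one_smul]
      abel
    by_cases h2 : l'' = l'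
    · subst h2
      refine ⟨l, by ring, ?_⟩
      rw [rf, hQd _ _ h, bil_sub_left hB, hself, hort l l'' h, zero_sub, mul_neg, inv_mul_cancel₀ hQ2, neg_smul, one_smul, one_smul]
      abel
    · refine ⟨l'', by ring, ?_⟩
      rw [one_smul]
      apply rf_of_zero
      rw [bil_sub_left hB, hort l l'' (Ne.symm h1), hort l' l'' (Ne.symm h2), sub_zero]
  have hdiff_eq : ∀ l l', l ≠ l' → rf Q (a l - a l') (a l) = a l' := by
    intro l l' h
    have hQ2 : (2 * μ) ≠ 0 := mul_ne_zero h20 hμ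
    rw [rf, hQd _ _ h, bil_sub_left hB, hself, hort l' l h.symm, sub_zero, inv_mul_cancel₀ hQ2, one_smul]
    abel
  have hframe : ∀ l, ∀ l'', ∃ (s : F) (l''' : A), s * s = 1 ∧ rf Q (a l) (a l'') = s • a l''' := by
    intro l l''
    by_cases h1 : l'' = l
    · subst h1
      exact ⟨-1, l'', by ring, rf_self hQ (by rw [hQa]; exact hμ)⟩
    · refine ⟨1, l'', by ring, ?_⟩
      rw [one_smul]
      exact rf_of_zero (hort l l'' (Ne.symm h1))
  let K : Subgroup (Matrix.GeneralLinearGroup ι F) := omegaGL Q ⊓ fnStab S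
  have hl01 := hne h01
  have hl02 := hne h02
  have hl03 := hne h03
  have hl12 := hne h12
  have hl13 := hne h13
  have hl23 := hne h23
  refine ⟨K, ?_, ?_⟩
  · rw [SetLike.lt_iff_le_and_exists]
    constructor
    · rintro g ⟨hgT, hgO⟩
      exact ⟨hgO, hfn g ⟨hgT, hgO⟩⟩
    · have hv0 : Q (a l₀ - a l₁) ≠ 0 := by rw [hQd _ _ hl01]; exact mul_ne_zero h20 hμ
      have hw0 : Q (a l₀ - a l₂) ≠ 0 := by rw [hQd _ _ hl02]; exact mul_ne_zero h20 hμ
      obtain ⟨g, hgO, hg⟩ := omega_two_refl hQ hι hcF hv0 hw0 ⟨2 * μ, by rw [hQd _ _ hl01, hQd _ _ hl02]⟩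
      refine ⟨g, ⟨hgO, ?_⟩, ?_⟩
      · intro x
        rw [hg]
        exact two_refl_stab hQ hv0 hw0 (hSrf _ (hdiff _ _ hl01)) (hSrf _ (hdiff _ _ hl02)) x
      · rintro ⟨⟨σ, hσ⟩, -⟩
        obtain ⟨b, hbm, hb0, hbo⟩ := hb
        have hba2 : 𝔅 (a l₂) b = 0 := hor (jj l₂) (jj l₀) h02.symm _ (ha l₂) _ hbm
        have hba1 : 𝔅 (a l₁) b = 0 := hor (jj l₁) (jj l₀) h01.symm _ (ha l₁) _ hbm
        have hba0 : 𝔅 (a l₀) b = 0 := by rw [hcomm]; exact hbo
        have hgb : ((g : Matrix.GeneralLinearGroup ι F) : Matrix ι ι F) *ᵥ b = b := by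
          rw [hg, rf_of_zero (show 𝔅 (a l₀ - a l₂) b = 0 by rw [bil_sub_left hB, hba0, hba2, sub_zero]),
            rf_of_zero (show 𝔅 (a l₀ - a l₁) b = 0 by rw [bil_sub_left hB, hba0, hba1, sub_zero])]
        have hga : ((g : Matrix.GeneralLinearGroup ι F) : Matrix ι ι F) *ᵥ a l₀ = a l₂ := by
          rw [hg, hdiff_eq _ _ hl02]
          apply rf_of_zero
          rw [bil_sub_left hB, hort _ _ hl02, hort _ _ hl12, sub_zero]
        have hm : ∀ y ∈ D (jj l₀), ((g : Matrix.GeneralLinearGroup ι F) : Matrix ι ι F) *ᵥ y ∈ D (σ (jj l₀)) := by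
          intro y hy
          rw [← hσ (jj l₀)]
          exact Submodule.mem_map_of_mem (f := Matrix.toLin' (g : Matrix ι ι F)) hy
        have h4 := hm _ (ha l₀)
        have h5 := hm _ hbm
        rw [hga] at h4
        rw [hgb] at h5
        have hj : σ (jj l₀) = jj l₂ := by
          by_contra hne2
          have := hor _ _ hne2 _ h4 _ (ha l₂)
          rw [hself] at this
          exact (mul_ne_zero h20 hμ) this
        rw [hj] at h5
        obtain ⟨x, hx, hxb⟩ := hnd _ b hbm hb0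
        exact hxb (hor _ _ h02 _ hx _ h5)
  · rw [SetLike.lt_iff_le_and_exists]
    set v := a l₀ + a l₁ + a l₂ + a l₃ with hv
    have hBva : ∀ l, (l = l₀ ∨ l = l₁ ∨ l = l₂ ∨ l = l₃) → 𝔅 v (a l) = 2 * μ := by
      rintro l (rfl | rfl | rfl | rfl)
      · rw [hv, hB.add_left, hB.add_left, hB.add_left, hself, hort _ _ hl01.symm, hort _ _ hl02.symm, hort _ _ hl03.symm]
        ring
      · rw [hv, hB.add_left, hB.add_left, hB.add_left, hself, hort _ _ hl01, hort _ _ hl12.symm, hort _ _ hl13.symm]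
        ring
      · rw [hv, hB.add_left, hB.add_left, hB.add_left, hself, hort _ _ hl02, hort _ _ hl12, hort _ _ hl23.symm]
        ring
      · rw [hv, hB.add_left, hB.add_left, hB.add_left, hself, hort _ _ hl03, hort _ _ hl13, hort _ _ hl23]
        ring
    have hQv : Q v = μ := by
      have h5 : 𝔅 v v = 8 * μ := by
        calc 𝔅 v v = 𝔅 v (a l₀ + a l₁ + a l₂ + a l₃) := by rw [← hv]
          _ = _ := by
            rw [hB.add_right, hB.add_right, hB.add_right, hBva l₀ (Or.inl rfl), hBva l₁ (Or.inr (Or.inl rfl)),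
              hBva l₂ (Or.inr (Or.inr (Or.inl rfl))), hBva l₃ (Or.inr (Or.inr (Or.inr rfl)))]
            ring
      rw [hQB, h5]
      linear_combination (5 * μ) * h3
    have hv0 : Q v ≠ 0 := by rw [hQv]; exact hμ
    have hw0 : Q (a l₃) ≠ 0 := by rw [hQa]; exact hμ
    obtain ⟨g, hgO, hg⟩ := omega_two_refl hQ hι hcF hv0 hw0 ⟨μ, by rw [hQv, hQa]⟩
    refine ⟨inf_le_left, g, hgO, ?_⟩
    rintro ⟨-, hfnS⟩
    have hS := hfnS (a l₀)
    have hS2 : S (((g : Matrix.GeneralLinearGroup ι F) : Matrix ι ι F) *ᵥ a l₀) := by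
      rw [hS]
      exact hSa l₀
    rw [hg, rf_of_zero (show 𝔅 (a l₃) (a l₀) = 0 from hort _ _ hl03.symm)] at hS2
    have hy : rf Q v (a l₀) = a l₀ - (2 : F) • v := by
      rw [rf, hBva l₀ (Or.inl rfl), hQv]
      congr 2
      field_simp
    rw [hy] at hS2
    obtain ⟨j, hj, -⟩ := hS2
    have hval : ∀ l, l ≠ l₀ → (l = l₀ ∨ l = l₁ ∨ l = l₂ ∨ l = l₃) →
        𝔅 (a l₀ - (2 : F) • v) (a l) = - μ := by
      intro l h hl
      rw [bil_sub_left hB, hort _ _ (Ne.symm h), hB.smul_left, hBva l hl]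
      linear_combination (-μ) * h3
    have hj1 : j = jj l₁ := by
      by_contra hne2
      have h5 := hor _ _ hne2 _ hj _ (ha l₁)
      rw [hval l₁ hl01.symm (Or.inr (Or.inl rfl))] at h5
      exact hμ (neg_eq_zero.mp h5)
    have hj2 : j = jj l₂ := by
      by_contra hne2
      have h5 := hor _ _ hne2 _ hj _ (ha l₂)
      rw [hval l₂ hl02.symm (Or.inr (Or.inr (Or.inl rfl)))] at h5
      exact hμ (neg_eq_zero.mp h5)
    exact h12 (hj1.symm.trans hj2)

section Sub

variable {k : ℕ} {W : Submodule F (ι → F)}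

theorem exists_param (hW : Module.finrank F W = k) :
    ∃ φ : (Fin k → F) →ₗ[F] (ι → F), (∀ y, φ y ∈ W) ∧ (∀ x ∈ W, ∃ y, φ y = x) ∧ ∀ y, φ y = 0 → y = 0 := by
  let b := Module.finBasisOfFinrankEq F W hW
  refine ⟨W.subtype ∘ₗ b.equivFun.symm.toLinearMap, ?_, ?_, ?_⟩
  · intro y
    exact (b.equivFun.symm y).2
  · intro x hx
    refine ⟨b.equivFun ⟨x, hx⟩, ?_⟩
    simp
  · intro y hy
    have h1 : b.equivFun.symm y = 0 := by
      apply Subtype.ext
      simpa using hy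
    exact (LinearEquiv.map_eq_zero_iff b.equivFun.symm).mp h1

theorem param_symm (hQ : IsNondegenerateQuadraticForm Q) (hnd : IsNondegenerateOn 𝔅 W)
    {φ : (Fin k → F) →ₗ[F] (ι → F)} (h1 : ∀ y, φ y ∈ W) (h2 : ∀ x ∈ W, ∃ y, φ y = x) (h3 : ∀ y, φ y = 0 → y = 0) :
    IsSymmetricForm (fun x y => 𝔅 (φ x) (φ y)) := by
  have hB := hQ.polar_bilinear
  refine ⟨⟨?_, ?_, ?_, ?_⟩, ?_, ?_⟩
  · intro x y v
    simp only [map_add, hB.add_left]
  · intro c x v
    simp only [map_smul, hB.smul_left]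
  · intro v x y
    simp only [map_add, hB.add_right]
  · intro c v x
    simp only [map_smul, hB.smul_right]
  · intro u v
    exact QuadraticMap.polar_comm Q _ _
  · intro v hv
    have hv' : φ v ≠ 0 := fun h => hv (h3 v h)
    obtain ⟨⟨x, hx, hxv⟩, ⟨x', hx', hxv'⟩⟩ := hnd (φ v) (h1 v) hv'
    obtain ⟨y, rfl⟩ := h2 x hx
    obtain ⟨y', rfl⟩ := h2 x' hx'
    exact ⟨⟨y, hxv⟩, ⟨y', hxv'⟩⟩

theorem plane_lemma (hq : Fintype.card F = 3) {f : (Fin 2 → F) → (Fin 2 → F) → F} (hf : IsSymmetricForm f) :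
    ∃ v₀ v₁ : Fin 2 → F, f v₀ v₁ = 0 ∧ f v₀ v₀ ≠ 0 ∧ f v₁ v₁ ≠ 0 ∧ ∀ y, ∃ s t : F, y = s • v₀ + t • v₁ := by
  obtain ⟨v, horth, hne⟩ := sym_orth (κ := Fin 2) (f := f) hq hf
  have hb := hf.bilinear
  let i₀ : Fin (Fintype.card (Fin 2)) := ⟨0, by simp⟩
  let i₁ : Fin (Fintype.card (Fin 2)) := ⟨1, by simp⟩
  have h01 : i₀ ≠ i₁ := by simp [i₀, i₁, Fin.ext_iff]
  refine ⟨v i₀, v i₁, horth _ _ h01, hne _, hne _, ?_⟩
  have hind : LinearIndependent F ![v i₀, v i₁] := by
    rw [LinearIndependent.pair_iff]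
    intro s r hsr
    have h3 := congrArg (fun u => f u (v i₀)) hsr
    simp only [hb.add_left, hb.smul_left, horth _ _ h01.symm, bil_zero_left hb, mul_zero, add_zero] at h3
    have h4 := congrArg (fun u => f u (v i₁)) hsr
    simp only [hb.add_left, hb.smul_left, horth _ _ h01, bil_zero_left hb, mul_zero, zero_add] at h4
    exact ⟨(mul_eq_zero.mp h3).resolve_right (hne _), (mul_eq_zero.mp h4).resolve_right (hne _)⟩
  have hfr := finrank_span_eq_card hind
  have heq : Submodule.span F (Set.range ![v i₀, v i₁]) = ⊤ := Submodule.eq_top_of_finrank_eq (by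
    rw [hfr]
    simp)
  intro y
  have hy : y ∈ Submodule.span F (Set.range ![v i₀, v i₁]) := by rw [heq]; trivial
  have hx2 : y ∈ Submodule.span F ({v i₀, v i₁} : Set (Fin 2 → F)) := by
    convert hy using 2
    simp [Matrix.range_cons, Set.pair_comm, Set.union_comm]
  obtain ⟨α, β, h⟩ := Submodule.mem_span_pair.mp hx2
  exact ⟨α, β, h.symm⟩

theorem frame_exists (hq : Fintype.card F = 3) (hQ : IsNondegenerateQuadraticForm Q)
    (hW : Module.finrank F W = 2 ∨ Module.finrank F W = 3) (hnd : IsNondegenerateOn 𝔅 W) :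
    ∃ (r : ℕ) (μ : F) (a₀ : Fin r → ι → F), 0 < r ∧ μ ≠ 0 ∧ (∀ i, a₀ i ∈ W) ∧ (∀ i, Q (a₀ i) = μ) ∧
      (∀ i i', i ≠ i' → 𝔅 (a₀ i) (a₀ i') = 0) ∧ (∀ x ∈ W, Q x = μ → ∃ (s : F) (i : Fin r), x = s • a₀ i) ∧
      ∀ i, ∃ b ∈ W, b ≠ 0 ∧ 𝔅 b (a₀ i) = 0 := by
  classical
  have h3 := f3_three hq
  have h20 := f3_two_ne hq
  have hB := hQ.polar_bilinear
  have hQB : ∀ x, Q x = 2 * 𝔅 x x := by
    intro x
    rw [polar_self' hQ]
    linear_combination (-(Q x)) * h3
  have hne0 : ∀ x, Q x ≠ 0 → x ≠ 0 := by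
    rintro x hx rfl
    apply hx
    have := hQ.smul 0 0
    simpa using this
  rcases hW with hW | hW
  · obtain ⟨φ, h1, h2, h3'⟩ := exists_param hW
    have hf := param_symm hQ hnd h1 h2 h3'
    obtain ⟨v₀, v₁, h01, hn0, hn1, hexp⟩ := plane_lemma hq hf
    set lam := 𝔅 (φ v₀) (φ v₀) with hlam
    set eps := 𝔅 (φ v₁) (φ v₁) with heps
    have h10 : 𝔅 (φ v₁) (φ v₀) = 0 := by rw [QuadraticMap.polar_comm]; exact h01
    have hform : ∀ s t : F, 𝔅 (φ (s • v₀ + t • v₁)) (φ (s • v₀ + t • v₁)) = s ^ 2 * lam + t ^ 2 * eps := by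
      intro s t
      simp only [map_add, map_smul, hB.add_left, hB.add_right, hB.smul_left, hB.smul_right, h01, h10, ← hlam, ← heps]
      ring
    have hv0 : φ v₀ ≠ 0 := hne0 _ (by rw [hQB]; exact mul_ne_zero h20 hn0)
    have hv1 : φ v₁ ≠ 0 := hne0 _ (by rw [hQB]; exact mul_ne_zero h20 hn1)
    have hcase : eps = lam ∨ eps = -lam := by
      rcases f3_cases hq lam with h | h | h <;> rcases f3_cases hq eps with h' | h' | h'
      · exact absurd h hn0
      · exact absurd h hn0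
      · exact absurd h hn0
      · exact absurd h' hn1
      · left; rw [h, h']
      · right; rw [h, h']
      · exact absurd h' hn1
      · right; rw [h, h']; ring
      · left; rw [h, h']
    rcases hcase with he | he
    · refine ⟨2, 2 * lam, ![φ v₀, φ v₁], by norm_num, mul_ne_zero h20 hn0, ?_, ?_, ?_, ?_, ?_⟩
      · intro i
        fin_cases i
        · exact h1 _
        · exact h1 _
      · intro i
        fin_cases i
        · show Q (φ v₀) = _
          rw [hQB]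
        · show Q (φ v₁) = _
          rw [hQB, ← heps, he]
      · intro i i' hi
        fin_cases i <;> fin_cases i'
        · exact absurd rfl hi
        · exact h01
        · exact h10
        · exact absurd rfl hi
      · intro x hx hQx
        obtain ⟨y, rfl⟩ := h2 x hx
        obtain ⟨s, t, rfl⟩ := hexp y
        rw [hQB, hform, he] at hQx
        have hst : s ^ 2 + t ^ 2 = 1 := by
          have : lam * (s ^ 2 + t ^ 2) = lam * 1 := by
            have h5 : 2 * (lam * (s ^ 2 + t ^ 2)) = 2 * (lam * 1) := by linear_combination hQx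
            exact mul_left_cancel₀ h20 h5
          exact mul_left_cancel₀ hn0 this
        by_cases hs : s = 0
        · refine ⟨t, 1, ?_⟩
          rw [hs]
          simp
        by_cases ht : t = 0
        · refine ⟨s, 0, ?_⟩
          rw [ht]
          simp
        · exfalso
          rw [f3_sq hq hs, f3_sq hq ht] at hst
          have : (1 : F) = 0 := by linear_combination hst
          exact one_ne_zero this
      · intro i
        fin_cases i
        · exact ⟨φ v₁, h1 _, hv1, h10⟩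
        · exact ⟨φ v₀, h1 _, hv0, h01⟩
    · refine ⟨1, 2 * lam, fun _ => φ v₀, by norm_num, mul_ne_zero h20 hn0, fun _ => h1 _, fun _ => ?_, ?_, ?_, ?_⟩
      · rw [hQB]
      · intro i i' hi
        exact absurd (Subsingleton.elim i i') hi
      · intro x hx hQx
        obtain ⟨y, rfl⟩ := h2 x hx
        obtain ⟨s, t, rfl⟩ := hexp y
        rw [hQB, hform, he] at hQx
        have hst : s ^ 2 - t ^ 2 = 1 := by
          have : lam * (s ^ 2 - t ^ 2) = lam * 1 := by
            have h5 : 2 * (lam * (s ^ 2 - t ^ 2)) = 2 * (lam * 1) := by linear_combination hQx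
            exact mul_left_cancel₀ h20 h5
          exact mul_left_cancel₀ hn0 this
        refine ⟨s, 0, ?_⟩
        have ht : t = 0 := by
          by_contra ht
          rw [f3_sq hq ht] at hst
          by_cases hs : s = 0
          · rw [hs] at hst
            have : (2 : F) = 0 := by linear_combination -hst
            exact h20 this
          · rw [f3_sq hq hs] at hst
            have : (1 : F) = 0 := by linear_combination -hst
            exact one_ne_zero this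
        rw [ht]
        simp
      · intro _
        exact ⟨φ v₁, h1 _, hv1, h10⟩
  · obtain ⟨φ, h1, h2, h3'⟩ := exists_param hW
    have hf := param_symm hQ hnd h1 h2 h3'
    obtain ⟨a, lam, hlam, hnorm, horth⟩ := sym_frame3 hq hf
    refine ⟨3, 2 * lam, fun i => φ (a i), by norm_num, mul_ne_zero h20 hlam, fun _ => h1 _, ?_, horth, ?_, ?_⟩
    · intro i
      show Q (φ (a i)) = _
      rw [hQB, hnorm]
    · intro x hx hQx
      obtain ⟨y, rfl⟩ := h2 x hx
      rw [hQB] at hQx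
      have hyy : 𝔅 (φ y) (φ y) = lam := mul_left_cancel₀ h20 hQx
      obtain ⟨s, j, hj⟩ := frame_image hq hf hlam hnorm horth y hyy
      refine ⟨s, j, ?_⟩
      rw [hj, map_smul]
    · intro i
      have hi : i + 1 ≠ i := by
        revert i
        decide
      refine ⟨φ (a (i + 1)), h1 _, hne0 _ ?_, horth _ _ hi⟩
      rw [hQB, hnorm]
      exact mul_ne_zero h20 hlam

end Sub

theorem frame_main (hq : Fintype.card F = 3) (hQ : IsNondegenerateQuadraticForm Q) {t k : ℕ}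
    {D : Fin t → Submodule F (ι → F)} (hO : IsOrthogonalMDecomposition Q k D) (hk : k = 2 ∨ k = 3) (ht : 4 ≤ t) :
    ∃ K : Subgroup (Matrix.GeneralLinearGroup ι F),
      decompositionStabilizer D ⊓ omegaGL Q < K ∧ K < omegaGL Q := by
  classical
  have hd := hO.decomp
  have hm := hd.decomp
  have hB := hQ.polar_bilinear
  let j₀ : Fin t := ⟨0, by omega⟩
  let j₁ : Fin t := ⟨1, by omega⟩
  let j₂ : Fin t := ⟨2, by omega⟩
  let j₃ : Fin t := ⟨3, by omega⟩
  obtain ⟨r, μ, a₀, hr, hμ, ha₀, hQa, hort, hchar, hbb⟩ := frame_exists (W := D j₀) hq hQ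
    (by rw [hm.finrank_eq]; exact hk) (hd.nondegenerate j₀)
  have hcardι : t * k = Fintype.card ι := card_eq hm
  have hι : 2 ≤ Fintype.card ι := by
    rcases hk with rfl | rfl <;> omega
  choose iso hiso using hO.isometric j₀
  have hpol : ∀ j (x y : D j₀), 𝔅 ((iso j x : D j) : ι → F) ((iso j y : D j) : ι → F) = 𝔅 (x : ι → F) (y : ι → F) := by
    intro j x y
    have h1 := hiso j (x + y)
    have h2 := hiso j x
    have h3 := hiso j y
    rw [map_add, Submodule.coe_add, Submodule.coe_add] at h1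
    simp only [QuadraticMap.polar]
    rw [h1, h2, h3]
  let a : Fin t × Fin r → ι → F := fun l => ((iso l.1 ⟨a₀ l.2, ha₀ l.2⟩ : D l.1) : ι → F)
  have hor : ∀ i j, i ≠ j → ∀ u ∈ D i, ∀ v ∈ D j, 𝔅 u v = 0 := fun i j hij => hd.orthogonal i j hij
  let i₀ : Fin r := ⟨0, hr⟩
  obtain ⟨b, hb, hb0, hbo⟩ := hbb i₀
  refine frame_abs hq hQ (Prod.fst) a μ hμ hι hor (fun i w hw hw0 => (hd.nondegenerate i w hw hw0).1) ?_ ?_ ?_ ?_
    (j₀, i₀) (j₁, i₀) (j₂, i₀) (j₃, i₀) ?_ ?_ ?_ ?_ ?_ ?_ ?_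
  · intro l
    exact (iso l.1 ⟨a₀ l.2, ha₀ l.2⟩).2
  · intro l
    show Q ((iso l.1 ⟨a₀ l.2, ha₀ l.2⟩ : D l.1) : ι → F) = μ
    rw [hiso, hQa]
  · rintro ⟨j, i⟩ ⟨j', i'⟩ hne
    by_cases hj : j = j'
    · subst hj
      have hi : i ≠ i' := fun h => hne (by rw [h])
      show 𝔅 ((iso j ⟨a₀ i, ha₀ i⟩ : D j) : ι → F) ((iso j ⟨a₀ i', ha₀ i'⟩ : D j) : ι → F) = 0
      rw [hpol]
      exact hort i i' hi
    · exact hor j j' hj _ (iso j ⟨a₀ i, ha₀ i⟩).2 _ (iso j' ⟨a₀ i', ha₀ i'⟩).2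
  · intro j x hx hQx
    set x' := (iso j).symm ⟨x, hx⟩ with hx'
    have h1 : iso j x' = ⟨x, hx⟩ := by rw [hx', LinearEquiv.apply_symm_apply]
    have h2 : Q (x' : ι → F) = μ := by
      rw [← hiso j x', h1]
      exact hQx
    obtain ⟨s, i, hsi⟩ := hchar _ x'.2 h2
    refine ⟨s, (j, i), rfl, ?_⟩
    have h3 : x' = s • (⟨a₀ i, ha₀ i⟩ : D j₀) := Subtype.ext hsi
    rw [h3, map_smul] at h1
    have h4 := congrArg (fun y : D j => (y : ι → F)) h1
    simp only [Submodule.coe_smul] at h4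
    exact h4.symm
  · simp [j₀, j₁, Fin.ext_iff]
  · simp [j₀, j₂, Fin.ext_iff]
  · simp [j₀, j₃, Fin.ext_iff]
  · simp [j₁, j₂, Fin.ext_iff]
  · simp [j₁, j₃, Fin.ext_iff]
  · simp [j₂, j₃, Fin.ext_iff]
  · refine ⟨((iso j₀ ⟨b, hb⟩ : D j₀) : ι → F), (iso j₀ ⟨b, hb⟩).2, ?_, ?_⟩
    · intro h
      apply hb0
      have h1 : iso j₀ ⟨b, hb⟩ = 0 := Subtype.ext h
      have h2 : (⟨b, hb⟩ : D j₀) = 0 := (LinearEquiv.map_eq_zero_iff (iso j₀)).mp h1
      exact congrArg Subtype.val h2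
    · show 𝔅 ((iso j₀ ⟨b, hb⟩ : D j₀) : ι → F) ((iso j₀ ⟨a₀ i₀, ha₀ i₀⟩ : D j₀) : ι → F) = 0
      rw [hpol]
      exact hbo

end CfsgLib.ClassMax.OmegaR
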