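import Cfsg.Agent.Lib.ClassMax.TensorSp3
import Cfsg.Agent.Lib.ClassGeo.OSpin
import Cfsg.Agent.Lib.ClassGeo.OPara2

/-! Elements of `Ω` built from two reflections and tensor decompositions over `F₃`. -/

set_option autoImplicit false
set_option linter.unusedSimpArgs false
set_option linter.unusedVariables false
set_option linter.unusedSectionVars false
set_option linter.style.haveILetI false

namespace CfsgLib.ClassMax.OmegaR

open Matrix Cfsg Cfsg.Geo CfsgLib.ClassMax.Decomp CfsgLib.ClassMax.TensorK CfsgLib.ClassGeo CfsgLib.ClassGeo.Orth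
open scoped Kronecker

variable {F : Type*} [Field F] [Fintype F] {ι : Type} [Fintype ι] [DecidableEq ι] {Q : (ι → F) → F}

/-- The reflection formula. -/
noncomputable def rf (Q : (ι → F) → F) (v x : ι → F) : ι → F :=
  x - ((Q v)⁻¹ * QuadraticMap.polar Q v x) • v

theorem omega_two_refl (hQ : IsNondegenerateQuadraticForm Q) (hn : 2 ≤ Fintype.card ι)
    (h : Fintype.card F ≠ 2 ∨ Fintype.card ι ≠ 4) {v w : ι → F} (hv : Q v ≠ 0) (hw : Q w ≠ 0)
    (hs : IsSquare (Q v * Q w)) :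
    ∃ g ∈ omegaGL Q, ∀ x, ((g : Matrix.GeneralLinearGroup ι F) : Matrix ι ι F) *ᵥ x = rf Q v (rf Q w x) := by
  classical
  obtain ⟨g, hg, hm⟩ := (OSpin.exists_omega_mat_iff (Q := mkQ hQ) hn (mkQ_nondeg hQ) h [v, w]
    (by
      intro y hy
      simp only [List.mem_cons, List.not_mem_nil, or_false] at hy
      rcases hy with rfl | rfl
      · exact hv
      · exact hw)).mpr ⟨by simp, by
        simpa [mkQ_apply] using hs⟩
  refine ⟨(g : Matrix.GeneralLinearGroup ι F), ⟨g, hg, rfl⟩, fun x => ?_⟩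
  rw [hm]
  simp only [List.map_cons, List.map_nil, List.prod_cons, List.prod_nil, mul_one]
  rw [← Matrix.mulVec_mulVec]
  rw [reflection_mulVec (mkQ hQ) w x, reflection_mulVec (mkQ hQ) v]
  rfl

theorem polar_self' (hQ : IsNondegenerateQuadraticForm Q) (v : ι → F) : QuadraticMap.polar Q v v = 2 * Q v :=
  polar_self_eq (mkQ hQ) v

theorem bil_sub_left {B : (ι → F) → (ι → F) → F} (hB : IsBilinearForm B) (x y w : ι → F) :
    B (x - y) w = B x w - B y w := by
  have : x - y = x + (-1 : F) • y := by simp [sub_eq_add_neg]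
  rw [this, hB.add_left, hB.smul_left]
  ring

theorem rf_of_zero {v x : ι → F} (h : QuadraticMap.polar Q v x = 0) : rf Q v x = x := by
  simp [rf, h]

theorem rf_self (hQ : IsNondegenerateQuadraticForm Q) {v : ι → F} (hv : Q v ≠ 0) : rf Q v v = (-1 : F) • v := by
  rw [rf, polar_self' hQ]
  have : (Q v)⁻¹ * (2 * Q v) = 2 := by field_simp
  rw [this, two_smul]
  simp

theorem rf_invol (hQ : IsNondegenerateQuadraticForm Q) {v : ι → F} (hv : Q v ≠ 0) (x : ι → F) :
    rf Q v (rf Q v x) = x := by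
  have hB := hQ.polar_bilinear
  unfold rf
  have e : QuadraticMap.polar Q v (x - ((Q v)⁻¹ * QuadraticMap.polar Q v x) • v) =
      QuadraticMap.polar Q v x - ((Q v)⁻¹ * QuadraticMap.polar Q v x) * (2 * Q v) := by
    have : x - ((Q v)⁻¹ * QuadraticMap.polar Q v x) • v = x + (-((Q v)⁻¹ * QuadraticMap.polar Q v x)) • v := by
      simp [sub_eq_add_neg]
    rw [this, hB.add_right, hB.smul_right, polar_self' hQ]
    ring
  rw [e]
  have e2 : (Q v)⁻¹ * (QuadraticMap.polar Q v x - (Q v)⁻¹ * QuadraticMap.polar Q v x * (2 * Q v)) =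
      - ((Q v)⁻¹ * QuadraticMap.polar Q v x) := by
    field_simp
    ring
  rw [e2]
  simp

theorem two_refl_stab (hQ : IsNondegenerateQuadraticForm Q) {S : (ι → F) → Prop} {v w : ι → F} (hv : Q v ≠ 0) (hw : Q w ≠ 0)
    (hSv : ∀ x, S x → S (rf Q v x)) (hSw : ∀ x, S x → S (rf Q w x)) (x : ι → F) :
    S (rf Q v (rf Q w x)) = S x := by
  refine propext ⟨fun h => ?_, fun h => hSv _ (hSw _ h)⟩
  have h1 := hSv _ h
  rw [rf_invol hQ hv] at h1
  have h2 := hSw _ h1
  rwa [rf_invol hQ hw] at h2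

theorem omega_isom {g : Matrix.GeneralLinearGroup ι F} (hg : g ∈ omegaGL Q) (x : ι → F) :
    Q ((g : Matrix ι ι F) *ᵥ x) = Q x := by
  obtain ⟨g', -, rfl⟩ := hg
  exact g'.2 x 0

theorem omega_polar {g : Matrix.GeneralLinearGroup ι F} (hg : g ∈ omegaGL Q) (x y : ι → F) :
    QuadraticMap.polar Q ((g : Matrix ι ι F) *ᵥ x) ((g : Matrix ι ι F) *ᵥ y) = QuadraticMap.polar Q x y := by
  simp only [QuadraticMap.polar]
  rw [← Matrix.mulVec_add, omega_isom hg, omega_isom hg, omega_isom hg]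

section Sym

variable {κ : Type} [Fintype κ] [DecidableEq κ] {f : (κ → F) → (κ → F) → F}

theorem sym_orth (hq : Fintype.card F = 3) (hf : IsSymmetricForm f) :
    ∃ v : Fin (Fintype.card κ) → κ → F, (∀ i j, i ≠ j → f (v i) (v j) = 0) ∧ ∀ i, f (v i) (v i) ≠ 0 := by
  classical
  have hb := hf.bilinear
  let B : LinearMap.BilinForm F (κ → F) :=
    LinearMap.mk₂ F f hb.add_left hb.smul_left hb.add_right hb.smul_right
  have hsymm : LinearMap.IsSymm B := ⟨fun x y => hf.symm x y⟩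
  haveI : Invertible (2 : F) := invertibleOfNonzero (f3_two_ne hq)
  obtain ⟨v₀, hv₀⟩ := LinearMap.BilinForm.exists_orthogonal_basis hsymm
  have hfr : Module.finrank F (κ → F) = Fintype.card κ := by simp
  let v : Module.Basis (Fin (Fintype.card κ)) F (κ → F) := v₀.reindex (finCongr hfr)
  have horth : ∀ i j, i ≠ j → f (v i) (v j) = 0 := by
    intro i j hij
    have h3 := @hv₀ ((finCongr hfr).symm i) ((finCongr hfr).symm j) (by simpa using hij)
    have h5 : f (v₀ ((finCongr hfr).symm i)) (v₀ ((finCongr hfr).symm j)) = 0 := h3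
    simpa [v, Module.Basis.reindex_apply] using h5
  refine ⟨v, horth, ?_⟩
  intro i hi
  have hzero : ∀ x, f (v i) x = 0 := by
    intro x
    rw [← v.sum_repr x, bil_sum_right hb]
    refine Finset.sum_eq_zero fun j _ => ?_
    rw [hb.smul_right]
    by_cases hj : i = j
    · rw [← hj, hi, mul_zero]
    · rw [horth i j hj, mul_zero]
  obtain ⟨-, x, hx⟩ := hf.nondegenerate (v i) (v.ne_zero i)
  exact hx (hzero x)

theorem sym_triple (hq : Fintype.card F = 3) (hf : IsSymmetricForm f) (hκ : 3 ≤ Fintype.card κ) :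
    ∃ u u' z : κ → F, f u u ≠ 0 ∧ f u' u' = f u u ∧ f z z ≠ 0 ∧ f u u' = 0 ∧ f u z = 0 ∧ f u' z = 0 := by
  obtain ⟨v, horth, hne⟩ := sym_orth (f := f) hq hf
  let i₀ : Fin (Fintype.card κ) := ⟨0, by omega⟩
  let i₁ : Fin (Fintype.card κ) := ⟨1, by omega⟩
  let i₂ : Fin (Fintype.card κ) := ⟨2, by omega⟩
  have h01 : i₀ ≠ i₁ := by simp [i₀, i₁, Fin.ext_iff]
  have h02 : i₀ ≠ i₂ := by simp [i₀, i₂, Fin.ext_iff]
  have h12 : i₁ ≠ i₂ := by simp [i₁, i₂, Fin.ext_iff]
  have hval : ∀ i, f (v i) (v i) = 1 ∨ f (v i) (v i) = -1 := by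
    intro i
    rcases f3_cases hq (f (v i) (v i)) with h | h | h
    · exact absurd h (hne i)
    · exact Or.inl h
    · exact Or.inr h
  have step : ∀ i j k, i ≠ j → i ≠ k → j ≠ k → f (v i) (v i) = f (v j) (v j) →
      ∃ u u' z : κ → F, f u u ≠ 0 ∧ f u' u' = f u u ∧ f z z ≠ 0 ∧ f u u' = 0 ∧ f u z = 0 ∧ f u' z = 0 := by
    intro i j k hij hik hjk he
    exact ⟨v i, v j, v k, hne i, he.symm, hne k, horth i j hij, horth i k hik, horth j k hjk⟩
  by_cases h1 : f (v i₀) (v i₀) = f (v i₁) (v i₁)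
  · exact step i₀ i₁ i₂ h01 h02 h12 h1
  by_cases h2 : f (v i₀) (v i₀) = f (v i₂) (v i₂)
  · exact step i₀ i₂ i₁ h02 h01 h12.symm h2
  · refine step i₁ i₂ i₀ h12 h01.symm h02.symm ?_
    rcases hval i₀ with h | h <;> rcases hval i₁ with h' | h' <;> rcases hval i₂ with h'' | h''
    all_goals first
      | (rw [h', h'']; done)
      | (exfalso; apply h1; rw [h, h']; done)
      | (exfalso; apply h2; rw [h, h'']; done)

end Sym

theorem tensorO3_main (hq : Fintype.card F = 3) (hQ : IsNondegenerateQuadraticForm Q) {n₂ : ℕ} (hn₂ : 3 ≤ n₂)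
    (e : ι ≃ Fin 3 × Fin n₂) (P : Matrix.GeneralLinearGroup ι F) (f₁ : (Fin 3 → F) → (Fin 3 → F) → F)
    (f₂ : (Fin n₂ → F) → (Fin n₂ → F) → F) (hf₁ : IsSymmetricForm f₁) (hf₂ : IsSymmetricForm f₂)
    (hT : IsTensorFormStructure id (QuadraticMap.polar Q) f₁ f₂ e P) :
    ∃ K : Subgroup (Matrix.GeneralLinearGroup ι F),
      tensorProductSubgroup 3 n₂ e P ⊓ omegaGL Q < K ∧ K < omegaGL Q := by
  classical
  have h3 := f3_three hq
  have h20 := f3_two_ne hq
  have hB := hQ.polar_bilinear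
  have hb₁ := hf₁.bilinear
  have hb₂ := hf₂.bilinear
  have hcard : Fintype.card ι = 3 * n₂ := by
    have := Fintype.card_congr e
    simpa using this
  have hcF : Fintype.card F ≠ 2 ∨ Fintype.card ι ≠ 4 := Or.inl (by omega)
  have hι2 : 2 ≤ Fintype.card ι := by omega
  obtain ⟨c, hc, star⟩ := star_gen (id : F → F) (fun a b => rfl) e P
    hb₁.add_left hb₁.smul_left hb₁.add_right (fun c v x => hb₁.smul_right c v x)
    hb₂.add_left hb₂.smul_left hb₂.add_right (fun c v x => hb₂.smul_right c v x) hT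
  obtain ⟨a, lam, hlam, hnorm, horth⟩ := sym_frame3 hq hf₁
  obtain ⟨u, u', z, hu, huu', hz, h1, h2, h4⟩ := sym_triple hq hf₂ (by simpa using hn₂)
  have h1' : f₂ u' u = 0 := by rw [hf₂.symm]; exact h1
  have h2' : f₂ z u = 0 := by rw [hf₂.symm]; exact h2
  have h4' : f₂ z u' = 0 := by rw [hf₂.symm]; exact h4
  have hQB : ∀ x, Q x = 2 * QuadraticMap.polar Q x x := by
    intro x
    rw [polar_self' hQ]
    linear_combination (-(Q x)) * h3
  have h01 : (0 : Fin 3) ≠ 1 := by decide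
  have h10 : (1 : Fin 3) ≠ 0 := by decide
  let S : (ι → F) → Prop := fun x => ∃ y i, x = tau e P (a i) y
  -- the frame is preserved by the tensor part
  have hfr : ∀ α : Matrix (Fin 3) (Fin 3) F, ∀ β : Matrix (Fin n₂) (Fin n₂) F,
      (∀ p q w y, f₁ (α *ᵥ p) (α *ᵥ q) * f₂ (β *ᵥ w) (β *ᵥ y) = f₁ p q * f₂ w y) →
      ∀ i, ∃ (s : F) (j : Fin 3), α *ᵥ a i = s • a j := by
    intro α β hiso i
    set μ := f₂ (β *ᵥ u) (β *ᵥ u) with hμ
    have hμ0 : μ ≠ 0 := by
      intro h
      have h5 := hiso (a 0) (a 0) u u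
      rw [← hμ, h, mul_zero, hnorm] at h5
      exact (mul_ne_zero hlam hu) h5.symm
    have hsim : ∀ p q, f₁ (α *ᵥ p) (α *ᵥ q) = (μ⁻¹ * f₂ u u) * f₁ p q := by
      intro p q
      have h5 := hiso p q u u
      rw [← hμ] at h5
      field_simp
      linear_combination h5
    have hν := frame_similarity hq hf₁ hlam hnorm horth (fun p => α *ᵥ p)
      (mul_ne_zero (inv_ne_zero hμ0) hu) hsim
    apply frame_image hq hf₁ hlam hnorm horth
    rw [hsim, hν, one_mul, hnorm]
  have hTS : ∀ g ∈ tensorProductSubgroup 3 n₂ e P ⊓ omegaGL Q, ∀ x, S x →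
      S ((g : Matrix ι ι F) *ᵥ x) := by
    rintro g ⟨hgT, hgO⟩ x ⟨y, i, rfl⟩
    obtain ⟨g₀, ⟨α, β, hg₀⟩, rfl⟩ := (mem_tensor e P g).mp hgT
    have hiso : ∀ p q w y, f₁ ((α : Matrix (Fin 3) (Fin 3) F) *ᵥ p) ((α : Matrix (Fin 3) (Fin 3) F) *ᵥ q) *
        f₂ ((β : Matrix (Fin n₂) (Fin n₂) F) *ᵥ w) ((β : Matrix (Fin n₂) (Fin n₂) F) *ᵥ y) = f₁ p q * f₂ w y := by
      intro p q w y
      have h5 := omega_polar hgO (tau e P p w) (tau e P q y)
      rw [PhiT_tau e P hg₀, PhiT_tau e P hg₀, star, star] at h5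
      have h6 : c * (f₁ ((α : Matrix (Fin 3) (Fin 3) F) *ᵥ p) ((α : Matrix (Fin 3) (Fin 3) F) *ᵥ q) *
        f₂ ((β : Matrix (Fin n₂) (Fin n₂) F) *ᵥ w) ((β : Matrix (Fin n₂) (Fin n₂) F) *ᵥ y)) = c * (f₁ p q * f₂ w y) := by
        linear_combination h5
      exact mul_left_cancel₀ hc h6
    obtain ⟨s, j, hs⟩ := hfr _ _ hiso i
    refine ⟨s • ((β : Matrix (Fin n₂) (Fin n₂) F) *ᵥ y), j, ?_⟩
    rw [PhiT_tau e P hg₀, hs, tau_smul_left, tau_smul_right]
  have hfn : ∀ g ∈ tensorProductSubgroup 3 n₂ e P ⊓ omegaGL Q, g ∈ fnStab S := by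
    intro g hg x
    refine propext ⟨fun h => ?_, hTS g hg x⟩
    have h5 := hTS g⁻¹ (inv_mem hg) _ h
    rwa [Matrix.mulVec_mulVec, ← Units.val_mul, inv_mul_cancel, Units.val_one, Matrix.one_mulVec] at h5
  -- reflections along the frame preserve the structure
  have hrS : ∀ i₀ w, ∀ x, S x → S (rf Q (tau e P (a i₀) w) x) := by
    rintro i₀ w x ⟨y, i, rfl⟩
    by_cases hi : i = i₀
    · subst hi
      refine ⟨y + (-((Q (tau e P (a i) w))⁻¹ * QuadraticMap.polar Q (tau e P (a i) w) (tau e P (a i) y))) • w, i, ?_⟩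
      rw [tau_add_right, tau_smul_right, rf, neg_smul, sub_eq_add_neg]
    · refine ⟨y, i, ?_⟩
      apply rf_of_zero
      rw [star, horth i₀ i (Ne.symm hi)]
      ring
  let K : Subgroup (Matrix.GeneralLinearGroup ι F) := omegaGL Q ⊓ fnStab S
  refine ⟨K, ?_, ?_⟩
  · rw [SetLike.lt_iff_le_and_exists]
    constructor
    · rintro g ⟨hgT, hgO⟩
      exact ⟨hgO, hfn g ⟨hgT, hgO⟩⟩
    · set v := tau e P (a 0) u with hv
      set v' := tau e P (a 0) u' with hv'
      have hQv : Q v = 2 * (c * lam * f₂ u u) := by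
        rw [hQB, hv, star, hnorm]
      have hQv' : Q v' = Q v := by
        rw [hQB, hv', star, hnorm, huu', hQv]
      have hQv0 : Q v ≠ 0 := by
        rw [hQv]
        exact mul_ne_zero h20 (mul_ne_zero (mul_ne_zero hc hlam) hu)
      have hQv'0 : Q v' ≠ 0 := by rw [hQv']; exact hQv0
      obtain ⟨g, hgO, hg⟩ := omega_two_refl hQ hι2 hcF hQv0 hQv'0 ⟨Q v, by rw [hQv']⟩
      refine ⟨g, ⟨hgO, ?_⟩, ?_⟩
      · intro x
        rw [hg]
        exact two_refl_stab hQ hQv0 hQv'0 (hrS 0 u) (hrS 0 u') x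
      · rintro ⟨hgT, -⟩
        obtain ⟨g₀, ⟨α, β, hg₀⟩, hgg⟩ := (mem_tensor e P _).mp hgT
        have act : ∀ p y, tau e P ((α : Matrix (Fin 3) (Fin 3) F) *ᵥ p) ((β : Matrix (Fin n₂) (Fin n₂) F) *ᵥ y) =
            rf Q v (rf Q v' (tau e P p y)) := by
          intro p y
          rw [← PhiT_tau e P hg₀, hgg, hg]
        have fix1 : ∀ y, tau e P ((α : Matrix (Fin 3) (Fin 3) F) *ᵥ a 1) ((β : Matrix (Fin n₂) (Fin n₂) F) *ᵥ y) = tau e P (a 1) y := by
          intro y
          have e1 : rf Q v' (tau e P (a 1) y) = tau e P (a 1) y := rf_of_zero (by rw [hv', star, horth 0 1 h01]; ring)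
          have e2 : rf Q v (tau e P (a 1) y) = tau e P (a 1) y := rf_of_zero (by rw [hv, star, horth 0 1 h01]; ring)
          rw [act, e1, e2]
        have fix0 : tau e P ((α : Matrix (Fin 3) (Fin 3) F) *ᵥ a 0) ((β : Matrix (Fin n₂) (Fin n₂) F) *ᵥ z) = tau e P (a 0) z := by
          have e1 : rf Q v' (tau e P (a 0) z) = tau e P (a 0) z := rf_of_zero (by rw [hv', star, h4]; ring)
          have e2 : rf Q v (tau e P (a 0) z) = tau e P (a 0) z := rf_of_zero (by rw [hv, star, h2]; ring)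
          rw [act, e1, e2]
        have neg0 : tau e P ((α : Matrix (Fin 3) (Fin 3) F) *ᵥ a 0) ((β : Matrix (Fin n₂) (Fin n₂) F) *ᵥ u) = (-1 : F) • tau e P (a 0) u := by
          have e1 : rf Q v' (tau e P (a 0) u) = tau e P (a 0) u := rf_of_zero (by rw [hv', star, h1']; ring)
          rw [act, e1, ← hv, rf_self hQ hQv0]
        set κ₁ := f₁ ((α : Matrix (Fin 3) (Fin 3) F) *ᵥ a 1) (a 1) with hκ₁
        set κ₀ := f₁ ((α : Matrix (Fin 3) (Fin 3) F) *ᵥ a 0) (a 0) with hκ₀
        have k1 : ∀ y w, κ₁ * f₂ ((β : Matrix (Fin n₂) (Fin n₂) F) *ᵥ y) w = lam * f₂ y w := by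
          intro y w
          have h5 := congrArg (fun t => QuadraticMap.polar Q t (tau e P (a 1) w)) (fix1 y)
          simp only [star, hnorm] at h5
          have h6 : c * (κ₁ * f₂ ((β : Matrix (Fin n₂) (Fin n₂) F) *ᵥ y) w) = c * (lam * f₂ y w) := by
            linear_combination h5
          exact mul_left_cancel₀ hc h6
        have k0 : ∀ w, κ₀ * f₂ ((β : Matrix (Fin n₂) (Fin n₂) F) *ᵥ z) w = lam * f₂ z w := by
          intro w
          have h5 := congrArg (fun t => QuadraticMap.polar Q t (tau e P (a 0) w)) fix0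
          simp only [star, hnorm] at h5
          have h6 : c * (κ₀ * f₂ ((β : Matrix (Fin n₂) (Fin n₂) F) *ᵥ z) w) = c * (lam * f₂ z w) := by
            linear_combination h5
          exact mul_left_cancel₀ hc h6
        have kn : ∀ w, κ₀ * f₂ ((β : Matrix (Fin n₂) (Fin n₂) F) *ᵥ u) w = - (lam * f₂ u w) := by
          intro w
          have h5 := congrArg (fun t => QuadraticMap.polar Q t (tau e P (a 0) w)) neg0
          simp only [hB.smul_left, star, hnorm] at h5
          have h6 : c * (κ₀ * f₂ ((β : Matrix (Fin n₂) (Fin n₂) F) *ᵥ u) w) = c * (- (lam * f₂ u w)) := by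
            linear_combination h5
          exact mul_left_cancel₀ hc h6
        have hzz : f₂ ((β : Matrix (Fin n₂) (Fin n₂) F) *ᵥ z) z ≠ 0 := by
          intro h
          have h5 := k0 z
          rw [h, mul_zero] at h5
          exact (mul_ne_zero hlam hz) h5.symm
        have hk : κ₀ = κ₁ := by
          have h5 := k0 z
          have h6 := k1 z z
          exact mul_right_cancel₀ hzz (h5.trans h6.symm)
        have h5 := k1 u u
        have h6 := kn u
        rw [hk, h5] at h6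
        have h7 : 2 * (lam * f₂ u u) = 0 := by linear_combination h6
        exact (mul_ne_zero h20 (mul_ne_zero hlam hu)) h7
  · rw [SetLike.lt_iff_le_and_exists]
    set w := tau e P (a 0 + a 1) u with hw
    set w' := tau e P (a 0 + a 1) u' with hw'
    have hf01 : f₁ (a 0 + a 1) (a 0 + a 1) = 2 * lam := by
      rw [hb₁.add_left, hb₁.add_right, hb₁.add_right, hnorm, hnorm, horth 0 1 h01, horth 1 0 h10]
      ring
    have hQw : Q w = c * lam * f₂ u u := by
      rw [hQB, hw, star, hf01]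
      linear_combination (c * lam * f₂ u u) * h3
    have hQw' : Q w' = c * lam * f₂ u u := by
      rw [hQB, hw', star, hf01, huu']
      linear_combination (c * lam * f₂ u u) * h3
    have hQw0 : Q w ≠ 0 := by
      rw [hQw]
      exact mul_ne_zero (mul_ne_zero hc hlam) hu
    have hQw'0 : Q w' ≠ 0 := by rw [hQw']; exact mul_ne_zero (mul_ne_zero hc hlam) hu
    obtain ⟨g, hgO, hg⟩ := omega_two_refl hQ hι2 hcF hQw0 hQw'0 ⟨Q w, by rw [hQw', hQw]⟩
    refine ⟨inf_le_left, g, hgO, ?_⟩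
    rintro ⟨-, hfnS⟩
    set x := tau e P (a 0) (u + z) with hx
    have hfa : f₁ (a 0 + a 1) (a 0) = lam := by
      rw [hb₁.add_left, hnorm, horth 1 0 h10, add_zero]
    have hSx : S (((g : Matrix.GeneralLinearGroup ι F) : Matrix ι ι F) *ᵥ x) := by
      rw [hfnS x]
      exact ⟨u + z, 0, rfl⟩
    rw [hg, rf_of_zero (show QuadraticMap.polar Q w' x = 0 by
      rw [hw', hx, star, hfa, hb₂.add_right, h1', h4, add_zero]; ring)] at hSx
    have hrf : rf Q w x = x - w := by
      rw [rf, hQw, hw, hx, star, hfa, hb₂.add_right, h2, add_zero]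
      have : (c * lam * f₂ u u)⁻¹ * (c * lam * f₂ u u) = 1 :=
        inv_mul_cancel₀ (mul_ne_zero (mul_ne_zero hc hlam) hu)
      rw [this, one_smul]
    rw [hrf] at hSx
    obtain ⟨y, i, hy⟩ := hSx
    by_cases hi : i = 1
    · subst hi
      have h5 := congrArg (fun t => QuadraticMap.polar Q t (tau e P (a 0) z)) hy
      rw [bil_sub_left hB, hx, hw, star, star, star, horth 1 0 h10, hfa, hnorm, hb₂.add_left, h2] at h5
      have h6 : c * (lam * f₂ z z) = 0 := by linear_combination h5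
      exact (mul_ne_zero hc (mul_ne_zero hlam hz)) h6
    · have h5 := congrArg (fun t => QuadraticMap.polar Q t (tau e P (a 1) u)) hy
      rw [bil_sub_left hB, hx, hw, star, star, star, horth i 1 hi, horth 0 1 h01, hb₁.add_left, horth 0 1 h01, hnorm] at h5
      have h6 : c * (lam * f₂ u u) = 0 := by linear_combination -h5
      exact (mul_ne_zero hc (mul_ne_zero hlam hu)) h6

end CfsgLib.ClassMax.OmegaR
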