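import Cfsg.Agent.Lib.H9.PSL2Class
import Cfsg.Prelude.Def_GeometricClasses

/-! Quaternion subgroups of `GL₂` and their normalizers. -/

set_option autoImplicit false
set_option linter.unusedSimpArgs false
set_option linter.unusedVariables false
set_option linter.unusedSectionVars false
set_option linter.style.haveILetI false
set_option maxRecDepth 100000

namespace CfsgLib.ClassMax.Q8Norm

open Matrix

variable {F : Type*} [Field F]

abbrev M2 (F : Type*) [Field F] := Matrix (Fin 2) (Fin 2) F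

theorem ch2 (m : M2 F) : m * m = (m 0 0 + m 1 1) • m - (m.det) • 1 := by
  ext i j
  fin_cases i <;> fin_cases j <;> simp [Matrix.mul_apply, Fin.sum_univ_two, Matrix.det_fin_two] <;> ring

/-- anticommutation identity for traceless matrices -/
theorem traceless_anti (d A : M2 F) (hd : d 0 0 + d 1 1 = 0) (hA : A 0 0 + A 1 1 = 0) :
    d * A + A * d = (d 0 0 * A 0 0 + d 0 1 * A 1 0 + d 1 0 * A 0 1 + d 1 1 * A 1 1) • 1 := by
  have h1 : d 1 1 = - d 0 0 := by linear_combination hd
  have h2 : A 1 1 = - A 0 0 := by linear_combination hA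
  ext i j
  fin_cases i <;> fin_cases j <;> simp [Matrix.mul_apply, Fin.sum_univ_two, h1, h2] <;> ring

/-- The quaternion relations. -/
structure Qd (A B : M2 F) : Prop where
  aa : A * A = -1
  bb : B * B = -1
  ba : B * A = -(A * B)

variable {A B : M2 F}

theorem Qd.aba (h : Qd A B) : A * B * A = B := by
  rw [mul_assoc, h.ba, mul_neg, ← mul_assoc, h.aa]
  simp

theorem Qd.bab (h : Qd A B) : B * (A * B) = A := by
  rw [← mul_assoc, h.ba, neg_mul, mul_assoc, h.bb]
  simp

theorem Qd.abb (h : Qd A B) : A * B * B = -A := by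
  rw [mul_assoc, h.bb]
  simp

theorem Qd.aab (h : Qd A B) : A * (A * B) = -B := by
  rw [← mul_assoc, h.aa]
  simp

theorem Qd.abab (h : Qd A B) : A * B * (A * B) = -1 := by
  rw [← mul_assoc, h.aba, h.bb]

/-- `s = 1 + a + b + ab`. -/
def sS (A B : M2 F) : M2 F := 1 + A + B + A * B

theorem Qd.s_a (h : Qd A B) : sS A B * A = B * sS A B := by
  unfold sS
  have e1 : (1 + A + B + A * B) * A = A + A * A + B * A + A * B * A := by noncomm_ring
  have e2 : B * (1 + A + B + A * B) = B + B * A + B * B + B * (A * B) := by noncomm_ring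
  rw [e1, e2, h.aba, h.bab, h.aa, h.bb]
  abel

theorem Qd.s_b (h : Qd A B) : sS A B * B = (A * B) * sS A B := by
  unfold sS
  have e1 : (1 + A + B + A * B) * B = B + A * B + B * B + A * B * B := by noncomm_ring
  have e2 : A * B * (1 + A + B + A * B) = A * B + A * B * A + A * B * B + A * B * (A * B) := by noncomm_ring
  rw [e1, e2, h.aba, h.abb, h.abab, h.bb]
  abel

theorem Qd.s_s (h : Qd A B) : sS A B * sS A B = (2 : F) • sS A B - (4 : F) • 1 := by
  unfold sS
  have e1 : (1 + A + B + A * B) * (1 + A + B + A * B) = 1 + A + B + A * B + (A + A * A + A * B + A * (A * B)) +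
      (B + B * A + B * B + B * (A * B)) + (A * B + A * B * A + A * B * B + A * B * (A * B)) := by noncomm_ring
  rw [e1, h.aa, h.bb, h.ba, h.aab, h.bab, h.aba, h.abb, h.abab]
  have e2 : (2 : F) • (1 + A + B + A * B) = 1 + A + B + A * B + (1 + A + B + A * B) := by
    rw [two_smul]
  have e3 : (4 : F) • (1 : M2 F) = 1 + 1 + 1 + 1 := by
    rw [show (4 : F) = 1 + 1 + 1 + 1 by norm_num]
    simp only [add_smul, one_smul]
  rw [e2, e3]
  abel

/-- `ω = s / 2`. -/
noncomputable def om (A B : M2 F) : M2 F := (2⁻¹ : F) • sS A B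

theorem Qd.om_a (h : Qd A B) : om A B * A = B * om A B := by
  unfold om
  rw [Matrix.smul_mul, Matrix.mul_smul, h.s_a]

theorem Qd.om_b (h : Qd A B) : om A B * B = (A * B) * om A B := by
  unfold om
  rw [Matrix.smul_mul, Matrix.mul_smul, h.s_b]

theorem Qd.om_om (h2 : (2 : F) ≠ 0) (h : Qd A B) : om A B * om A B = om A B - 1 := by
  unfold om
  rw [Matrix.smul_mul, Matrix.mul_smul, smul_smul, h.s_s, smul_sub, smul_smul, smul_smul]
  have e1 : (2⁻¹ * 2⁻¹ * 2 : F) = 2⁻¹ := by field_simp
  have e2 : (2⁻¹ * 2⁻¹ * 4 : F) = 1 := by field_simp; norm_num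
  rw [e1, e2, one_smul]

theorem tr_eq (m : M2 F) : m.trace = m 0 0 + m 1 1 := Matrix.trace_fin_two m

theorem half_zero (h2 : (2 : F) ≠ 0) {t : F} (h : t = -t) : t = 0 := by
  have : 2 * t = 0 := by linear_combination h
  exact (mul_eq_zero.mp this).resolve_left h2

theorem Qd.tr_a (h2 : (2 : F) ≠ 0) (h : Qd A B) : A 0 0 + A 1 1 = 0 := by
  rw [← tr_eq]
  apply half_zero h2
  have h1 : B * (A * B) = A := h.bab
  have h3 : (B * (A * B)).trace = (A * B * B).trace := Matrix.trace_mul_comm _ _
  rw [h1, h.abb, Matrix.trace_neg] at h3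
  exact h3

theorem Qd.tr_b (h2 : (2 : F) ≠ 0) (h : Qd A B) : B 0 0 + B 1 1 = 0 := by
  rw [← tr_eq]
  apply half_zero h2
  have h3 : (A * (B * A)).trace = (B * A * A).trace := Matrix.trace_mul_comm _ _
  have h1 : A * (B * A) = B := by rw [← mul_assoc, h.aba]
  have h4 : B * A * A = -B := by rw [mul_assoc, h.aa]; simp
  rw [h1, h4, Matrix.trace_neg] at h3
  exact h3

theorem Qd.tr_ab (h2 : (2 : F) ≠ 0) (h : Qd A B) : (A * B) 0 0 + (A * B) 1 1 = 0 := by
  rw [← tr_eq]
  apply half_zero h2
  have h3 : (B * A).trace = (A * B).trace := Matrix.trace_mul_comm _ _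
  rw [h.ba, Matrix.trace_neg] at h3
  exact h3.symm

theorem det_of_sq (m : M2 F) (ht : m 0 0 + m 1 1 = 0) (hs : m * m = -1) : m.det = 1 := by
  have h := ch2 m
  rw [ht, zero_smul, zero_sub, hs] at h
  have h0 := congrFun (congrFun h 0) 0
  simpa using h0.symm

theorem Qd.det_a (h2 : (2 : F) ≠ 0) (h : Qd A B) : A.det = 1 := det_of_sq A (h.tr_a h2) h.aa
theorem Qd.det_b (h2 : (2 : F) ≠ 0) (h : Qd A B) : B.det = 1 := det_of_sq B (h.tr_b h2) h.bb

theorem Qd.tr_om (h2 : (2 : F) ≠ 0) (h : Qd A B) : om A B 0 0 + om A B 1 1 = 1 := by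
  have h1 := h.tr_a h2
  have h3 := h.tr_b h2
  have h4 := h.tr_ab h2
  unfold om sS
  simp only [Matrix.smul_apply, Matrix.add_apply, Matrix.one_apply_eq, smul_eq_mul]
  field_simp
  linear_combination h1 + h3 + h4

theorem Qd.det_om (h2 : (2 : F) ≠ 0) (h : Qd A B) : (om A B).det = 1 := by
  have h1 := ch2 (om A B)
  rw [h.tr_om h2, one_smul, h.om_om h2] at h1
  have h0 := congrFun (congrFun h1 0) 0
  simp only [Matrix.sub_apply, Matrix.smul_apply, Matrix.one_apply_eq, smul_eq_mul, mul_one] at h0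
  linear_combination h0

/-- A matrix commuting with a quaternion pair is scalar. -/
theorem Qd.scalar_of_comm (h2 : (2 : F) ≠ 0) (h : Qd A B) (Y : M2 F) (hA : Y * A = A * Y) (hB : Y * B = B * Y) :
    Y 0 1 = 0 ∧ Y 1 0 = 0 ∧ Y 0 0 = Y 1 1 := by
  set t : F := (Y 0 0 + Y 1 1) with ht
  set d : M2 F := Y - (2⁻¹ * t) • 1 with hd
  have htd : d 0 0 + d 1 1 = 0 := by
    simp only [hd, Matrix.sub_apply, Matrix.smul_apply, Matrix.one_apply_eq, smul_eq_mul, mul_one]
    rw [ht]
    field_simp
    ring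
  have hdA : d * A = A * d := by
    simp only [hd, sub_mul, mul_sub, Matrix.smul_mul, Matrix.mul_smul, one_mul, mul_one, hA]
  have hdB : d * B = B * d := by
    simp only [hd, sub_mul, mul_sub, Matrix.smul_mul, Matrix.mul_smul, one_mul, mul_one, hB]
  have key : ∀ C : M2 F, C 0 0 + C 1 1 = 0 → C * C = -1 → d * C = C * d → ∃ c : F, d = c • C := by
    intro C hC hCC hcomm
    have h1 := traceless_anti d C htd hC
    rw [← hcomm] at h1
    set s := (d 0 0 * C 0 0 + d 0 1 * C 1 0 + d 1 0 * C 0 1 + d 1 1 * C 1 1) with hs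
    refine ⟨-(2⁻¹ * s), ?_⟩
    have h3 : (2 : F) • (d * C) = s • 1 := by
      rw [two_smul]
      exact h1
    have h4 : (2 : F) • (d * C * C) = s • C := by
      rw [← Matrix.smul_mul, h3, Matrix.smul_mul, one_mul]
    rw [mul_assoc, hCC, mul_neg, mul_one, smul_neg] at h4
    have h5 : d = (2⁻¹ : F) • ((2 : F) • d) := by
      rw [smul_smul]
      field_simp
      simp
    rw [h5, neg_smul, mul_smul]
    rw [← h4]
    simp
  obtain ⟨c, hc⟩ := key A (h.tr_a h2) h.aa hdA
  obtain ⟨c', hc'⟩ := key B (h.tr_b h2) h.bb hdB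
  have hc0 : c = 0 := by
    by_contra hne
    have e : A = (c⁻¹ * c') • B := by
      rw [mul_smul, ← hc', hc, smul_smul, inv_mul_cancel₀ hne, one_smul]
    have hcomm : B * A = A * B := by
      rw [e]
      simp only [Matrix.smul_mul, Matrix.mul_smul]
    have h4 : (2 : F) • (A * B) = 0 := by
      rw [two_smul]
      nth_rw 1 [← hcomm]
      rw [h.ba]
      simp
    have h5 : A * B = 0 := by
      have := congrArg (fun m => (2⁻¹ : F) • m) h4
      simpa [smul_smul, h2] using this
    have h6 := h.aab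
    rw [h5, mul_zero] at h6
    have h7 : B = 0 := by simpa using h6.symm
    have h8 := h.bb
    rw [h7, mul_zero] at h8
    have h9 := congrFun (congrFun h8 0) 0
    simp at h9
  have hd0 : d = 0 := by
    rw [hc, hc0, zero_smul]
  have hY : Y = (2⁻¹ * t) • 1 := by
    rw [hd, sub_eq_zero] at hd0
    exact hd0
  refine ⟨?_, ?_, ?_⟩
  · rw [hY]; simp
  · rw [hY]; simp
  · rw [hY]; simp

section group

open CfsgLib.H9.SL2Cl CfsgLib.H9.PSL2
open CfsgLib.H9.BorelChar (zS zS_00 zS_01 zS_10 zS_11)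

abbrev GLt (F : Type*) [Field F] := GL (Fin 2) F

theorem sc_of (x : M2 F) (c e : F) (hc : c ≠ 0) (h : c • x = e • 1) : x 0 1 = 0 ∧ x 1 0 = 0 ∧ x 0 0 = x 1 1 := by
  have h00 := congrFun (congrFun h 0) 0
  have h01 := congrFun (congrFun h 0) 1
  have h10 := congrFun (congrFun h 1) 0
  have h11 := congrFun (congrFun h 1) 1
  simp at h00 h01 h10 h11
  refine ⟨?_, ?_, ?_⟩
  · rcases h01 with h | h
    · exact absurd h hc
    · exact h
  · rcases h10 with h | h
    · exact absurd h hc
    · exact h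
  · apply mul_left_cancel₀ hc
    rw [h00, h11]

theorem eq_smul_of_sc (x : M2 F) (h : x 0 1 = 0 ∧ x 1 0 = 0 ∧ x 0 0 = x 1 1) : x = (x 0 0) • 1 := by
  obtain ⟨h1, h2, h3⟩ := h
  ext i j
  fin_cases i <;> fin_cases j <;> simp [h1, h2, ← h3]

theorem exists_qd (h2 : (2 : F) ≠ 0) (R : Subgroup (GLt F)) (hR : Nonempty (R ≃* QuaternionGroup 2)) :
    ∃ a b : GLt F, a ∈ R ∧ b ∈ R ∧ Qd (a : M2 F) (b : M2 F) ∧ (∀ h ∈ R, ∃ k : ℕ, h = a ^ k ∨ h = b * a ^ k) ∧ Nat.card R = 8 := by
  obtain ⟨φ⟩ := hR
  let f : QuaternionGroup 2 →* GLt F := R.subtype.comp φ.symm.toMonoidHom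
  have hf : Function.Injective f := (Subtype.val_injective).comp φ.symm.injective
  let A : QuaternionGroup 2 := QuaternionGroup.a 1
  let B : QuaternionGroup 2 := QuaternionGroup.xa 0
  have r1 : B * B = A * A := by decide
  have r2 : B * A = (A * A) * (A * B) := by decide
  have r3 : (A * A) * (A * A) = 1 := by decide
  have r4 : A * A ≠ 1 := by decide
  have r5 : ∀ q : QuaternionGroup 2, ∃ k ∈ [0, 1, 2, 3], q = A ^ k ∨ q = B * A ^ k := by decide
  set a := f A with ha
  set b := f B with hb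
  have hz1 : (a * a) * (a * a) = 1 := by
    rw [ha, ← map_mul, ← map_mul, r3, map_one]
  have hz2 : a * a ≠ 1 := by
    intro h
    apply r4
    apply hf
    rw [map_mul, map_one]
    exact h
  have hbb : b * b = a * a := by
    rw [ha, hb, ← map_mul, ← map_mul, r1]
  have hba : b * a = (a * a) * (a * b) := by
    rw [ha, hb, ← map_mul, ← map_mul, ← map_mul, ← map_mul, r2]
  set z : M2 F := ((a * a : GLt F) : M2 F) with hz
  have hzz : z * z = 1 := by
    rw [hz, ← Units.val_mul, hz1]
    rfl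
  have hdet : z.det = 1 := by
    have h1 := congrArg (fun g : GLt F => ((g : M2 F)).det) hba
    simp only [Units.val_mul, Matrix.det_mul] at h1
    have hd1 : (a : M2 F).det ≠ 0 := (Matrix.isUnits_det_units a).ne_zero
    have hd2 : (b : M2 F).det ≠ 0 := (Matrix.isUnits_det_units b).ne_zero
    have h3 : z.det = (a : M2 F).det * (a : M2 F).det := by
      rw [hz, Units.val_mul, Matrix.det_mul]
    rw [h3]
    have h4 : (a : M2 F).det * (b : M2 F).det ≠ 0 := mul_ne_zero hd1 hd2
    apply mul_right_cancel₀ h4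
    rw [one_mul]
    linear_combination -h1
  have hch := ch2 z
  rw [hzz, hdet, one_smul] at hch
  set t : F := z 0 0 + z 1 1 with ht
  have htz : t • z = (2 : F) • 1 := by
    rw [two_smul]
    rw [eq_sub_iff_add_eq] at hch
    exact hch.symm
  have ht0 : t ≠ 0 := by
    intro h0
    rw [h0, zero_smul] at htz
    have := congrFun (congrFun htz 0) 0
    simp at this
    exact h2 this.symm
  have hsc := sc_of z t 2 ht0 htz
  have hzc := eq_smul_of_sc z hsc
  have hc2 : z 0 0 * z 0 0 = 1 := by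
    have := congrFun (congrFun hzz 0) 0
    rw [hzc] at this
    simpa [Matrix.mul_apply, Fin.sum_univ_two, hsc.1, hsc.2.1, ← hsc.2.2] using this
  have hz' : z = -1 := by
    have hc : z 0 0 = 1 ∨ z 0 0 = -1 := by
      have : (z 0 0 - 1) * (z 0 0 + 1) = 0 := by linear_combination hc2
      rcases mul_eq_zero.mp this with h | h
      · left; linear_combination h
      · right; linear_combination h
    rcases hc with hc | hc
    · exfalso
      apply hz2
      apply Units.ext
      rw [Units.val_one, ← hz, hzc, hc, one_smul]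
    · rw [hzc, hc]
      simp
  refine ⟨a, b, (φ.symm A).2, (φ.symm B).2, ⟨?_, ?_, ?_⟩, ?_, ?_⟩
  · rw [← Units.val_mul, ← hz, hz']
  · rw [← Units.val_mul, hbb, ← hz, hz']
  · rw [← Units.val_mul, hba, Units.val_mul, ← hz, hz', Units.val_mul]
    simp
  · intro h hh
    obtain ⟨k, _, hk⟩ := r5 (φ ⟨h, hh⟩)
    have hfh : f (φ ⟨h, hh⟩) = h := by
      show ((φ.symm (φ ⟨h, hh⟩) : R) : GLt F) = h
      simp
    refine ⟨k, ?_⟩
    rcases hk with hk | hk
    · left
      rw [← hfh, hk, map_pow]
    · right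
      rw [← hfh, hk, map_mul, map_pow]
  · rw [Nat.card_congr φ.toEquiv, Nat.card_eq_fintype_card, QuaternionGroup.card]

/-- An element of prime order `≥ 5` normalizing a group of order 8 and commuting with
a non-trivial element of it centralizes it. -/
theorem comm_of_norm (R : Subgroup (GLt F)) (hcard : Nat.card R = 8) (y : GLt F)
    (hy : y ∈ Subgroup.normalizer (R : Set (GLt F))) (r : ℕ) [hr : Fact r.Prime] (hr2 : r ≠ 2) (hr3 : r ≠ 3)
    (hyr : y ^ r = 1) (z : GLt F) (hz : z ∈ R) (hz1 : z ≠ 1) (hyz : y * z = z * y) (u : GLt F) (hu : u ∈ R) :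
    y * u = u * y := by
  classical
  haveI : Finite R := Nat.finite_of_card_ne_zero (by rw [hcard]; norm_num)
  haveI : Fintype R := Fintype.ofFinite _
  let τ : Function.End R := fun u => ⟨y * u * y⁻¹, (Subgroup.mem_normalizer_iff.mp hy u).mp u.2⟩
  have hτ : ∀ (n : ℕ) (u : R), (((τ ^ n) u : R) : GLt F) = y ^ n * u * (y ^ n)⁻¹ := by
    intro n
    induction n with
    | zero =>
      intro u
      rw [pow_zero, pow_zero]
      show (u : GLt F) = _
      simp
    | succ n ih =>
      intro u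
      rw [pow_succ']
      show y * (((τ ^ n) u : R) : GLt F) * y⁻¹ = _
      rw [ih, pow_succ]
      group
  have hτr : τ ^ r ^ 1 = 1 := by
    funext u
    apply Subtype.ext
    rw [pow_one, hτ, hyr]
    show _ = (u : GLt F)
    simp
  have hmod := Equiv.Perm.card_fixedPoints_modEq (f := τ) (p := r) (n := 1) hτr
  let C : Subgroup R := (Subgroup.centralizer ({y} : Set (GLt F))).subgroupOf R
  have hmemC : ∀ v : R, v ∈ C ↔ y * v = v * y := by
    intro v
    rw [Subgroup.mem_subgroupOf, Subgroup.mem_centralizer_singleton_iff]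
    exact ⟨fun h => h.symm, fun h => h.symm⟩
  have hfix : Function.fixedPoints τ = (C : Set R) := by
    ext v
    rw [Function.mem_fixedPoints, SetLike.mem_coe, hmemC]
    constructor
    · intro h
      have h1 : y * v * y⁻¹ = v := congrArg Subtype.val h
      rw [mul_inv_eq_iff_eq_mul] at h1
      exact h1
    · intro h
      apply Subtype.ext
      show y * v * y⁻¹ = v
      rw [h]
      simp
  have hcardC : Fintype.card (Function.fixedPoints τ) = Nat.card C := by
    rw [← Nat.card_eq_fintype_card]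
    exact Nat.card_congr (Equiv.setCongr hfix)
  rw [hcardC, ← Nat.card_eq_fintype_card, hcard] at hmod
  have hdvd : Nat.card C ∣ 8 := by
    rw [← hcard]
    exact Subgroup.card_subgroup_dvd_card C
  have hzC : (⟨z, hz⟩ : R) ∈ C := (hmemC _).mpr hyz
  have hgt : 1 < Nat.card C := by
    haveI : Nontrivial C := ⟨⟨⟨⟨z, hz⟩, hzC⟩, 1, by
      intro h
      apply hz1
      have := congrArg (fun w : C => ((w : R) : GLt F)) h
      simpa using this⟩⟩
    exact Finite.one_lt_card
  have hle := Nat.le_of_dvd (by norm_num) hdvd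
  have hrp : r.Prime := hr.out
  have hC8 : Nat.card C = 8 := by
    have hmem : Nat.card C ∈ Nat.divisors 8 := Nat.mem_divisors.mpr ⟨hdvd, by norm_num⟩
    have h3 : Nat.card C = 2 ∨ Nat.card C = 4 ∨ Nat.card C = 8 := by
      generalize Nat.card C = c at *
      interval_cases c <;> simp_all <;> omega
    rcases h3 with h3 | h3 | h3
    · exfalso
      rw [h3] at hmod
      have h6 : r ∣ 6 := (Nat.modEq_iff_dvd' (by norm_num)).mp hmod.symm
      have : r ∣ 2 * 3 := h6
      rcases (Nat.Prime.dvd_mul hrp).mp this with h | h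
      · exact hr2 ((Nat.prime_dvd_prime_iff_eq hrp Nat.prime_two).mp h)
      · exact hr3 ((Nat.prime_dvd_prime_iff_eq hrp Nat.prime_three).mp h)
    · exfalso
      rw [h3] at hmod
      have h6 : r ∣ 4 := (Nat.modEq_iff_dvd' (by norm_num)).mp hmod.symm
      have : r ∣ 2 ^ 2 := h6
      exact hr2 ((Nat.prime_dvd_prime_iff_eq hrp Nat.prime_two).mp (hrp.dvd_of_dvd_pow this))
    · exact h3
  have htop : C = ⊤ := by
    apply Subgroup.eq_top_of_card_eq
    rw [hC8, hcard]
  have : (⟨u, hu⟩ : R) ∈ C := by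
    rw [htop]
    exact Subgroup.mem_top _
  exact (hmemC _).mp this

/-- Lifting to `SL₂`. -/
def toS (x : GLt F) (h : x ∈ Cfsg.Geo.specialLinear (Fin 2) F) : SL2 F :=
  ⟨(x : M2 F), by
    have h1 : Matrix.GeneralLinearGroup.det x = 1 := h
    have := congrArg Units.val h1
    simpa using this⟩

theorem toGL_toS (x : GLt F) (h : x ∈ Cfsg.Geo.specialLinear (Fin 2) F) :
    SpecialLinearGroup.toGL (toS x h) = x := by
  apply Units.ext
  rfl

theorem mem_sl_of_det (x : GLt F) (h : (x : M2 F).det = 1) : x ∈ Cfsg.Geo.specialLinear (Fin 2) F := by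
  show Matrix.GeneralLinearGroup.det x = 1
  apply Units.ext
  simpa using h

theorem toGL_mem (x : SL2 F) : SpecialLinearGroup.toGL x ∈ Cfsg.Geo.specialLinear (Fin 2) F := by
  apply mem_sl_of_det
  exact x.2

theorem conj_helper [Fintype F] (x : GLt F) (hx : x ∈ Cfsg.Geo.specialLinear (Fin 2) F)
    (hns : ∀ z : F, (x : M2 F) ≠ z • 1) (w : GLt F) (hw : w ∈ Cfsg.Geo.specialLinear (Fin 2) F)
    (hwns : ¬ ((w : M2 F) 0 1 = 0 ∧ (w : M2 F) 1 0 = 0 ∧ (w : M2 F) 0 0 = (w : M2 F) 1 1))
    (ht : (x : M2 F) 0 0 + (x : M2 F) 1 1 = (w : M2 F) 0 0 + (w : M2 F) 1 1)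
    (h4 : ((x : M2 F) 0 0 + (x : M2 F) 1 1) ^ 2 ≠ 4) :
    ∃ g ∈ Cfsg.Geo.specialLinear (Fin 2) F, g⁻¹ * x * g = w := by
  have hc : IsConj (toS x hx) (toS w hw) := by
    apply conj_all
    · intro hs
      exact hns _ (eq_smul_of_sc (x : M2 F) hs)
    · intro hs
      exact hwns hs
    · exact ht
    · exact h4
  obtain ⟨c, hc⟩ := isConj_iff.mp hc
  refine ⟨SpecialLinearGroup.toGL c⁻¹, toGL_mem _, ?_⟩
  have := congrArg (SpecialLinearGroup.toGL (n := Fin 2) (R := F)) hc
  simp only [map_mul, map_inv, toGL_toS] at this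
  simpa using this

theorem norm_of_gens (R : Subgroup (GLt F)) [Finite R] (a b : GLt F)
    (hgen : ∀ h ∈ R, ∃ k : ℕ, h = a ^ k ∨ h = b * a ^ k) (W : GLt F) (h1 : W * a * W⁻¹ ∈ R) (h2 : W * b * W⁻¹ ∈ R) :
    W ∈ Subgroup.normalizer (R : Set (GLt F)) := by
  have hpow : ∀ k : ℕ, W * a ^ k * W⁻¹ ∈ R := by
    intro k
    rw [← conj_pow]
    exact R.pow_mem h1 k
  have hfw : ∀ h ∈ R, W * h * W⁻¹ ∈ R := by
    intro h hh
    obtain ⟨k, rfl | rfl⟩ := hgen h hh
    · exact hpow k
    · have := R.mul_mem h2 (hpow k)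
      simpa [mul_assoc] using this
  rw [Subgroup.mem_normalizer_iff]
  intro h
  refine ⟨hfw h, fun hh => ?_⟩
  let f : R → R := fun u => ⟨W * u * W⁻¹, hfw u u.2⟩
  have hf : Function.Injective f := by
    intro u v huv
    apply Subtype.ext
    have h3 : W * (u : GLt F) * W⁻¹ = W * v * W⁻¹ := congrArg Subtype.val huv
    simpa using h3
  obtain ⟨u, hu⟩ := (Finite.injective_iff_surjective.mp hf) ⟨_, hh⟩
  have h3 : W * (u : GLt F) * W⁻¹ = W * h * W⁻¹ := congrArg Subtype.val hu
  have h4 : (u : GLt F) = h := by simpa using h3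
  rw [← h4]
  exact u.2

theorem main [Fintype F] {p : ℕ} [Fact p.Prime] [CharP F p] (hF : Fintype.card F = p) (hp : 5 ≤ p)
    (R : Subgroup (GL (Fin 2) F)) (hR : Nonempty (↥R ≃* QuaternionGroup 2))
    (r : ℕ) [hrp : Fact r.Prime]
    (hΩ : r ∣ (Cfsg.Geo.subgroupNormalizer R).relIndex (Cfsg.Geo.specialLinear (Fin 2) F)) :
    (∀ x ∈ Cfsg.Geo.specialLinear (Fin 2) F, (∃ z : F, ((x ^ r : GL (Fin 2) F) : Matrix (Fin 2) (Fin 2) F) = z • (1 : Matrix (Fin 2) (Fin 2) F)) →
      (∀ z : F, (x : Matrix (Fin 2) (Fin 2) F) ≠ z • (1 : Matrix (Fin 2) (Fin 2) F)) →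
      ∃ g ∈ Cfsg.Geo.specialLinear (Fin 2) F, g⁻¹ * x * g ∈ Cfsg.Geo.subgroupNormalizer R) ↔ (r = 2 ∨ r = 3) := by
  classical
  have hnz : ∀ m : ℕ, m ≠ 0 → m < 5 → ((m : ℕ) : F) ≠ 0 := by
    intro m hm hlt h
    have := (CharP.cast_eq_zero_iff F p m).mp h
    have := Nat.le_of_dvd (Nat.pos_of_ne_zero hm) this
    omega
  have h2 : (2 : F) ≠ 0 := by exact_mod_cast hnz 2 (by norm_num) (by norm_num)
  have h3 : (3 : F) ≠ 0 := by exact_mod_cast hnz 3 (by norm_num) (by norm_num)
  have h4' : (4 : F) ≠ 0 := by exact_mod_cast hnz 4 (by norm_num) (by norm_num)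
  obtain ⟨a, b, haR, hbR, hq, hgen, hcard⟩ := exists_qd h2 R hR
  haveI : Finite R := Nat.finite_of_card_ne_zero (by rw [hcard]; norm_num)
  have hzz : (((a * a : GLt F)) : M2 F) = -1 := by
    rw [Units.val_mul, hq.aa]
  constructor
  · intro hP
    by_contra hne
    push Not at hne
    obtain ⟨hr2, hr3⟩ := hne
    have hdvd : r ∣ Nat.card (Cfsg.Geo.specialLinear (Fin 2) F) :=
      hΩ.trans (Subgroup.index_dvd_card _)
    obtain ⟨x₀, hx₀⟩ := exists_prime_orderOf_dvd_card' (G := ↥(Cfsg.Geo.specialLinear (Fin 2) F)) r hdvd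
    set x : GLt F := (x₀ : GLt F) with hxdef
    have hxr : x ^ r = 1 := by
      have := pow_orderOf_eq_one x₀
      rw [hx₀] at this
      have h5 := congrArg Subtype.val this
      simpa using h5
    have hsc : ∃ z : F, ((x ^ r : GL (Fin 2) F) : Matrix (Fin 2) (Fin 2) F) = z • (1 : Matrix (Fin 2) (Fin 2) F) :=
      ⟨1, by rw [hxr]; simp⟩
    have hns : ∀ z : F, (x : Matrix (Fin 2) (Fin 2) F) ≠ z • (1 : Matrix (Fin 2) (Fin 2) F) := by
      intro z hz
      have hdet : (x : M2 F).det = 1 := (toS x x₀.2).2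
      rw [hz, Matrix.det_smul] at hdet
      simp only [Matrix.det_one, Fintype.card_fin, mul_one] at hdet
      have hxx : x ^ 2 = 1 := by
        apply Units.ext
        rw [Units.val_pow_eq_pow_val, hz, pow_two, Matrix.smul_mul, Matrix.mul_smul, smul_smul, one_mul, ← pow_two, hdet]
        simp
      have hx02 : x₀ ^ 2 = 1 := by
        apply Subtype.ext
        simpa using hxx
      have h6 := orderOf_dvd_of_pow_eq_one hx02
      rw [hx₀] at h6
      exact hr2 ((Nat.prime_dvd_prime_iff_eq hrp.out Nat.prime_two).mp h6)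
    obtain ⟨g, hg, hy⟩ := hP x x₀.2 hsc hns
    set y : GLt F := g⁻¹ * x * g with hydef
    have hyr : y ^ r = 1 := by
      have e : y = g⁻¹ * x * g⁻¹⁻¹ := by rw [hydef, inv_inv]
      rw [e, conj_pow, hxr]
      simp
    have hz1 : a * a ≠ 1 := by
      intro h
      have h5 := congrArg (fun w : GLt F => ((w : M2 F)) 0 0) h
      simp only [hzz] at h5
      simp at h5
      have : (2 : F) = 0 := by linear_combination -h5
      exact h2 this
    have hyz : y * (a * a) = (a * a) * y := by
      apply Units.ext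
      show (y : M2 F) * ((a * a : GLt F) : M2 F) = ((a * a : GLt F) : M2 F) * (y : M2 F)
      rw [hzz, mul_neg, neg_mul, mul_one, one_mul]
    have hcomm := comm_of_norm R hcard y hy r hr2 hr3 hyr (a * a) (R.mul_mem haR haR) hz1 hyz
    have hYa : (y : M2 F) * (a : M2 F) = (a : M2 F) * (y : M2 F) := by
      have := congrArg Units.val (hcomm a haR)
      simpa using this
    have hYb : (y : M2 F) * (b : M2 F) = (b : M2 F) * (y : M2 F) := by
      have := congrArg Units.val (hcomm b hbR)
      simpa using this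
    have hsY := hq.scalar_of_comm h2 (y : M2 F) hYa hYb
    have hYc := eq_smul_of_sc (y : M2 F) hsY
    apply hns ((y : M2 F) 0 0)
    have hxy : x = g * y * g⁻¹ := by rw [hydef]; group
    have : (x : M2 F) = (g : M2 F) * (y : M2 F) * ((g⁻¹ : GLt F) : M2 F) := by
      rw [hxy]
      simp
    rw [this, hYc]
    simp only [Matrix.mul_smul, Matrix.smul_mul, mul_one]
    simp
  · rintro hr x hx ⟨z, hz⟩ hns
    have hdetx : (x : M2 F).det = 1 := (toS x hx).2
    have hch := ch2 (x : M2 F)
    rw [hdetx, one_smul] at hch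
    set t : F := (x : M2 F) 0 0 + (x : M2 F) 1 1 with ht
    have hnsc : ¬ ((x : M2 F) 0 1 = 0 ∧ (x : M2 F) 1 0 = 0 ∧ (x : M2 F) 0 0 = (x : M2 F) 1 1) := by
      intro hs
      exact hns _ (eq_smul_of_sc (x : M2 F) hs)
    rcases hr with rfl | rfl
    · -- involutions
      have ht0 : t = 0 := by
        by_contra hne
        apply hnsc
        apply sc_of (x : M2 F) t (z + 1) hne
        rw [Units.val_pow_eq_pow_val, pow_two, hch, sub_eq_iff_eq_add] at hz
        rw [hz, add_smul, one_smul]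
      have hadet := hq.det_a h2
      have hatr := hq.tr_a h2
      obtain ⟨g, hg, hgx⟩ := conj_helper x hx hns a (mem_sl_of_det a hadet) (by
        rintro ⟨h1, h5, h6⟩
        have : (2 : F) * (a : M2 F) 0 0 = 0 := by linear_combination hatr + h6
        have h0 : (a : M2 F) 0 0 = 0 := (mul_eq_zero.mp this).resolve_left h2
        have hd := hadet
        rw [Matrix.det_fin_two, h1, h0] at hd
        simp at hd) (by rw [← ht, ht0, hatr]) (by
        rw [← ht, ht0]
        simpa using h4'.symm)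
      refine ⟨g, hg, ?_⟩
      rw [hgx]
      exact Subgroup.le_normalizer haR
    · -- order three
      have hx3 : (x : M2 F) * (x : M2 F) * (x : M2 F) = (t ^ 2 - 1) • (x : M2 F) - t • 1 := by
        rw [hch, sub_mul, one_mul, Matrix.smul_mul, hch, smul_sub, smul_smul, sub_smul, one_smul, ← pow_two]
        abel
      have ht1 : t ^ 2 = 1 := by
        by_contra hne
        have hne' : t ^ 2 - 1 ≠ 0 := sub_ne_zero.mpr hne
        apply hnsc
        apply sc_of (x : M2 F) (t ^ 2 - 1) (z + t) hne'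
        have e : ((x ^ 3 : GL (Fin 2) F) : Matrix (Fin 2) (Fin 2) F) = (x : M2 F) * (x : M2 F) * (x : M2 F) := by
          rw [Units.val_pow_eq_pow_val, pow_three, mul_assoc]
        rw [e, hx3, sub_eq_iff_eq_add] at hz
        rw [hz]
        exact (add_smul z t (1 : M2 F)).symm
      have ht12 : t = 1 ∨ t = -1 := by
        have : (t - 1) * (t + 1) = 0 := by linear_combination ht1
        rcases mul_eq_zero.mp this with h | h
        · left; linear_combination h
        · right; linear_combination h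
      have homdet := hq.det_om h2
      have homtr := hq.tr_om h2
      let wS : SL2 F := ⟨om (a : M2 F) (b : M2 F), homdet⟩
      let W : GLt F := SpecialLinearGroup.toGL wS
      have hWval : (W : M2 F) = om (a : M2 F) (b : M2 F) := rfl
      have hWsl : W ∈ Cfsg.Geo.specialLinear (Fin 2) F := toGL_mem _
      have hWa : W * a * W⁻¹ = b := by
        rw [mul_inv_eq_iff_eq_mul]
        apply Units.ext
        rw [Units.val_mul, Units.val_mul, hWval]
        exact hq.om_a
      have hWb : W * b * W⁻¹ = a * b := by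
        rw [mul_inv_eq_iff_eq_mul]
        apply Units.ext
        rw [Units.val_mul, Units.val_mul, Units.val_mul, hWval]
        exact hq.om_b
      have hWN : W ∈ Subgroup.normalizer (R : Set (GLt F)) :=
        norm_of_gens R a b hgen W (by rw [hWa]; exact hbR) (by rw [hWb]; exact R.mul_mem haR hbR)
      have hWns : ¬ ((W : M2 F) 0 1 = 0 ∧ (W : M2 F) 1 0 = 0 ∧ (W : M2 F) 0 0 = (W : M2 F) 1 1) := by
        rintro ⟨h1, h5, h6⟩
        rw [hWval] at h1 h5 h6
        have hd := homdet
        rw [Matrix.det_fin_two, h1, h5, ← h6] at hd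
        have htr : (2 : F) * om (a : M2 F) (b : M2 F) 0 0 = 1 := by linear_combination homtr + h6
        have : (3 : F) = 0 := by
          linear_combination (-4 : F) * hd + (2 * om (a : M2 F) (b : M2 F) 0 0 + 1) * htr
        exact h3 this
      have h34 : ((1 : F)) ^ 2 ≠ 4 := by
        intro h
        apply h3
        linear_combination -h
      rcases ht12 with h1 | h1
      · obtain ⟨g, hg, hgx⟩ := conj_helper x hx hns W hWsl hWns (by
          rw [← ht, h1, hWval]
          exact homtr.symm) (by rw [← ht, h1]; exact h34)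
        refine ⟨g, hg, ?_⟩
        rw [hgx]
        exact hWN
      · have hW2val : ((a * a * W : GLt F) : M2 F) = - om (a : M2 F) (b : M2 F) := by
          rw [Units.val_mul, hzz, hWval]
          simp
        have hW2sl : a * a * W ∈ Cfsg.Geo.specialLinear (Fin 2) F := by
          apply mem_sl_of_det
          rw [hW2val, Matrix.det_neg]
          simp [homdet]
        have hW2N : a * a * W ∈ Subgroup.normalizer (R : Set (GLt F)) :=
          Subgroup.mul_mem _ (Subgroup.le_normalizer (R.mul_mem haR haR)) hWN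
        obtain ⟨g, hg, hgx⟩ := conj_helper x hx hns (a * a * W) hW2sl (by
          rw [hW2val]
          rintro ⟨h5, h6, h7⟩
          apply hWns
          rw [hWval]
          simp only [Matrix.neg_apply, neg_eq_zero, neg_inj] at h5 h6 h7
          exact ⟨h5, h6, h7⟩) (by
          rw [← ht, h1, hW2val]
          simp only [Matrix.neg_apply]
          linear_combination homtr) (by
          rw [← ht, h1]
          intro h
          apply h3
          linear_combination -h)
        refine ⟨g, hg, ?_⟩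
        rw [hgx]
        exact hW2N

end group

end CfsgLib.ClassMax.Q8Norm
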