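import Mathlib
import Cfsg.Agent.Lib.ClassGeo.Bridge

set_option autoImplicit false
set_option linter.unusedSimpArgs false
set_option linter.unusedVariables false
set_option linter.unusedSectionVars false

namespace CfsgLib.SymOrth

open Matrix Cfsg

abbrev F2 := ZMod 2

theorem f2_sq (a : F2) : a * a = a := by revert a; decide
theorem f2_add (a : F2) : a + a = 0 := by revert a; decide

/-- weight -/
def W {n : ℕ} (y : Fin n → F2) : ℕ := ∑ i, (y i).val
def S {n : ℕ} (y : Fin n → F2) : F2 := ∑ i, y i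
def E {n : ℕ} (y : Fin n → F2) : F2 := (((W y).choose 2 : ℕ) : F2)
def A {n : ℕ} (y : Fin n → F2) : F2 := E y + S y

theorem W_cast {n : ℕ} (y : Fin n → F2) : ((W y : ℕ) : F2) = S y := by
  simp [W, S]

theorem W_cons {n : ℕ} (a : F2) (y : Fin n → F2) : W (Fin.cons a y : Fin (n + 1) → F2) = a.val + W y := by
  simp [W, Fin.sum_univ_succ]

theorem S_cons {n : ℕ} (a : F2) (y : Fin n → F2) : S (Fin.cons a y : Fin (n + 1) → F2) = a + S y := by
  simp [S, Fin.sum_univ_succ]

theorem E_cons {n : ℕ} (a : F2) (y : Fin n → F2) : E (Fin.cons a y : Fin (n + 1) → F2) = E y + a * S y := by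
  have h : a = 0 ∨ a = 1 := by revert a; decide
  rw [E, W_cons]
  rcases h with rfl | rfl
  · simp [E]
  · have h1 : ((1 : F2)).val = 1 := rfl
    rw [h1, add_comm 1 (W y), Nat.choose_succ_succ' (W y) 1, Nat.choose_one_right, ← W_cast y, one_mul, E]
    push_cast
    ring

theorem S_add {n : ℕ} (x y : Fin n → F2) : S (x + y) = S x + S y := by
  simp [S, Finset.sum_add_distrib]

theorem E_zero (x : Fin 0 → F2) : E x = 0 := by
  simp [E, W]

/-! ### The action -/

def iot {m : ℕ} (x : Fin m → F2) : Fin (m + 2) → F2 := Fin.cons 0 (Fin.cons (S x) x : Fin (m + 1) → F2)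
def pr {m : ℕ} (y : Fin (m + 2) → F2) : Fin m → F2 := fun i => y i.succ.succ + y 0
def act {n : ℕ} (σ : Equiv.Perm (Fin n)) (y : Fin n → F2) : Fin n → F2 := fun i => y (σ⁻¹ i)

theorem pr_iot {m : ℕ} (x : Fin m → F2) : pr (iot x) = x := by
  ext i
  simp [pr, iot]

theorem iot_pr {m : ℕ} (hm : Even m) (y : Fin (m + 2) → F2) (hy : S y = 0) :
    iot (pr y) = fun i => y i + y 0 := by
  have hS : S (pr y) = y 1 + y 0 := by
    have h1 : S y = y 0 + (y 1 + ∑ i : Fin m, y i.succ.succ) := by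
      simp only [S, Fin.sum_univ_succ]
      rfl
    have h2 : S (pr y) = (∑ i : Fin m, y i.succ.succ) + (m : F2) * y 0 := by
      simp [S, pr, Finset.sum_add_distrib]
    have h3 : ((m : ℕ) : F2) = 0 := by
      rw [ZMod.natCast_eq_zero_iff]
      exact hm.two_dvd
    rw [h2, h3, zero_mul, add_zero]
    rw [hy] at h1
    generalize y 0 = a at h1 ⊢
    generalize y 1 = b at h1 ⊢
    generalize (∑ i : Fin m, y i.succ.succ) = c at h1 ⊢
    revert a b c
    decide
  ext i
  refine Fin.cases ?_ (fun j => Fin.cases ?_ (fun l => ?_) j) i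
  · simp [iot, f2_add]
  · simp only [iot, Fin.cons_zero, Fin.cons_succ]
    rw [hS]
    rfl
  · simp [iot, pr]

theorem pr_shift {m : ℕ} (z : Fin (m + 2) → F2) (c : F2) : pr (fun i => z i + c) = pr z := by
  ext i
  simp only [pr]
  obtain ⟨a, -⟩ : ∃ a, a = z i.succ.succ := ⟨_, rfl⟩
  obtain ⟨b, -⟩ : ∃ b, b = z 0 := ⟨_, rfl⟩
  generalize z i.succ.succ = a'
  generalize z 0 = b'
  revert a' b' c
  decide

theorem act_mul {n : ℕ} (σ τ : Equiv.Perm (Fin n)) (y : Fin n → F2) : act (σ * τ) y = act σ (act τ y) := by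
  ext i
  simp [act, _root_.mul_inv_rev]

theorem act_one {n : ℕ} (y : Fin n → F2) : act 1 y = y := by
  ext i
  simp [act]

theorem S_act {n : ℕ} (σ : Equiv.Perm (Fin n)) (y : Fin n → F2) : S (act σ y) = S y :=
  Equiv.sum_comp (σ⁻¹) y

theorem W_act {n : ℕ} (σ : Equiv.Perm (Fin n)) (y : Fin n → F2) : W (act σ y) = W y :=
  Equiv.sum_comp (σ⁻¹) (fun i => (y i).val)

theorem E_act {n : ℕ} (σ : Equiv.Perm (Fin n)) (y : Fin n → F2) : E (act σ y) = E y := by
  simp [E, W_act]

theorem act_shift {n : ℕ} (σ : Equiv.Perm (Fin n)) (y : Fin n → F2) (c : F2) :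
    act σ (fun i => y i + c) = fun i => act σ y i + c := rfl

theorem S_iot {m : ℕ} (x : Fin m → F2) : S (iot x) = 0 := by
  rw [iot, S_cons, S_cons, f2_add, add_zero]

theorem E_iot {m : ℕ} (x : Fin m → F2) : E (iot x) = A x := by
  rw [iot, E_cons, E_cons, A, f2_sq]
  simp

theorem choose_even (u : ℕ) : (((2 * u).choose 2 : ℕ) : F2) = (u : F2) := by
  induction u with
  | zero => simp
  | succ u ih =>
    have e : 2 * (u + 1) = (2 * u + 1) + 1 := by ring
    rw [e, Nat.choose_succ_succ' (2 * u + 1) 1, Nat.choose_succ_succ' (2 * u) 1, Nat.choose_one_right, Nat.choose_one_right]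
    push_cast
    rw [ih]
    have h2 : ((2 : ℕ) : F2) = 0 := rfl
    have h3 : (2 : F2) = 0 := h2
    rw [h3, zero_mul]
    ring

theorem E_shift {n j : ℕ} (hn : n = 4 * j) (y : Fin n → F2) (hy : S y = 0) (c : F2) :
    E (fun i => y i + c) = E y := by
  have hc : c = 0 ∨ c = 1 := by revert c; decide
  rcases hc with rfl | rfl
  · simp
  have hW : W (fun i => y i + 1) + W y = n := by
    simp only [W]
    rw [← Finset.sum_add_distrib]
    have : ∀ i, (y i + 1).val + (y i).val = 1 := by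
      intro i
      generalize y i = a
      revert a
      decide
    simp [this]
  obtain ⟨u, hu⟩ : 2 ∣ W y := by
    rw [← ZMod.natCast_eq_zero_iff, W_cast, hy]
  have hv : W (fun i => y i + 1) = 2 * (2 * j - u) := by omega
  have huj : u ≤ 2 * j := by omega
  rw [E, E, hv, hu, choose_even, choose_even]
  have h3 : (((2 * j - u : ℕ) + u : ℕ) : F2) = 0 := by
    rw [Nat.sub_add_cancel huj]
    rw [ZMod.natCast_eq_zero_iff]
    exact Dvd.intro _ rfl
  push_cast at h3
  have h4 : ((2 * j - u : ℕ) : F2) = ((2 * j - u : ℕ) : F2) := rfl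
  obtain ⟨a, ha⟩ : ∃ a : F2, a = ((2 * j - u : ℕ) : F2) := ⟨_, rfl⟩
  rw [← ha]
  have h5 : a + (u : F2) = 0 := by
    rw [ha]
    exact h3
  clear ha h4 h3
  generalize (u : F2) = b at h5 ⊢
  revert a b
  decide

/-- The linear action on the even-partition module. -/
def g {m : ℕ} (σ : Equiv.Perm (Fin (m + 2))) (x : Fin m → F2) : Fin m → F2 := pr (act σ (iot x))

theorem g_one {m : ℕ} (x : Fin m → F2) : g 1 x = x := by
  rw [g, act_one, pr_iot]

theorem g_mul {m : ℕ} (hm : Even m) (σ τ : Equiv.Perm (Fin (m + 2))) (x : Fin m → F2) :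
    g (σ * τ) x = g σ (g τ x) := by
  rw [g, g, g, iot_pr hm _ (by rw [S_act, S_iot]), act_shift, pr_shift, act_mul]

theorem A_g {m j : ℕ} (hj : m + 2 = 4 * j) (hm : Even m) (σ : Equiv.Perm (Fin (m + 2))) (x : Fin m → F2) : A (g σ x) = A x := by
  rw [← E_iot, g, iot_pr hm _ (by rw [S_act, S_iot]), E_shift hj _ (by rw [S_act, S_iot]), E_act, E_iot]

theorem iot_add {m : ℕ} (x y : Fin m → F2) : iot (x + y) = iot x + iot y := by
  ext i
  refine Fin.cases ?_ (fun j => Fin.cases ?_ (fun l => ?_) j) i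
  · simp [iot]
  · simp [iot, S_add]
  · simp [iot]

theorem g_add {m : ℕ} (σ : Equiv.Perm (Fin (m + 2))) (x y : Fin m → F2) : g σ (x + y) = g σ x + g σ y := by
  ext i
  simp only [g, iot_add, pr, act, Pi.add_apply]
  ring

theorem g_smul {m : ℕ} (σ : Equiv.Perm (Fin (m + 2))) (c : F2) (x : Fin m → F2) : g σ (c • x) = c • g σ x := by
  have hc : c = 0 ∨ c = 1 := by revert c; decide
  rcases hc with rfl | rfl
  · rw [zero_smul, zero_smul]
    have := g_add σ 0 0
    rw [add_zero] at this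
    exact left_eq_add.mp this
  · rw [one_smul, one_smul]

/-- The action as linear automorphisms. -/
def gE {m : ℕ} (hm : Even m) (σ : Equiv.Perm (Fin (m + 2))) : (Fin m → F2) ≃ₗ[F2] (Fin m → F2) where
  toFun := g σ
  invFun := g σ⁻¹
  map_add' := g_add σ
  map_smul' := g_smul σ
  left_inv := by
    intro x
    rw [← g_mul hm, inv_mul_cancel, g_one]
  right_inv := by
    intro x
    rw [← g_mul hm, mul_inv_cancel, g_one]

theorem exists_avoid {n : ℕ} (s : Finset (Fin n)) (h : s.card < n) : ∃ c, c ∉ s := by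
  by_contra hc
  push Not at hc
  have h1 : s = Finset.univ := Finset.eq_univ_iff_forall.mpr hc
  rw [h1, Finset.card_univ, Fintype.card_fin] at h
  omega

/-- Faithfulness. -/
theorem g_faithful {m : ℕ} (hm : Even m) (hm6 : 3 ≤ m) (σ : Equiv.Perm (Fin (m + 2))) (h : ∀ x, g σ x = x) : σ = 1 := by
  by_contra hσ
  obtain ⟨a, ha⟩ : ∃ a, σ a ≠ a := by
    by_contra hc
    push Not at hc
    exact hσ (Equiv.ext (fun i => by simpa using hc i))
  -- even vectors move by a constant
  have key : ∀ y : Fin (m + 2) → F2, S y = 0 → ∃ c : F2, ∀ i, act σ y i = y i + c := by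
    intro y hy
    have h1 := h (pr y)
    rw [g, iot_pr hm y hy, act_shift] at h1
    obtain ⟨z, hz⟩ : ∃ z, z = act σ y := ⟨_, rfl⟩
    have hSz : S z = 0 := by rw [hz, S_act, hy]
    rw [← hz, pr_shift] at h1
    have h2 := iot_pr hm z hSz
    rw [h1, iot_pr hm y hy] at h2
    refine ⟨z 0 + y 0, fun i => ?_⟩
    have h3 : z i + z 0 = y i + y 0 := (congrFun h2 i).symm
    rw [← hz]
    generalize z i = a' at h3 ⊢
    generalize z 0 = b' at h3 ⊢
    generalize y i = c' at h3 ⊢
    generalize y 0 = d' at h3 ⊢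
    revert a' b' c' d'
    decide
  obtain ⟨c, hc⟩ := exists_avoid ({a, σ a} : Finset (Fin (m + 2))) (lt_of_le_of_lt Finset.card_le_two (by omega))
  simp only [Finset.mem_insert, Finset.mem_singleton, not_or] at hc
  obtain ⟨hca, hcb⟩ := hc
  obtain ⟨p, hp⟩ := exists_avoid ({a, σ a, c, σ c} : Finset (Fin (m + 2))) (lt_of_le_of_lt Finset.card_le_four (by omega))
  simp only [Finset.mem_insert, Finset.mem_singleton, not_or] at hp
  obtain ⟨hpa, hpb, hpc, hpd⟩ := hp
  obtain ⟨y, hydef⟩ : ∃ y : Fin (m + 2) → F2, y = fun i => (if i = a then 1 else 0) + (if i = c then 1 else 0) := ⟨_, rfl⟩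
  have hSy : S y = 0 := by
    rw [hydef]
    simp [S, Finset.sum_add_distrib]
    rfl
  obtain ⟨d, hd⟩ := key y hSy
  -- evaluate at `σ a`
  have h1 := hd (σ a)
  have h2 := hd p
  have e1 : act σ y (σ a) = 1 := by
    change y (σ⁻¹ (σ a)) = 1
    rw [show σ⁻¹ (σ a) = a from σ.symm_apply_apply a, hydef]
    simp [Ne.symm hca]
  have e2 : y (σ a) = 0 := by
    simp [hydef, ha, Ne.symm hcb]
  have e3 : act σ y p = 0 := by
    simp only [act, hydef]
    have n1 : σ⁻¹ p ≠ a := by
      intro hh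
      apply hpb
      rw [← hh]
      simp
    have n2 : σ⁻¹ p ≠ c := by
      intro hh
      apply hpd
      rw [← hh]
      simp
    rw [if_neg n1, if_neg n2, add_zero]
  have e4 : y p = 0 := by
    simp [hydef, hpa, hpc]
  rw [e1, e2, zero_add] at h1
  rw [e3, e4, zero_add, ← h1] at h2
  exact zero_ne_one h2

/-! ### Classification of the form -/

section isom

variable {V V' V'' U U' : Type} [AddCommGroup V] [Module F2 V] [AddCommGroup V'] [Module F2 V']
  [AddCommGroup V''] [Module F2 V''] [AddCommGroup U] [Module F2 U] [AddCommGroup U'] [Module F2 U']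

def Isom (Q : V → F2) (Q' : V' → F2) : Prop := ∃ ψ : V ≃ₗ[F2] V', ∀ x, Q' (ψ x) = Q x

def orth (Q : V → F2) (Q' : V' → F2) : V × V' → F2 := fun p => Q p.1 + Q' p.2

theorem Isom.refl (Q : V → F2) : Isom Q Q := ⟨LinearEquiv.refl _ _, fun _ => rfl⟩

theorem Isom.symm {Q : V → F2} {Q' : V' → F2} (h : Isom Q Q') : Isom Q' Q := by
  obtain ⟨ψ, hψ⟩ := h
  refine ⟨ψ.symm, fun x => ?_⟩
  rw [← hψ, LinearEquiv.apply_symm_apply]

theorem Isom.trans {Q : V → F2} {Q' : V' → F2} {Q'' : V'' → F2} (h : Isom Q Q') (h' : Isom Q' Q'') : Isom Q Q'' := by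
  obtain ⟨ψ, hψ⟩ := h
  obtain ⟨ψ', hψ'⟩ := h'
  refine ⟨ψ.trans ψ', fun x => ?_⟩
  rw [LinearEquiv.trans_apply, hψ', hψ]

theorem orth_congr {Q : V → F2} {Q' : V' → F2} {R : U → F2} {R' : U' → F2} (h : Isom Q Q') (h' : Isom R R') :
    Isom (orth Q R) (orth Q' R') := by
  obtain ⟨ψ, hψ⟩ := h
  obtain ⟨ψ', hψ'⟩ := h'
  refine ⟨LinearEquiv.prodCongr ψ ψ', fun x => ?_⟩
  simp [orth, hψ, hψ']

theorem orth_comm (Q : V → F2) (R : U → F2) : Isom (orth Q R) (orth R Q) := by
  refine ⟨LinearEquiv.prodComm F2 V U, fun x => ?_⟩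
  simp [orth, add_comm]

theorem orth_assoc (Q : V → F2) (Q' : V' → F2) (R : U → F2) : Isom (orth (orth Q Q') R) (orth Q (orth Q' R)) := by
  refine ⟨LinearEquiv.prodAssoc F2 V V' U, fun x => ?_⟩
  simp [orth, add_assoc]

end isom

def NN (p : F2 × F2) : F2 := p.1 * p.1 + p.1 * p.2 + p.2 * p.2
def HH (p : F2 × F2) : F2 := p.1 * p.2

theorem NN_NN : Isom (orth NN NN) (orth HH HH) := by
  let ψ : ((F2 × F2) × (F2 × F2)) ≃ₗ[F2] ((F2 × F2) × (F2 × F2)) :=
    { toFun := fun p => ((p.1.2 + p.2.2, p.1.2 + p.2.1), (p.1.1 + p.2.1 + p.2.2, p.1.1 + p.1.2 + p.2.1 + p.2.2))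
      invFun := fun p => ((p.1.1 + p.1.2 + p.2.1, p.2.1 + p.2.2), (p.1.2 + p.2.1 + p.2.2, p.1.1 + p.2.1 + p.2.2))
      map_add' := by
        rintro ⟨⟨a, b⟩, c, d⟩ ⟨⟨a', b'⟩, c', d'⟩
        ext <;> simp <;> ring
      map_smul' := by
        rintro r ⟨⟨a, b⟩, c, d⟩
        ext <;> simp <;> ring
      left_inv := by
        rintro ⟨⟨a, b⟩, c, d⟩
        revert a b c d
        decide
      right_inv := by
        rintro ⟨⟨a, b⟩, c, d⟩
        revert a b c d
        decide }
  refine ⟨ψ, ?_⟩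
  rintro ⟨⟨a, b⟩, c, d⟩
  change (b + d) * (b + c) + (a + c + d) * (a + b + c + d) = (a * a + a * b + b * b) + (c * c + c * d + d * d)
  revert a b c d
  decide

/-- tail -/
def tl {m : ℕ} (y : Fin (m + 2) → F2) : Fin m → F2 := fun i => y i.succ.succ

theorem eq_cons {m : ℕ} (y : Fin (m + 2) → F2) : y = Fin.cons (y 0) (Fin.cons (y 1) (tl y) : Fin (m + 1) → F2) := by
  ext i
  refine Fin.cases ?_ (fun j => Fin.cases ?_ (fun l => ?_) j) i
  · simp
  · simp
  · simp [tl]

theorem tl_add {m : ℕ} (x y : Fin (m + 2) → F2) : tl (x + y) = tl x + tl y := rfl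

theorem S_tl_add {m : ℕ} (x y : Fin (m + 2) → F2) : S (tl (x + y)) = S (tl x) + S (tl y) := by
  rw [tl_add, S_add]

theorem S_smul_f2 {m : ℕ} (c : F2) (x : Fin m → F2) : S (c • x) = c * S x := by
  simp [S, Finset.mul_sum]

/-- The splitting of the first two coordinates. -/
def split (m : ℕ) : (Fin (m + 2) → F2) ≃ₗ[F2] ((F2 × F2) × (Fin m → F2)) where
  toFun y := ((y 0 + S (tl y), y 1 + S (tl y)), tl y)
  invFun p := Fin.cons (p.1.1 + S p.2) (Fin.cons (p.1.2 + S p.2) p.2 : Fin (m + 1) → F2)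
  map_add' := by
    intro x y
    refine Prod.ext (Prod.ext ?_ ?_) rfl
    · simp only [Pi.add_apply, S_tl_add, Prod.fst_add, Prod.snd_add]
      ring
    · simp only [Pi.add_apply, S_tl_add, Prod.fst_add, Prod.snd_add]
      ring
  map_smul' := by
    intro c x
    refine Prod.ext (Prod.ext ?_ ?_) rfl
    · have : tl (c • x) = c • tl x := rfl
      simp only [this, S_smul_f2, Pi.smul_apply, smul_eq_mul, RingHom.id_apply, Prod.smul_fst, Prod.smul_snd]
      ring
    · have : tl (c • x) = c • tl x := rfl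
      simp only [this, S_smul_f2, Pi.smul_apply, smul_eq_mul, RingHom.id_apply, Prod.smul_fst, Prod.smul_snd]
      ring
  left_inv := by
    intro y
    change (Fin.cons (y 0 + S (tl y) + S (tl y)) (Fin.cons (y 1 + S (tl y) + S (tl y)) (tl y) : Fin (m + 1) → F2) : Fin (m + 2) → F2) = y
    have e1 : ∀ a s : F2, a + s + s = a := by decide
    rw [e1, e1]
    exact (eq_cons y).symm
  right_inv := by
    rintro ⟨⟨a, b⟩, r⟩
    have e : tl (Fin.cons (a + S r) (Fin.cons (b + S r) r : Fin (m + 1) → F2) : Fin (m + 2) → F2) = r := by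
      ext i
      simp [tl]
    refine Prod.ext (Prod.ext ?_ ?_) ?_
    · simp [e, add_assoc, f2_add]
    · simp only [e]
      have : (Fin.cons (a + S r) (Fin.cons (b + S r) r : Fin (m + 1) → F2) : Fin (m + 2) → F2) 1 = b + S r := rfl
      rw [this]
      simp [add_assoc, f2_add]
    · exact e

theorem A_step (m : ℕ) : Isom (A (n := m + 2)) (orth NN (E (n := m))) := by
  refine ⟨split m, fun y => ?_⟩
  change NN (y 0 + S (tl y), y 1 + S (tl y)) + E (tl y) = A y
  conv_rhs => rw [eq_cons y]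
  rw [A]
  simp only [E_cons, S_cons, NN]
  generalize y 0 = a
  generalize y 1 = b
  generalize S (tl y) = s
  generalize E (tl y) = e
  revert a b s e
  decide

theorem E_step (m : ℕ) : Isom (E (n := m + 2)) (orth HH (A (n := m))) := by
  refine ⟨split m, fun y => ?_⟩
  change HH (y 0 + S (tl y), y 1 + S (tl y)) + A (tl y) = E y
  conv_rhs => rw [eq_cons y]
  rw [A]
  simp only [E_cons, S_cons, HH]
  generalize y 0 = a
  generalize y 1 = b
  generalize S (tl y) = s
  generalize E (tl y) = e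
  revert a b s e
  decide

/-- `Plus(m+1) = Plus(m) ⊥ H`. -/
theorem plus_step (m : ℕ) : Isom (quadFormPlus (m + 1) F2) (orth (quadFormPlus m F2) HH) := by
  let ψ : (Fin (m + 1) ⊕ Fin (m + 1) → F2) ≃ₗ[F2] ((Fin m ⊕ Fin m → F2) × (F2 × F2)) :=
    { toFun := fun v => (Sum.elim (fun i => v (.inl i.succ)) (fun i => v (.inr i.succ)), (v (.inl 0), v (.inr 0)))
      invFun := fun p => Sum.elim (Fin.cons p.2.1 (fun i => p.1 (.inl i))) (Fin.cons p.2.2 (fun i => p.1 (.inr i)))
      map_add' := by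
        intro x y
        refine Prod.ext ?_ rfl
        ext (i | i) <;> rfl
      map_smul' := by
        intro c x
        refine Prod.ext ?_ rfl
        ext (i | i) <;> rfl
      left_inv := by
        intro v
        ext (i | i)
        · refine Fin.cases ?_ (fun j => ?_) i <;> simp
        · refine Fin.cases ?_ (fun j => ?_) i <;> simp
      right_inv := by
        rintro ⟨w, a, b⟩
        refine Prod.ext ?_ rfl
        ext (i | i) <;> simp }
  refine ⟨ψ, fun v => ?_⟩
  change (∑ i : Fin m, v (.inl i.succ) * v (.inr i.succ)) + v (.inl 0) * v (.inr 0) = ∑ i : Fin (m + 1), v (.inl i) * v (.inr i)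
  rw [Fin.sum_univ_succ, add_comm]

/-- `Minus(m) = Plus(m) ⊥ N`. -/
theorem minus_step (m : ℕ) : Isom (quadFormMinus m F2 1 1) (orth (quadFormPlus m F2) NN) := by
  let ψ : ((Fin m ⊕ Fin m) ⊕ Fin 2 → F2) ≃ₗ[F2] ((Fin m ⊕ Fin m → F2) × (F2 × F2)) :=
    { toFun := fun v => (fun s => v (.inl s), (v (.inr 0), v (.inr 1)))
      invFun := fun p => Sum.elim p.1 ![p.2.1, p.2.2]
      map_add' := fun x y => rfl
      map_smul' := fun c x => rfl
      left_inv := by
        intro v
        ext (i | i)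
        · rfl
        · fin_cases i <;> rfl
      right_inv := by
        rintro ⟨w, a, b⟩
        rfl }
  refine ⟨ψ, fun v => ?_⟩
  change (∑ i : Fin m, v (.inl (.inl i)) * v (.inl (.inr i))) + (v (.inr 0) * v (.inr 0) + v (.inr 0) * v (.inr 1) + v (.inr 1) * v (.inr 1)) = quadFormMinus m F2 1 1 v
  simp only [quadFormMinus]
  ring

theorem base : Isom (A (n := 2)) (orth (quadFormPlus 0 F2) NN) := by
  refine (A_step 0).trans ((orth_comm _ _).trans (orth_congr ?_ (Isom.refl _)))
  refine ⟨LinearEquiv.ofSubsingleton _ _, fun x => ?_⟩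
  simp [quadFormPlus, E_zero]

theorem classify (k : ℕ) : (Odd k → Isom (A (n := 4 * k + 2)) (quadFormPlus (2 * k + 1) F2)) ∧
    (Even k → Isom (A (n := 4 * k + 2)) (orth (quadFormPlus (2 * k) F2) NN)) := by
  induction k with
  | zero =>
    refine ⟨fun h => absurd h (by decide), fun _ => base⟩
  | succ k ih =>
    have hstep : Isom (A (n := 4 * (k + 1) + 2)) (orth NN (orth HH (A (n := 4 * k + 2)))) :=
      (A_step (4 * k + 2 + 2)).trans (orth_congr (Isom.refl _) (E_step (4 * k + 2)))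
    refine ⟨fun hk => ?_, fun hk => ?_⟩
    · -- `k` even
      have hk' : Even k := by
        rcases Nat.even_or_odd k with h | h
        · exact h
        · exact absurd hk (by simpa [Nat.odd_add_one] using h)
      have h1 := ih.2 hk'
      have e : 2 * (k + 1) + 1 = 2 * k + 1 + 1 + 1 := by ring
      rw [e]
      refine hstep.trans ?_
      refine (orth_congr (Isom.refl NN) (orth_congr (Isom.refl HH) h1)).trans ?_
      -- `N ⊥ (H ⊥ (P ⊥ N)) ≅ ((P ⊥ H) ⊥ H) ⊥ H`
      have r1 := plus_step (2 * k)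
      have r2 := plus_step (2 * k + 1)
      have r3 := plus_step (2 * k + 1 + 1)
      refine Isom.trans ?_ r3.symm
      refine Isom.trans ?_ (orth_congr r2.symm (Isom.refl HH))
      refine Isom.trans ?_ (orth_congr (orth_congr r1.symm (Isom.refl HH)) (Isom.refl HH))
      -- rearrangement
      have a1 : Isom (orth NN (orth HH (orth (quadFormPlus (2 * k) F2) NN))) (orth (orth (quadFormPlus (2 * k) F2) HH) (orth NN NN)) := by
        refine (orth_congr (Isom.refl NN) ((orth_assoc _ _ _).symm)).trans ?_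
        refine (orth_comm _ _).trans ?_
        refine (orth_assoc _ _ _).trans ?_
        exact orth_congr (orth_comm _ _) (Isom.refl _)
      refine a1.trans ?_
      refine (orth_congr (Isom.refl _) NN_NN).trans ?_
      exact (orth_assoc _ _ _).symm
    · -- `k` odd
      have hk' : Odd k := by
        rcases Nat.even_or_odd k with h | h
        · exact absurd hk (by simpa [Nat.even_add_one] using h)
        · exact h
      have h1 := ih.1 hk'
      have e : 2 * (k + 1) = 2 * k + 1 + 1 := by ring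
      rw [e]
      refine hstep.trans ?_
      refine (orth_congr (Isom.refl NN) (orth_congr (Isom.refl HH) h1)).trans ?_
      refine Isom.trans ?_ (orth_congr (plus_step (2 * k + 1)).symm (Isom.refl NN))
      refine (orth_comm _ _).trans ?_
      exact orth_congr (orth_comm _ _) (Isom.refl _)

/-- Transport of the action to a form isometric with `A`. -/
theorem embed {ι : Type} [Fintype ι] [DecidableEq ι] {m j : ℕ} (hj : m + 2 = 4 * j) (hm : Even m) (hm3 : 3 ≤ m) (Q : (ι → F2) → F2)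
    (h : Isom (A (n := m)) Q) :
    ∃ φ : Equiv.Perm (Fin (m + 2)) →* ↥(isometryGroup F2 Q), Function.Injective φ := by
  obtain ⟨ψ, hψ⟩ := h
  let hE : Equiv.Perm (Fin (m + 2)) →* ((ι → F2) ≃ₗ[F2] (ι → F2)) :=
    { toFun := fun σ => ψ.symm.trans ((gE hm σ).trans ψ)
      map_one' := by
        ext1 x
        simp only [LinearEquiv.trans_apply]
        change ψ (g 1 (ψ.symm x)) = x
        rw [g_one, LinearEquiv.apply_symm_apply]
      map_mul' := by
        intro σ τ
        ext1 x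
        change ψ (g (σ * τ) (ψ.symm x)) = ψ (g σ (ψ.symm (ψ (g τ (ψ.symm x)))))
        rw [LinearEquiv.symm_apply_apply, g_mul hm] }
  have hEa : ∀ σ x, hE σ x = ψ (g σ (ψ.symm x)) := fun σ x => rfl
  have hmem : ∀ σ, CfsgLib.ClassGeo.glLin.symm (hE σ) ∈ isometryGroup F2 Q := by
    intro σ u v
    change Q (((CfsgLib.ClassGeo.glLin.symm (hE σ) : GL ι F2) : Matrix ι ι F2) *ᵥ u) = Q u
    rw [CfsgLib.ClassGeo.glLin_symm_mulVec, hEa, hψ, A_g hj hm, ← hψ, LinearEquiv.apply_symm_apply]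
  refine ⟨MonoidHom.codRestrict ((CfsgLib.ClassGeo.glLin.symm.toMonoidHom).comp hE) _ hmem, ?_⟩
  rw [injective_iff_map_eq_one]
  intro σ hσ
  apply g_faithful hm hm3 σ
  intro x
  have h1 : (CfsgLib.ClassGeo.glLin.symm (hE σ) : GL ι F2) = 1 := congrArg Subtype.val hσ
  have h2 : hE σ = 1 := by
    have := congrArg CfsgLib.ClassGeo.glLin h1
    simpa using this
  have h3 := hψ (g σ x)
  have h4 : hE σ (ψ x) = ψ x := by rw [h2]; rfl
  rw [hEa, LinearEquiv.symm_apply_apply] at h4
  exact ψ.injective h4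

theorem main (k : ℕ) (hk : 1 ≤ k) :
    (Odd k → ∃ φ : Equiv.Perm (Fin (4 * k + 4)) →* ↥(isometryGroup (ZMod 2) (quadFormPlus (2 * k + 1) (ZMod 2))), Function.Injective φ) ∧
    (Even k → ∃ φ : Equiv.Perm (Fin (4 * k + 4)) →* ↥(isometryGroup (ZMod 2) (quadFormMinus (2 * k) (ZMod 2) 1 1)), Function.Injective φ) := by
  have hev : Even (4 * k + 2) := ⟨2 * k + 1, by ring⟩
  have hj : 4 * k + 2 + 2 = 4 * (k + 1) := by ring
  refine ⟨fun h => ?_, fun h => ?_⟩
  · exact embed hj hev (by omega) _ ((classify k).1 h)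
  · exact embed hj hev (by omega) _ (((classify k).2 h).trans (minus_step (2 * k)).symm)

end CfsgLib.SymOrth
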