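import Cfsg.Agent.Lib.ClassMax.TensorK

/-! Pure tensors in a transported tensor decomposition. -/

set_option autoImplicit false
set_option linter.unusedSimpArgs false
set_option linter.unusedVariables false
set_option linter.unusedSectionVars false
set_option linter.style.haveILetI false

namespace CfsgLib.ClassMax.TensorK

open Matrix Cfsg Cfsg.Geo CfsgLib.ClassMax.Decomp
open scoped Kronecker

variable {ι : Type} [Fintype ι] [DecidableEq ι] {F : Type*} [Field F] {n₁ n₂ : ℕ}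

/-- The pure tensor, in coordinates. -/
def pt (p : Fin n₁ → F) (u : Fin n₂ → F) : Fin n₁ × Fin n₂ → F := fun a => p a.1 * u a.2

/-- The pure tensor, transported to the space. -/
def tau (e : ι ≃ Fin n₁ × Fin n₂) (P : Matrix.GeneralLinearGroup ι F) (p : Fin n₁ → F) (u : Fin n₂ → F) : ι → F :=
  (P : Matrix ι ι F) *ᵥ ((pt p u) ∘ e)

variable (e : ι ≃ Fin n₁ × Fin n₂) (P : Matrix.GeneralLinearGroup ι F)

theorem tau_add_left (p q : Fin n₁ → F) (u : Fin n₂ → F) : tau e P (p + q) u = tau e P p u + tau e P q u := by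
  unfold tau
  rw [← Matrix.mulVec_add]
  congr 1
  ext i
  simp [pt, add_mul]

theorem tau_add_right (p : Fin n₁ → F) (u v : Fin n₂ → F) : tau e P p (u + v) = tau e P p u + tau e P p v := by
  unfold tau
  rw [← Matrix.mulVec_add]
  congr 1
  ext i
  simp [pt, mul_add]

theorem tau_smul_left (c : F) (p : Fin n₁ → F) (u : Fin n₂ → F) : tau e P (c • p) u = c • tau e P p u := by
  unfold tau
  rw [← Matrix.mulVec_smul]
  congr 1
  ext i
  simp [pt, mul_assoc]

theorem tau_smul_right (c : F) (p : Fin n₁ → F) (u : Fin n₂ → F) : tau e P p (c • u) = c • tau e P p u := by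
  unfold tau
  rw [← Matrix.mulVec_smul]
  congr 1
  ext i
  simp [pt, mul_left_comm]

theorem kron_pt (α : Matrix (Fin n₁) (Fin n₁) F) (β : Matrix (Fin n₂) (Fin n₂) F) (p : Fin n₁ → F) (u : Fin n₂ → F) :
    (α ⊗ₖ β) *ᵥ pt p u = pt (α *ᵥ p) (β *ᵥ u) := by
  ext ⟨l, i⟩
  simp only [Matrix.mulVec, dotProduct, pt, kroneckerMap_apply, Fintype.sum_prod_type]
  rw [Finset.sum_mul_sum]
  refine Finset.sum_congr rfl fun m _ => Finset.sum_congr rfl fun j _ => ?_
  ring

theorem PhiT_mulVec (g₀ : Matrix.GeneralLinearGroup (Fin n₁ × Fin n₂) F) (y : Fin n₁ × Fin n₂ → F) :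
    ((PhiT e P g₀ : Matrix.GeneralLinearGroup ι F) : Matrix ι ι F) *ᵥ ((P : Matrix ι ι F) *ᵥ (y ∘ e)) =
      (P : Matrix ι ι F) *ᵥ (((g₀ : Matrix _ _ F) *ᵥ y) ∘ e) := by
  show ((P : Matrix ι ι F) * Matrix.reindex e.symm e.symm (g₀ : Matrix (Fin n₁ × Fin n₂) (Fin n₁ × Fin n₂) F) *
    ((P⁻¹ : Matrix.GeneralLinearGroup ι F) : Matrix ι ι F)) *ᵥ _ = _
  rw [Matrix.mulVec_mulVec, Matrix.mul_assoc, ← Units.val_mul, inv_mul_cancel, Units.val_one, Matrix.mul_one,
    ← Matrix.mulVec_mulVec]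
  congr 1
  ext i
  simp only [Matrix.mulVec, dotProduct, Matrix.reindex_apply, Matrix.submatrix_apply, Function.comp_apply,
    Equiv.symm_symm]
  exact Equiv.sum_comp e (fun a => (g₀ : Matrix (Fin n₁ × Fin n₂) (Fin n₁ × Fin n₂) F) (e i) a * y a)

theorem PhiT_tau {g₀ : Matrix.GeneralLinearGroup (Fin n₁ × Fin n₂) F} {α : Matrix (Fin n₁) (Fin n₁) F}
    {β : Matrix (Fin n₂) (Fin n₂) F} (h : (g₀ : Matrix _ _ F) = α ⊗ₖ β) (p : Fin n₁ → F) (u : Fin n₂ → F) :
    ((PhiT e P g₀ : Matrix.GeneralLinearGroup ι F) : Matrix ι ι F) *ᵥ tau e P p u = tau e P (α *ᵥ p) (β *ᵥ u) := by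
  unfold tau
  rw [PhiT_mulVec, h, kron_pt]

theorem formOfGram_pure (σ : F → F) (hσ : ∀ a b, σ (a * b) = σ a * σ b) (G₁ : Matrix (Fin n₁) (Fin n₁) F)
    (G₂ : Matrix (Fin n₂) (Fin n₂) F) (p q : Fin n₁ → F) (u z : Fin n₂ → F) :
    formOfGram σ (G₁ ⊗ₖ G₂) (pt p u) (pt q z) = formOfGram σ G₁ p q * formOfGram σ G₂ u z := by
  simp only [formOfGram, Fintype.sum_prod_type, pt, kroneckerMap_apply]
  rw [Finset.sum_mul]
  apply Finset.sum_congr rfl
  intro l _
  rw [Finset.sum_mul]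
  conv_lhs => rw [Finset.sum_comm]
  apply Finset.sum_congr rfl
  intro m _
  rw [Finset.mul_sum]
  apply Finset.sum_congr rfl
  intro i _
  rw [Finset.mul_sum]
  apply Finset.sum_congr rfl
  intro j _
  rw [hσ]
  ring

/-- Expansion of a sesquilinear form in terms of its Gram matrix. -/
theorem gram_expand {κ : Type} [Fintype κ] [DecidableEq κ] (σ : F → F) (f : (κ → F) → (κ → F) → F)
    (hal : ∀ x y v, f (x + y) v = f x v + f y v) (hsl : ∀ (c : F) (x v : κ → F), f (c • x) v = c * f x v)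
    (har : ∀ v x y, f v (x + y) = f v x + f v y) (hsr : ∀ (c : F) (v x : κ → F), f v (c • x) = σ c * f v x)
    (x y : κ → F) : f x y = formOfGram σ (gramMatrix f) x y := by
  classical
  have hz1 : ∀ v, f 0 v = 0 := by
    intro v
    have := hsl 0 0 v
    simpa using this
  have hz2 : ∀ v, f v 0 = 0 := by
    intro v
    have h1 := har v 0 0
    rw [add_zero] at h1
    exact left_eq_add.mp h1
  have hsum1 : ∀ (s : Finset κ) (u : κ → κ → F) (v : κ → F), f (∑ a ∈ s, u a) v = ∑ a ∈ s, f (u a) v := by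
    intro s u v
    induction s using Finset.induction_on with
    | empty => simp [hz1]
    | insert a s ha ih => rw [Finset.sum_insert ha, Finset.sum_insert ha, hal, ih]
  have hsum2 : ∀ (s : Finset κ) (u : κ → κ → F) (v : κ → F), f v (∑ a ∈ s, u a) = ∑ a ∈ s, f v (u a) := by
    intro s u v
    induction s using Finset.induction_on with
    | empty => simp [hz2]
    | insert a s ha ih => rw [Finset.sum_insert ha, Finset.sum_insert ha, har, ih]
  have hexp : ∀ z : κ → F, z = ∑ a, z a • (Pi.single a (1 : F) : κ → F) := by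
    intro z
    ext i
    simp [Finset.sum_apply, Pi.single_apply]
  conv_lhs => rw [hexp x, hexp y]
  rw [hsum1]
  unfold formOfGram
  refine Finset.sum_congr rfl fun a _ => ?_
  rw [hsl, hsum2, Finset.mul_sum]
  refine Finset.sum_congr rfl fun b _ => ?_
  rw [hsr]
  show x a * (σ (y b) * f _ _) = x a * f _ _ * σ (y b)
  ring

end CfsgLib.ClassMax.TensorK
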