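import Cfsg.Agent.Lib.ClassMax.DecompU

/-! Tensor decomposition stabilisers for small fields. -/

set_option autoImplicit false
set_option linter.unusedSimpArgs false
set_option linter.unusedVariables false
set_option linter.unusedSectionVars false
set_option linter.style.haveILetI false

namespace CfsgLib.ClassMax.TensorK

open Matrix Cfsg Cfsg.Geo CfsgLib.ClassMax.Decomp
open scoped Kronecker

section Group

variable {G : Type*} [Group G]

/-- The stabiliser of the pair `{W, W²}` for `W³ = 1`. -/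
def stabPair (W : G) (hW : W * W * W = 1) : Subgroup G where
  carrier := {g | g * W * g⁻¹ = W ∨ g * W * g⁻¹ = W * W}
  mul_mem' := by
    intro a b ha hb
    have hsq : ∀ a : G, (a * (W * W) * a⁻¹) = (a * W * a⁻¹) * (a * W * a⁻¹) := by
      intro a
      group
    have e : a * b * W * (a * b)⁻¹ = a * (b * W * b⁻¹) * a⁻¹ := by group
    show a * b * W * (a * b)⁻¹ = W ∨ a * b * W * (a * b)⁻¹ = W * W
    rw [e]
    rcases hb with hb | hb <;> rw [hb]
    · exact ha
    · rw [hsq]
      rcases ha with ha | ha <;> rw [ha]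
      · right
        rfl
      · left
        calc W * W * (W * W) = W * W * W * W := by group
          _ = W := by rw [hW, one_mul]
  one_mem' := by
    left
    simp
  inv_mem' := by
    intro a ha
    show a⁻¹ * W * a⁻¹⁻¹ = W ∨ a⁻¹ * W * a⁻¹⁻¹ = W * W
    rcases ha with ha | ha
    · left
      calc a⁻¹ * W * a⁻¹⁻¹ = a⁻¹ * (a * W * a⁻¹) * a := by rw [ha, inv_inv]
        _ = W := by group
    · right
      have h1 : a * (W * W) * a⁻¹ = W := by
        have : a * (W * W) * a⁻¹ = (a * W * a⁻¹) * (a * W * a⁻¹) := by group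
        rw [this, ha]
        calc W * W * (W * W) = W * W * W * W := by group
          _ = W := by rw [hW, one_mul]
      calc a⁻¹ * W * a⁻¹⁻¹ = a⁻¹ * (a * (W * W) * a⁻¹) * a := by rw [h1, inv_inv]
        _ = W * W := by group

theorem mem_stabPair (W : G) (hW : W * W * W = 1) (g : G) :
    g ∈ stabPair W hW ↔ g * W = W * g ∨ g * W = W * W * g := by
  show g * W * g⁻¹ = W ∨ g * W * g⁻¹ = W * W ↔ _
  rw [mul_inv_eq_iff_eq_mul, mul_inv_eq_iff_eq_mul]

end Group

variable {ι : Type} [Fintype ι] [DecidableEq ι] {F : Type*} [Field F] {n₁ n₂ : ℕ}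

/-- The transport of the Kronecker coordinates. -/
def PhiT (e : ι ≃ Fin n₁ × Fin n₂) (P : Matrix.GeneralLinearGroup ι F) :
    Matrix.GeneralLinearGroup (Fin n₁ × Fin n₂) F →* Matrix.GeneralLinearGroup ι F :=
  (MulAut.conj P).toMonoidHom.comp (glReindex e.symm).toMonoidHom

theorem PhiT_inj (e : ι ≃ Fin n₁ × Fin n₂) (P : Matrix.GeneralLinearGroup ι F) :
    Function.Injective (PhiT e P) := by
  intro a b h
  exact (glReindex e.symm).injective ((MulAut.conj P).injective h)

theorem mem_tensor (e : ι ≃ Fin n₁ × Fin n₂) (P : Matrix.GeneralLinearGroup ι F)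
    (g : Matrix.GeneralLinearGroup ι F) :
    g ∈ tensorProductSubgroup n₁ n₂ e P ↔ ∃ g₀ ∈ kroneckerSubgroup n₁ n₂ F, PhiT e P g₀ = g := by
  constructor
  · rintro ⟨x, ⟨g₀, hg₀, rfl⟩, rfl⟩
    exact ⟨g₀, hg₀, rfl⟩
  · rintro ⟨g₀, hg₀, rfl⟩
    exact ⟨_, ⟨g₀, hg₀, rfl⟩, rfl⟩

theorem PhiT_det (e : ι ≃ Fin n₁ × Fin n₂) (P : Matrix.GeneralLinearGroup ι F)
    (g : Matrix.GeneralLinearGroup (Fin n₁ × Fin n₂) F) :
    Matrix.GeneralLinearGroup.det (PhiT e P g) = Matrix.GeneralLinearGroup.det g := by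
  apply Units.ext
  show ((P : Matrix ι ι F) * Matrix.reindex e.symm e.symm (g : Matrix (Fin n₁ × Fin n₂) (Fin n₁ × Fin n₂) F) *
    ((P⁻¹ : Matrix.GeneralLinearGroup ι F) : Matrix ι ι F)).det = (g : Matrix (Fin n₁ × Fin n₂) (Fin n₁ × Fin n₂) F).det
  rw [Matrix.det_mul, Matrix.det_mul, Matrix.det_reindex_self]
  have h : (P : Matrix ι ι F).det * ((P⁻¹ : Matrix.GeneralLinearGroup ι F) : Matrix ι ι F).det = 1 := by
    rw [← Matrix.det_mul, ← Units.val_mul, mul_inv_cancel, Units.val_one, Matrix.det_one]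
  calc _ = ((P : Matrix ι ι F).det * ((P⁻¹ : Matrix.GeneralLinearGroup ι F) : Matrix ι ι F).det) * (g : Matrix (Fin n₁ × Fin n₂) (Fin n₁ × Fin n₂) F).det := by ring
    _ = _ := by rw [h, one_mul]

section F2

variable [Fintype F]

/-- `ω`. -/
def omM (F : Type*) [Field F] : Matrix (Fin 2) (Fin 2) F := !![0, 1; 1, 1]
def omM2 (F : Type*) [Field F] : Matrix (Fin 2) (Fin 2) F := !![1, 1; 1, 0]

theorem om_mul (h11 : (1 : F) + 1 = 0) : omM F * omM F = omM2 F := by
  ext i j
  fin_cases i <;> fin_cases j <;> simp [omM, omM2, Matrix.mul_apply, Fin.sum_univ_two, h11]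

theorem om_mul2 (h11 : (1 : F) + 1 = 0) : omM F * omM2 F = 1 := by
  ext i j
  fin_cases i <;> fin_cases j <;> simp [omM, omM2, Matrix.mul_apply, Fin.sum_univ_two, h11]

theorem om_mul3 (h11 : (1 : F) + 1 = 0) : omM2 F * omM F = 1 := by
  ext i j
  fin_cases i <;> fin_cases j <;> simp [omM, omM2, Matrix.mul_apply, Fin.sum_univ_two, h11]

theorem om_cases (hq : Fintype.card F = 2) (a : Matrix (Fin 2) (Fin 2) F) (ha : a.det ≠ 0) :
    a * omM F = omM F * a ∨ a * omM F = omM2 F * a := by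
  have h11 := f2_two hq
  have h2 : (2 : F) = 0 := by linear_combination h11
  rw [Matrix.det_fin_two] at ha
  have e1 : a = !![a 0 0, a 0 1; a 1 0, a 1 1] := (Matrix.eta_fin_two a)
  rcases f2_cases hq (a 0 0) with p | p <;> rcases f2_cases hq (a 0 1) with q | q <;>
    rcases f2_cases hq (a 1 0) with r | r <;> rcases f2_cases hq (a 1 1) with s | s <;>
    rw [p, q, r, s] at ha <;> rw [e1, p, q, r, s] <;>
    first
    | (exfalso; apply ha; simp; done)
    | (exfalso; apply ha; simp [h11]; done)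
    | (left; ext i j; fin_cases i <;> fin_cases j <;> simp [omM, omM2, Matrix.mul_apply, Fin.sum_univ_two, h11]; done)
    | (right; ext i j; fin_cases i <;> fin_cases j <;> simp [omM, omM2, Matrix.mul_apply, Fin.sum_univ_two, h11]; done)

theorem om_kron {n₂ : ℕ} (M : Matrix (Fin 2) (Fin 2) F) :
    blockDiagonal (fun _ : Fin n₂ => M) = M ⊗ₖ (1 : Matrix (Fin n₂) (Fin n₂) F) := by
  ext ⟨i, k⟩ ⟨j, l⟩
  simp only [blockDiagonal_apply, kroneckerMap_apply, Matrix.one_apply]
  split_ifs <;> simp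

theorem sl_all (hq : Fintype.card F = 2) (g : Matrix.GeneralLinearGroup ι F) : g ∈ specialLinear ι F := by
  show Matrix.GeneralLinearGroup.det g = 1
  apply Units.ext
  exact (f2_cases hq _).resolve_left (Matrix.GeneralLinearGroup.det g).ne_zero

/-- S5638. -/
theorem tensor_main (hq : Fintype.card F = 2) {n : ℕ} (hn : 13 ≤ n) (e : Fin n ≃ Fin 2 × Fin n₂)
    (P : Matrix.GeneralLinearGroup (Fin n) F) :
    ∃ K : Subgroup (Matrix.GeneralLinearGroup (Fin n) F),
      tensorProductSubgroup 2 n₂ e P ⊓ specialLinear (Fin n) F < K ∧ K < specialLinear (Fin n) F := by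
  classical
  have h11 := f2_two hq
  have hcard : n = 2 * n₂ := by
    have := Fintype.card_congr e
    simpa using this
  have hn2 : 2 ≤ n₂ := by omega
  let i₀ : Fin n₂ := ⟨0, by omega⟩
  let i₁ : Fin n₂ := ⟨1, by omega⟩
  have h01 : i₀ ≠ i₁ := by simp [i₀, i₁, Fin.ext_iff]
  let M₀ : Matrix (Fin 2 × Fin n₂) (Fin 2 × Fin n₂) F := blockDiagonal (fun _ : Fin n₂ => omM F)
  let M₁ : Matrix (Fin 2 × Fin n₂) (Fin 2 × Fin n₂) F := blockDiagonal (fun _ : Fin n₂ => omM2 F)
  have hprod : ∀ A B : Matrix (Fin 2) (Fin 2) F, (blockDiagonal (fun _ : Fin n₂ => A)) * (blockDiagonal (fun _ : Fin n₂ => B)) =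
      blockDiagonal (fun _ : Fin n₂ => A * B) := by
    intro A B
    rw [← blockDiagonal_mul]
  have hone : blockDiagonal (fun _ : Fin n₂ => (1 : Matrix (Fin 2) (Fin 2) F)) = 1 := blockDiagonal_one
  let W₀ : Matrix.GeneralLinearGroup (Fin 2 × Fin n₂) F :=
    ⟨M₀, M₁, by rw [hprod, om_mul2 h11, hone], by rw [hprod, om_mul3 h11, hone]⟩
  have hW₀2 : ((W₀ * W₀ : Matrix.GeneralLinearGroup (Fin 2 × Fin n₂) F) : Matrix _ _ F) = M₁ := by
    show M₀ * M₀ = M₁
    rw [hprod, om_mul h11]
  have hW₀3 : W₀ * W₀ * W₀ = 1 := by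
    apply Units.ext
    rw [Units.val_mul, hW₀2]
    show M₁ * M₀ = 1
    rw [hprod, om_mul3 h11, hone]
  let Φ := PhiT e P
  let W := Φ W₀
  have hW : W * W * W = 1 := by
    show Φ W₀ * Φ W₀ * Φ W₀ = 1
    rw [← map_mul, ← map_mul, hW₀3, map_one]
  -- the Kronecker products normalise `W`
  have hkron : ∀ g₀ ∈ kroneckerSubgroup 2 n₂ F, g₀ * W₀ = W₀ * g₀ ∨ g₀ * W₀ = W₀ * W₀ * g₀ := by
    rintro g₀ ⟨a, b, hg₀⟩
    have hdet : (a : Matrix (Fin 2) (Fin 2) F).det ≠ 0 := (Matrix.GeneralLinearGroup.det a).ne_zero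
    have e0 : M₀ = omM F ⊗ₖ (1 : Matrix (Fin n₂) (Fin n₂) F) := om_kron _
    have e1 : M₁ = omM2 F ⊗ₖ (1 : Matrix (Fin n₂) (Fin n₂) F) := om_kron _
    rcases om_cases hq _ hdet with h | h
    · left
      apply Units.ext
      rw [Units.val_mul, Units.val_mul, hg₀]
      show _ * M₀ = M₀ * _
      rw [e0, ← Matrix.mul_kronecker_mul, ← Matrix.mul_kronecker_mul, h, mul_one, one_mul]
    · right
      apply Units.ext
      rw [Units.val_mul, Units.val_mul, hW₀2, hg₀]
      show _ * M₀ = M₁ * _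
      rw [e0, e1, ← Matrix.mul_kronecker_mul, ← Matrix.mul_kronecker_mul, h, mul_one, one_mul]
  -- first element
  let f : Fin n₂ → Matrix (Fin 2) (Fin 2) F := fun j => if j = i₀ then omM F else 1
  let f' : Fin n₂ → Matrix (Fin 2) (Fin 2) F := fun j => if j = i₀ then omM2 F else 1
  have hff' : f * f' = 1 := by
    funext j
    show f j * f' j = 1
    by_cases hj : j = i₀
    · simp only [f, f', if_pos hj, om_mul2 h11]
    · simp only [f, f', if_neg hj, mul_one]
  have hf'f : f' * f = 1 := by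
    funext j
    show f' j * f j = 1
    by_cases hj : j = i₀
    · simp only [f, f', if_pos hj, om_mul3 h11]
    · simp only [f, f', if_neg hj, mul_one]
  let d : Matrix.GeneralLinearGroup (Fin 2 × Fin n₂) F :=
    ⟨blockDiagonal f, blockDiagonal f', by
        rw [← blockDiagonal_mul]
        exact (congrArg blockDiagonal hff').trans blockDiagonal_one, by
        rw [← blockDiagonal_mul]
        exact (congrArg blockDiagonal hf'f).trans blockDiagonal_one⟩
  have hdW : d * W₀ = W₀ * d := by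
    apply Units.ext
    show blockDiagonal f * blockDiagonal (fun _ : Fin n₂ => omM F) = blockDiagonal (fun _ : Fin n₂ => omM F) * blockDiagonal f
    rw [← blockDiagonal_mul, ← blockDiagonal_mul]
    congr 1
    funext j
    show f j * omM F = omM F * f j
    by_cases hj : j = i₀
    · simp only [f, if_pos hj]
    · simp only [f, if_neg hj, one_mul, mul_one]
  have hdK : d ∉ kroneckerSubgroup 2 n₂ F := by
    rintro ⟨a, b, hab⟩
    have hval : ∀ x y, (blockDiagonal f) x y = ((a : Matrix (Fin 2) (Fin 2) F) ⊗ₖ (b : Matrix (Fin n₂) (Fin n₂) F)) x y := by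
      intro x y
      rw [← hab]
    have h1 : ∀ i j, f i₀ i j = (a : Matrix (Fin 2) (Fin 2) F) i j * (b : Matrix (Fin n₂) (Fin n₂) F) i₀ i₀ := by
      intro i j
      have := hval (i, i₀) (j, i₀)
      simpa [blockDiagonal_apply] using this
    have h2 : ∀ i j, f i₁ i j = (a : Matrix (Fin 2) (Fin 2) F) i j * (b : Matrix (Fin n₂) (Fin n₂) F) i₁ i₁ := by
      intro i j
      have := hval (i, i₁) (j, i₁)
      simpa [blockDiagonal_apply] using this
    have hf0 : f i₀ = omM F := if_pos rfl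
    have hf1 : f i₁ = 1 := if_neg h01.symm
    have h3 := h1 0 1
    have h4 := h2 0 1
    have h5 := h1 0 0
    have h6 := h2 0 0
    rw [hf0] at h3 h5
    rw [hf1] at h4 h6
    simp only [omM, Matrix.of_apply, Matrix.cons_val', Matrix.cons_val_zero, Matrix.cons_val_one, Matrix.one_apply,
      Fin.isValue, zero_ne_one, if_false, if_true, Matrix.cons_val_fin_one] at h3 h4 h5 h6
    have hb0 : (b : Matrix (Fin n₂) (Fin n₂) F) i₀ i₀ ≠ 0 := by
      intro h
      rw [h, mul_zero] at h3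
      exact one_ne_zero h3
    have hb1 : (b : Matrix (Fin n₂) (Fin n₂) F) i₁ i₁ ≠ 0 := by
      intro h
      rw [h, mul_zero] at h6
      exact one_ne_zero h6
    have ha01 : (a : Matrix (Fin 2) (Fin 2) F) 0 1 = 0 := by
      have := h4.symm
      exact (mul_eq_zero.mp this).resolve_right hb1
    rw [ha01, zero_mul] at h3
    exact one_ne_zero h3
  -- second element
  let p : Fin 2 × Fin n₂ := (0, i₀)
  let r : Fin 2 × Fin n₂ := (0, i₁)
  let q : Fin 2 × Fin n₂ := (1, i₁)
  have hpr : p ≠ r := fun h => h01 (congrArg Prod.snd h)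
  have hqr : q ≠ r := fun h => by
    have := congrArg Prod.fst h
    simp [q, r] at this
  let c : Matrix.GeneralLinearGroup (Fin 2 × Fin n₂) F :=
    ⟨Matrix.transvection p r 1, Matrix.transvection p r (-1),
      by rw [Matrix.transvection_mul_transvection_same _ _ hpr, add_neg_cancel, Matrix.transvection_zero],
      by rw [Matrix.transvection_mul_transvection_same _ _ hpr, neg_add_cancel, Matrix.transvection_zero]⟩
  have hc1 : (Matrix.transvection p r (1 : F) * M₀) p q = 1 := by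
    rw [Matrix.transvection, add_mul, one_mul, Matrix.add_apply, Matrix.single_mul_apply_same, one_mul]
    have e1 : M₀ p q = 0 := by
      show (blockDiagonal (fun _ : Fin n₂ => omM F)) (0, i₀) (1, i₁) = 0
      rw [blockDiagonal_apply, if_neg h01]
    have e2 : M₀ r q = 1 := by
      show (blockDiagonal (fun _ : Fin n₂ => omM F)) (0, i₁) (1, i₁) = 1
      rw [blockDiagonal_apply, if_pos rfl]
      simp [omM]
    rw [e1, e2, zero_add]
  have hc2 : ∀ M : Matrix (Fin 2 × Fin n₂) (Fin 2 × Fin n₂) F, M p q = 0 → (M * Matrix.transvection p r (1 : F)) p q = 0 := by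
    intro M hM
    rw [Matrix.transvection, mul_add, mul_one, Matrix.add_apply, Matrix.mul_single_apply_of_ne _ _ _ _ _ hqr, hM, add_zero]
  have hc3 : ¬ (c * W₀ = W₀ * c ∨ c * W₀ = W₀ * W₀ * c) := by
    rintro (h | h)
    · have h5 := congrArg (fun g : Matrix.GeneralLinearGroup (Fin 2 × Fin n₂) F => (g : Matrix _ _ F) p q) h
      have h6 : (Matrix.transvection p r (1 : F) * M₀) p q = (M₀ * Matrix.transvection p r (1 : F)) p q := h5
      rw [hc1, hc2 M₀ (by
        show (blockDiagonal (fun _ : Fin n₂ => omM F)) (0, i₀) (1, i₁) = 0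
        rw [blockDiagonal_apply, if_neg h01])] at h6
      exact one_ne_zero h6
    · have h5 := congrArg (fun g : Matrix.GeneralLinearGroup (Fin 2 × Fin n₂) F => (g : Matrix _ _ F) p q) h
      have h6 : (Matrix.transvection p r (1 : F) * M₀) p q = (M₁ * Matrix.transvection p r (1 : F)) p q := by
        have h7 : ((W₀ * W₀ * c : Matrix.GeneralLinearGroup (Fin 2 × Fin n₂) F) : Matrix _ _ F) =
            M₁ * Matrix.transvection p r (1 : F) := by
          rw [Units.val_mul, hW₀2]
        have h8 : ((c * W₀ : Matrix.GeneralLinearGroup (Fin 2 × Fin n₂) F) : Matrix _ _ F) =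
            Matrix.transvection p r (1 : F) * M₀ := rfl
        simp only [h7, h8] at h5
        exact h5
      rw [hc1, hc2 M₁ (by
        show (blockDiagonal (fun _ : Fin n₂ => omM2 F)) (0, i₀) (1, i₁) = 0
        rw [blockDiagonal_apply, if_neg h01])] at h6
      exact one_ne_zero h6
  refine ⟨stabPair W hW ⊓ specialLinear (Fin n) F, ?_, ?_⟩
  · rw [SetLike.lt_iff_le_and_exists]
    constructor
    · rintro g ⟨hg, hsl⟩
      obtain ⟨g₀, hg₀, rfl⟩ := (mem_tensor e P g).mp hg
      refine ⟨(mem_stabPair W hW _).mpr ?_, hsl⟩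
      rcases hkron g₀ hg₀ with h | h
      · left
        show Φ g₀ * Φ W₀ = Φ W₀ * Φ g₀
        rw [← map_mul, ← map_mul, h]
      · right
        show Φ g₀ * Φ W₀ = Φ W₀ * Φ W₀ * Φ g₀
        rw [← map_mul, ← map_mul, ← map_mul, h]
    · refine ⟨Φ d, ⟨(mem_stabPair W hW _).mpr (Or.inl ?_), sl_all hq _⟩, ?_⟩
      · show Φ d * Φ W₀ = Φ W₀ * Φ d
        rw [← map_mul, ← map_mul, hdW]
      · rintro ⟨h, -⟩
        obtain ⟨g₀, hg₀, h3⟩ := (mem_tensor e P _).mp h
        have h4 : g₀ = d := PhiT_inj e P h3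
        rw [h4] at hg₀
        exact hdK hg₀
  · rw [SetLike.lt_iff_le_and_exists]
    refine ⟨inf_le_right, Φ c, sl_all hq _, ?_⟩
    rintro ⟨h, -⟩
    apply hc3
    rcases (mem_stabPair W hW _).mp h with h | h
    · left
      have h3 : Φ c * Φ W₀ = Φ W₀ * Φ c := h
      rw [← map_mul, ← map_mul] at h3
      exact PhiT_inj e P h3
    · right
      have h3 : Φ c * Φ W₀ = Φ W₀ * Φ W₀ * Φ c := h
      rw [← map_mul, ← map_mul, ← map_mul] at h3
      exact PhiT_inj e P h3

end F2

end CfsgLib.ClassMax.TensorK
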