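import Cfsg.Agent.Lib.ClassMax.OmegaFrame

/-! Tensor decompositions `Sp₂(2) ⊗ Sp_m(2)` in `Ω⁺_{2m}(2)`. -/

set_option autoImplicit false
set_option linter.unusedSimpArgs false
set_option linter.unusedVariables false
set_option linter.unusedSectionVars false
set_option linter.style.haveILetI false

namespace CfsgLib.ClassMax.OmegaR

open Matrix Cfsg Cfsg.Geo CfsgLib.ClassMax.Decomp CfsgLib.ClassMax.TensorK CfsgLib.ClassGeo CfsgLib.ClassGeo.Orth
open scoped Kronecker

variable {F : Type*} [Field F] [Fintype F] {ι : Type} [Fintype ι] [DecidableEq ι] {Q : (ι → F) → F}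

theorem exists_perp {κ : Type} [Fintype κ] [DecidableEq κ] {f : (κ → F) → (κ → F) → F} (hb : IsBilinearForm f) {k : ℕ}
    (w : Fin k → κ → F) (hk : k < Fintype.card κ) : ∃ z : κ → F, z ≠ 0 ∧ ∀ i, f (w i) z = 0 := by
  let L : (κ → F) →ₗ[F] (Fin k → F) :=
    { toFun := fun z i => f (w i) z
      map_add' := by
        intro x y
        ext i
        exact hb.add_right _ _ _
      map_smul' := by
        intro c x
        ext i
        exact hb.smul_right _ _ _ }
  have hker : LinearMap.ker L ≠ ⊥ := LinearMap.ker_ne_bot_of_finrank_lt (by simpa using hk)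
  obtain ⟨z, hz, hz0⟩ := Submodule.exists_mem_ne_zero_of_ne_bot hker
  refine ⟨z, hz0, fun i => ?_⟩
  exact congrFun (LinearMap.mem_ker.mp hz) i

section F2

variable {κ : Type} [Fintype κ] [DecidableEq κ] {f : (κ → F) → (κ → F) → F}

theorem symp_vectors (hq : Fintype.card F = 2) (hf : IsSymplecticForm f) (hκ : 5 ≤ Fintype.card κ) :
    ∃ u u' u₁ u₁' z : κ → F, f u u' = 1 ∧ f u₁ u₁' = 1 ∧ f u u₁ = 0 ∧ f u u₁' = 0 ∧ f u' u₁ = 0 ∧ f u' u₁' = 0 ∧
      z ≠ 0 ∧ f u z = 0 ∧ f u' z = 0 ∧ f u₁ z = 0 ∧ f u₁' z = 0 := by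
  have hb := hf.bilinear
  have h11 := f2_two hq
  have hone : ∀ a : F, a ≠ 0 → a = 1 := fun a ha => (f2_cases hq a).resolve_left ha
  have hskew : ∀ x y, f x y = f y x := by
    intro x y
    rw [hf.skew]
    linear_combination (-(f y x)) * h11
  obtain ⟨u, hu0, -⟩ := exists_perp (k := 0) hb (fun i => i.elim0) (by omega)
  obtain ⟨-, u', hu'⟩ := hf.nondegenerate u hu0
  have huu' := hone _ hu'
  obtain ⟨u₁, hu₁0, hu₁⟩ := exists_perp hb ![u, u'] (by simp; omega)
  have h1 : f u u₁ = 0 := hu₁ 0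
  have h2 : f u' u₁ = 0 := hu₁ 1
  obtain ⟨-, v, hv⟩ := hf.nondegenerate u₁ hu₁0
  have hv1 := hone _ hv
  set a := f u' v with ha
  set b := f u v with hb'
  set u₁' := v + a • u + b • u' with hu₁'
  have h3 : f u u₁' = 0 := by
    rw [hu₁', hb.add_right, hb.add_right, hb.smul_right, hb.smul_right, hf.alternating, huu', ← hb']
    linear_combination b * h11
  have h4 : f u' u₁' = 0 := by
    rw [hu₁', hb.add_right, hb.add_right, hb.smul_right, hb.smul_right, hf.alternating, hskew u' u, huu', ← ha]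
    linear_combination a * h11
  have h5 : f u₁ u₁' = 1 := by
    rw [hu₁', hb.add_right, hb.add_right, hb.smul_right, hb.smul_right, hskew u₁ u, hskew u₁ u', h1, h2, hv1]
    ring
  obtain ⟨z, hz0, hz⟩ := exists_perp hb ![u, u', u₁, u₁'] (by simp; omega)
  exact ⟨u, u', u₁, u₁', z, huu', h5, h1, h3, h2, h4, hz0, hz 0, hz 1, hz 2, hz 3⟩

end F2

section TauSpan

variable {n₁ n₂ : ℕ} (e : ι ≃ Fin n₁ × Fin n₂) (P : Matrix.GeneralLinearGroup ι F)

theorem tau_span (C : (ι → F) → Prop) (h0 : C 0) (hadd : ∀ x y, C x → C y → C (x + y))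
    (hsmul : ∀ (c : F) x, C x → C (c • x)) (hp : ∀ p u, C (tau e P p u)) (x : ι → F) : C x := by
  classical
  set y : Fin n₁ × Fin n₂ → F := (((P⁻¹ : Matrix.GeneralLinearGroup ι F) : Matrix ι ι F) *ᵥ x) ∘ e.symm with hy
  have hx : (P : Matrix ι ι F) *ᵥ (y ∘ e) = x := by
    have : y ∘ e = ((P⁻¹ : Matrix.GeneralLinearGroup ι F) : Matrix ι ι F) *ᵥ x := by
      ext i
      simp [hy]
    rw [this, Matrix.mulVec_mulVec, ← Units.val_mul, mul_inv_cancel, Units.val_one, Matrix.one_mulVec]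
  have hyy : y = ∑ a, y a • pt (Pi.single a.1 (1 : F)) (Pi.single a.2 (1 : F)) := by
    ext b
    rw [Finset.sum_apply, Finset.sum_eq_single b]
    · simp [pt]
    · intro a _ hab
      have : pt (Pi.single a.1 (1 : F)) (Pi.single a.2 (1 : F)) b = 0 := by
        simp only [pt, Pi.single_apply]
        by_cases h1 : b.1 = a.1
        · have h2 : b.2 ≠ a.2 := fun h2 => hab (Prod.ext h1.symm h2.symm)
          rw [if_neg h2, mul_zero]
        · rw [if_neg h1, zero_mul]
      simp [this]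
    · simp
  have hsum : ∀ s : Finset (Fin n₁ × Fin n₂), C ((P : Matrix ι ι F) *ᵥ
      ((∑ a ∈ s, y a • pt (Pi.single a.1 (1 : F)) (Pi.single a.2 (1 : F))) ∘ e)) := by
    intro s
    induction s using Finset.induction_on with
    | empty =>
      have : ((∑ a ∈ (∅ : Finset (Fin n₁ × Fin n₂)), y a • pt (Pi.single a.1 (1 : F)) (Pi.single a.2 (1 : F))) ∘ e) = 0 := by
        ext i
        simp
      rw [this, Matrix.mulVec_zero]
      exact h0
    | insert a s ha ih =>
      have e1 : ((∑ a ∈ insert a s, y a • pt (Pi.single a.1 (1 : F)) (Pi.single a.2 (1 : F))) ∘ e) =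
          y a • (pt (Pi.single a.1 (1 : F)) (Pi.single a.2 (1 : F)) ∘ e) +
          ((∑ a ∈ s, y a • pt (Pi.single a.1 (1 : F)) (Pi.single a.2 (1 : F))) ∘ e) := by
        rw [Finset.sum_insert ha]
        ext i
        simp
      rw [e1, Matrix.mulVec_add, Matrix.mulVec_smul]
      exact hadd _ _ (hsmul _ _ (hp _ _)) ih
  rw [← hx, hyy]
  exact hsum Finset.univ

end TauSpan

section Main

variable {n₂ : ℕ}

/-- The order three element `ω ⊗ 1`. -/
noncomputable def wZero (n₂ : ℕ) (F : Type*) [Field F] [Fintype F] (hq : Fintype.card F = 2) :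
    Matrix.GeneralLinearGroup (Fin 2 × Fin n₂) F :=
  ⟨omM F ⊗ₖ (1 : Matrix (Fin n₂) (Fin n₂) F), omM2 F ⊗ₖ (1 : Matrix (Fin n₂) (Fin n₂) F), by
    rw [← Matrix.mul_kronecker_mul, om_mul2 (f2_two hq), mul_one, Matrix.one_kronecker_one], by
    rw [← Matrix.mul_kronecker_mul, om_mul3 (f2_two hq), mul_one, Matrix.one_kronecker_one]⟩

theorem wZero_val (hq : Fintype.card F = 2) :
    ((wZero n₂ F hq : Matrix.GeneralLinearGroup (Fin 2 × Fin n₂) F) : Matrix (Fin 2 × Fin n₂) (Fin 2 × Fin n₂) F) =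
      omM F ⊗ₖ (1 : Matrix (Fin n₂) (Fin n₂) F) := rfl

theorem wZero_sq (hq : Fintype.card F = 2) :
    ((wZero n₂ F hq * wZero n₂ F hq : Matrix.GeneralLinearGroup (Fin 2 × Fin n₂) F) : Matrix (Fin 2 × Fin n₂) (Fin 2 × Fin n₂) F) =
      omM2 F ⊗ₖ (1 : Matrix (Fin n₂) (Fin n₂) F) := by
  rw [Units.val_mul, wZero_val, ← Matrix.mul_kronecker_mul, om_mul (f2_two hq), mul_one]

theorem wZero_cube (hq : Fintype.card F = 2) : wZero n₂ F hq * wZero n₂ F hq * wZero n₂ F hq = 1 := by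
  apply Units.ext
  rw [Units.val_mul, wZero_sq, wZero_val, ← Matrix.mul_kronecker_mul, om_mul3 (f2_two hq), mul_one,
    Matrix.one_kronecker_one, Units.val_one]

theorem wZero_kron (hq : Fintype.card F = 2) (g₀ : Matrix.GeneralLinearGroup (Fin 2 × Fin n₂) F)
    (hg₀ : g₀ ∈ kroneckerSubgroup 2 n₂ F) :
    g₀ * wZero n₂ F hq = wZero n₂ F hq * g₀ ∨ g₀ * wZero n₂ F hq = wZero n₂ F hq * wZero n₂ F hq * g₀ := by
  obtain ⟨a, b, hab⟩ := hg₀
  have hdet : (a : Matrix (Fin 2) (Fin 2) F).det ≠ 0 := (Matrix.GeneralLinearGroup.det a).ne_zero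
  rcases om_cases hq _ hdet with h | h
  · left
    apply Units.ext
    rw [Units.val_mul, Units.val_mul, hab, wZero_val, ← Matrix.mul_kronecker_mul, ← Matrix.mul_kronecker_mul, h, mul_one, one_mul]
  · right
    apply Units.ext
    rw [Units.val_mul, Units.val_mul, wZero_sq, hab, wZero_val, ← Matrix.mul_kronecker_mul, ← Matrix.mul_kronecker_mul, h, mul_one, one_mul]

theorem tensorO2_main (hq : Fintype.card F = 2) (hQ : IsNondegenerateQuadraticForm Q) (hn : 13 ≤ Fintype.card ι)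
    (e : ι ≃ Fin 2 × Fin n₂) (P : Matrix.GeneralLinearGroup ι F) (f₁ : (Fin 2 → F) → (Fin 2 → F) → F)
    (f₂ : (Fin n₂ → F) → (Fin n₂ → F) → F) (hf₁ : IsSymplecticForm f₁) (hf₂ : IsSymplecticForm f₂)
    (hT : IsTensorFormStructure id (QuadraticMap.polar Q) f₁ f₂ e P) (hpure : ∀ p u, Q (tau e P p u) = 0) :
    ∃ K : Subgroup (Matrix.GeneralLinearGroup ι F),
      tensorProductSubgroup 2 n₂ e P ⊓ omegaGL Q < K ∧ K < omegaGL Q := by
  classical
  have h11 := f2_two hq
  have h2 : (2 : F) = 0 := by linear_combination h11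
  have hB := hQ.polar_bilinear
  have hb₁ := hf₁.bilinear
  have hb₂ := hf₂.bilinear
  have hcard : Fintype.card ι = 2 * n₂ := by
    have := Fintype.card_congr e
    simpa using this
  have hcF : Fintype.card F ≠ 2 ∨ Fintype.card ι ≠ 4 := Or.inr (by omega)
  have hι2 : 2 ≤ Fintype.card ι := by omega
  have hneg : ∀ x : ι → F, -x = x := by
    intro x
    ext i
    have : x i + x i = 0 := by linear_combination (x i) * h11
    simpa using neg_eq_of_add_eq_zero_left this
  obtain ⟨c, hc, star₀⟩ := star_gen (id : F → F) (fun a b => rfl) e P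
    hb₁.add_left hb₁.smul_left hb₁.add_right (fun c v x => hb₁.smul_right c v x)
    hb₂.add_left hb₂.smul_left hb₂.add_right (fun c v x => hb₂.smul_right c v x) hT
  have hc1 : c = 1 := (f2_cases hq c).resolve_left hc
  have star : ∀ p q u z, QuadraticMap.polar Q (tau e P p u) (tau e P q z) = f₁ p q * f₂ u z := by
    intro p q u z
    rw [star₀, hc1, one_mul]
  have hskew₁ : ∀ x y, f₁ x y = f₁ y x := by
    intro x y
    rw [hf₁.skew]
    linear_combination (-(f₁ y x)) * h11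
  have hskew₂ : ∀ x y, f₂ x y = f₂ y x := by
    intro x y
    rw [hf₂.skew]
    linear_combination (-(f₂ y x)) * h11
  let p₁ : Fin 2 → F := Pi.single 0 1
  let p₂ : Fin 2 → F := Pi.single 1 1
  have hexp : ∀ x : Fin 2 → F, x = x 0 • p₁ + x 1 • p₂ := by
    intro x
    ext i
    fin_cases i <;> simp [p₁, p₂]
  have hform : ∀ x y : Fin 2 → F, f₁ x y = (x 0 * y 1 + x 1 * y 0) * f₁ p₁ p₂ := by
    intro x y
    calc f₁ x y = f₁ (x 0 • p₁ + x 1 • p₂) (y 0 • p₁ + y 1 • p₂) := by rw [← hexp x, ← hexp y]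
      _ = _ := by
        simp only [hb₁.add_left, hb₁.add_right, hb₁.smul_left, hb₁.smul_right, hf₁.alternating, hskew₁ p₂ p₁]
        ring
  have hp₁0 : p₁ ≠ 0 := by
    intro h
    have := congrFun h 0
    simp [p₁] at this
  have hp12 : f₁ p₁ p₂ = 1 := by
    refine (f2_cases hq _).resolve_left fun h => ?_
    obtain ⟨-, x, hx⟩ := hf₁.nondegenerate p₁ hp₁0
    apply hx
    rw [hform, h, mul_zero]
  have hp21 : f₁ p₂ p₁ = 1 := by rw [hskew₁]; exact hp12
  -- the action of `ω`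
  let om : (Fin 2 → F) → (Fin 2 → F) := fun x => omM F *ᵥ x
  have hom0 : ∀ x, om x 0 = x 1 := by
    intro x
    simp [om, omM, Matrix.mulVec, dotProduct, Fin.sum_univ_two]
  have hom1 : ∀ x, om x 1 = x 0 + x 1 := by
    intro x
    simp [om, omM, Matrix.mulVec, dotProduct, Fin.sum_univ_two]
  have hominv : ∀ x y, f₁ (om x) (om y) = f₁ x y := by
    intro x y
    rw [hform, hform x y, hom0, hom0, hom1, hom1]
    linear_combination (x 1 * y 1 * f₁ p₁ p₂) * h11
  have hom2 : ∀ x, om (om x) = x + om x := by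
    intro x
    ext i
    fin_cases i
    · show om (om x) 0 = x 0 + om x 0
      rw [hom0, hom1, hom0]
    · show om (om x) 1 = x 1 + om x 1
      rw [hom1, hom0, hom1]
  have homp₁ : om p₁ = p₂ := by
    ext i
    fin_cases i
    · show om p₁ 0 = p₂ 0
      rw [hom0]
      simp [p₁, p₂]
    · show om p₁ 1 = p₂ 1
      rw [hom1]
      simp [p₁, p₂]
  have homp₂ : om p₂ = p₁ + p₂ := by
    ext i
    fin_cases i
    · show om p₂ 0 = (p₁ + p₂) 0
      rw [hom0]
      simp [p₁, p₂]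
    · show om p₂ 1 = (p₁ + p₂) 1
      rw [hom1]
      simp [p₁, p₂]
  let Φ := PhiT e P
  let W := Φ (wZero n₂ F hq)
  have hWcube : W * W * W = 1 := by
    show Φ _ * Φ _ * Φ _ = 1
    rw [← map_mul, ← map_mul, wZero_cube, map_one]
  set Wm : Matrix ι ι F := ((W : Matrix.GeneralLinearGroup ι F) : Matrix ι ι F) with hWm
  have hWtau : ∀ p u, Wm *ᵥ tau e P p u = tau e P (om p) u := by
    intro p u
    have := PhiT_tau e P (wZero_val (n₂ := n₂) hq) p u
    rw [Matrix.one_mulVec] at this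
    exact this
  have hWB : ∀ x y, QuadraticMap.polar Q (Wm *ᵥ x) (Wm *ᵥ y) = QuadraticMap.polar Q x y := by
    intro x
    refine tau_span e P (fun x => ∀ y, QuadraticMap.polar Q (Wm *ᵥ x) (Wm *ᵥ y) = QuadraticMap.polar Q x y) ?_ ?_ ?_ ?_ x
    · intro y
      rw [Matrix.mulVec_zero, bil_zero_left hB, bil_zero_left hB]
    · intro a b ha hb y
      rw [Matrix.mulVec_add, hB.add_left, hB.add_left, ha, hb]
    · intro t a ha y
      rw [Matrix.mulVec_smul, hB.smul_left, hB.smul_left, ha]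
    · intro p u y
      refine tau_span e P (fun y => QuadraticMap.polar Q (Wm *ᵥ tau e P p u) (Wm *ᵥ y) = QuadraticMap.polar Q (tau e P p u) y) ?_ ?_ ?_ ?_ y
      · rw [Matrix.mulVec_zero, bil_zero_right hB, bil_zero_right hB]
      · intro a b ha hb
        rw [Matrix.mulVec_add, hB.add_right, hB.add_right, ha, hb]
      · intro t a ha
        rw [Matrix.mulVec_smul, hB.smul_right, hB.smul_right, ha]
      · intro q z
        rw [hWtau, hWtau, star, star, hominv]
  have hW2 : ∀ x, Wm *ᵥ (Wm *ᵥ x) = x + Wm *ᵥ x := by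
    refine tau_span e P (fun x => Wm *ᵥ (Wm *ᵥ x) = x + Wm *ᵥ x) ?_ ?_ ?_ ?_
    · simp
    · intro a b ha hb
      rw [Matrix.mulVec_add, Matrix.mulVec_add, ha, hb]
      abel
    · intro t a ha
      rw [Matrix.mulVec_smul, Matrix.mulVec_smul, ha, smul_add]
    · intro p u
      rw [hWtau, hWtau, hom2, tau_add_left]
  have hcar : ∀ x : ι → F, x + x = 0 := by
    intro x
    nth_rewrite 1 [← hneg x]
    exact neg_add_cancel x
  have hW3 : ∀ x, Wm *ᵥ (Wm *ᵥ (Wm *ᵥ x)) = x := by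
    intro x
    rw [hW2, hW2, add_left_comm, hcar, add_zero]
  obtain ⟨u, u', u₁, u₁', z, huu', hu₁, h1, h3, h4, h5, hz0, hz1, hz2, hz3, hz4⟩ :=
    symp_vectors hq hf₂ (κ := Fin n₂) (by simp; omega)
  have hu'u : f₂ u' u = 1 := by rw [hskew₂]; exact huu'
  obtain ⟨v, hv⟩ : ∃ v, v = tau e P p₁ u + tau e P p₂ u' := ⟨_, rfl⟩
  obtain ⟨y, hy⟩ : ∃ y, y = tau e P p₁ u₁ + tau e P p₂ u₁' := ⟨_, rfl⟩
  have hQsum : ∀ a b, Q (a + b) = QuadraticMap.polar Q a b + Q a + Q b := by
    intro a b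
    simp only [QuadraticMap.polar]
    ring
  have hQv : Q v = 1 := by
    rw [hv, hQsum, star, hpure, hpure, hp12, huu']
    ring
  have hQy : Q y = 1 := by
    rw [hy, hQsum, star, hpure, hpure, hp12, hu₁]
    ring
  have hWv : Wm *ᵥ v = tau e P p₂ u + tau e P (p₁ + p₂) u' := by
    rw [hv, Matrix.mulVec_add, hWtau, hWtau, homp₁, homp₂]
  have hf12 : f₁ p₂ (p₁ + p₂) = 1 := by
    rw [hb₁.add_right, hp21, hf₁.alternating, add_zero]
  have hf112 : f₁ p₁ (p₁ + p₂) = 1 := by
    rw [hb₁.add_right, hp12, hf₁.alternating, zero_add]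
  have hf121 : f₁ (p₁ + p₂) p₁ = 1 := by
    rw [hb₁.add_left, hp21, hf₁.alternating, zero_add]
  have hQWv : Q (Wm *ᵥ v) = 1 := by
    rw [hWv, hQsum, star, hpure, hpure, hf12, huu']
    ring
  have hBvWv : QuadraticMap.polar Q v (Wm *ᵥ v) = 1 := by
    rw [hWv, hv, hB.add_left, hB.add_right, hB.add_right, star, star, star, star, hf112, hf12,
      hf₂.alternating, hf₂.alternating, hf₁.alternating, huu']
    ring
  have hrf : ∀ w, Q w = 1 → ∀ x, rf Q w x = x + (QuadraticMap.polar Q w x) • w := by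
    intro w hw x
    rw [rf, hw, inv_one, one_mul, sub_eq_add_neg, hneg]
  have hQv0 : Q v ≠ 0 := by rw [hQv]; exact one_ne_zero
  have hQy0 : Q y ≠ 0 := by rw [hQy]; exact one_ne_zero
  have hQWv0 : Q (Wm *ᵥ v) ≠ 0 := by rw [hQWv]; exact one_ne_zero
  obtain ⟨w₀, hw₀⟩ : ∃ w₀, f₂ z w₀ = 1 := by
    obtain ⟨-, w₀, hw₀⟩ := hf₂.nondegenerate z hz0
    exact ⟨w₀, (f2_cases hq _).resolve_left hw₀⟩
  let K : Subgroup (Matrix.GeneralLinearGroup ι F) := omegaGL Q ⊓ stabPair W hWcube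
  have hsub : tensorProductSubgroup 2 n₂ e P ⊓ omegaGL Q ≤ K := by
    rintro g ⟨hgT, hgO⟩
    refine ⟨hgO, ?_⟩
    obtain ⟨g₀, hg₀, rfl⟩ := (mem_tensor e P g).mp hgT
    show Φ g₀ ∈ stabPair W hWcube
    rw [mem_stabPair]
    rcases wZero_kron hq g₀ hg₀ with h | h
    · left
      show Φ g₀ * Φ _ = Φ _ * Φ g₀
      rw [← map_mul, ← map_mul, h]
    · right
      show Φ g₀ * Φ _ = Φ _ * Φ _ * Φ g₀
      rw [← map_mul, ← map_mul, ← map_mul, h]
  refine ⟨K, ?_, ?_⟩
  · rw [SetLike.lt_iff_le_and_exists]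
    refine ⟨hsub, ?_⟩
    obtain ⟨g, hgO, hg⟩ := omega_two_refl hQ hι2 hcF hQv0 hQWv0 ⟨1, by rw [hQv, hQWv]⟩
    have hG : ∀ x, ((g : Matrix.GeneralLinearGroup ι F) : Matrix ι ι F) *ᵥ x =
        x + (QuadraticMap.polar Q (Wm *ᵥ v) x) • (Wm *ᵥ v + v) + (QuadraticMap.polar Q v x) • v := by
      intro x
      rw [hg, hrf _ hQWv, hrf _ hQv, hB.add_right, hB.smul_right, hBvWv]
      ext i
      simp only [Pi.add_apply, Pi.smul_apply, smul_eq_mul]
      ring
    refine ⟨g, ⟨hgO, ?_⟩, ?_⟩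
    · show g ∈ stabPair W hWcube
      rw [mem_stabPair]
      left
      apply Units.ext
      rw [Units.val_mul, Units.val_mul]
      apply matrix_eq_of_mulVec
      intro x
      rw [← Matrix.mulVec_mulVec, ← Matrix.mulVec_mulVec, ← hWm, hG, hG, hWB]
      have e1 : QuadraticMap.polar Q v (Wm *ᵥ x) = QuadraticMap.polar Q v x + QuadraticMap.polar Q (Wm *ᵥ v) x := by
        have h6 : Wm *ᵥ (Wm *ᵥ (Wm *ᵥ v)) = v := hW3 v
        calc QuadraticMap.polar Q v (Wm *ᵥ x) = QuadraticMap.polar Q (Wm *ᵥ (Wm *ᵥ (Wm *ᵥ v))) (Wm *ᵥ x) := by rw [h6]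
          _ = QuadraticMap.polar Q (Wm *ᵥ (Wm *ᵥ v)) x := hWB _ _
          _ = _ := by rw [hW2, hB.add_left]
      rw [e1]
      simp only [Matrix.mulVec_add, Matrix.mulVec_smul, hW2]
      ext i
      simp only [Pi.add_apply, Pi.smul_apply, smul_eq_mul]
      linear_combination (QuadraticMap.polar Q v x * v i - QuadraticMap.polar Q (Wm *ᵥ v) x * ((Wm *ᵥ v) i)) * h11
    · rintro ⟨hgT, -⟩
      obtain ⟨g₀, ⟨α, β, hg₀⟩, hgg⟩ := (mem_tensor e P _).mp hgT
      have act : ∀ p w, tau e P ((α : Matrix (Fin 2) (Fin 2) F) *ᵥ p) ((β : Matrix (Fin n₂) (Fin n₂) F) *ᵥ w) =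
          ((g : Matrix.GeneralLinearGroup ι F) : Matrix ι ι F) *ᵥ tau e P p w := by
        intro p w
        rw [← PhiT_tau e P hg₀, hgg]
      have fixz : tau e P ((α : Matrix (Fin 2) (Fin 2) F) *ᵥ p₁) ((β : Matrix (Fin n₂) (Fin n₂) F) *ᵥ z) = tau e P p₁ z := by
        rw [act, hG]
        have e1 : QuadraticMap.polar Q (Wm *ᵥ v) (tau e P p₁ z) = 0 := by
          rw [hWv, hB.add_left, star, star, hz1, hz2]
          ring
        have e2 : QuadraticMap.polar Q v (tau e P p₁ z) = 0 := by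
          rw [hv, hB.add_left, star, star, hz1, hz2]
          ring
        rw [e1, e2]
        simp
      have equ : tau e P ((α : Matrix (Fin 2) (Fin 2) F) *ᵥ p₁) ((β : Matrix (Fin n₂) (Fin n₂) F) *ᵥ u) =
          tau e P p₁ u + Wm *ᵥ v := by
        rw [act, hG]
        have e1 : QuadraticMap.polar Q (Wm *ᵥ v) (tau e P p₁ u) = 1 := by
          rw [hWv, hB.add_left, star, star, hf₂.alternating, hf121, hu'u]
          ring
        have e2 : QuadraticMap.polar Q v (tau e P p₁ u) = 1 := by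
          rw [hv, hB.add_left, star, star, hf₂.alternating, hp21, hu'u]
          ring
        rw [e1, e2, one_smul, one_smul]
        rw [add_assoc, add_assoc, hcar, add_zero]
      set A := f₁ ((α : Matrix (Fin 2) (Fin 2) F) *ᵥ p₁) with hA
      have k1 : ∀ q w, A q * f₂ ((β : Matrix (Fin n₂) (Fin n₂) F) *ᵥ z) w = f₁ p₁ q * f₂ z w := by
        intro q w
        have h6 := congrArg (fun t => QuadraticMap.polar Q t (tau e P q w)) fixz
        simpa only [star] using h6
      have hbz : f₂ ((β : Matrix (Fin n₂) (Fin n₂) F) *ᵥ z) w₀ ≠ 0 := by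
        intro h
        have h6 := k1 p₂ w₀
        rw [h, mul_zero, hp12, hw₀, one_mul] at h6
        exact (one_ne_zero : (1 : F) ≠ 0) h6.symm
      have hA1 : A p₁ = 0 := by
        have h6 := k1 p₁ w₀
        rw [hf₁.alternating, zero_mul] at h6
        exact (mul_eq_zero.mp h6).resolve_right hbz
      have h6 := congrArg (fun t => QuadraticMap.polar Q t (tau e P p₁ u')) equ
      simp only [hWv, hB.add_left, star] at h6
      rw [← hA, hA1, hf₁.alternating, hp21, hf121, hf₂.alternating, huu'] at h6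
      have : (1 : F) = 0 := by linear_combination -h6
      exact one_ne_zero this
  · rw [SetLike.lt_iff_le_and_exists]
    refine ⟨inf_le_left, ?_⟩
    obtain ⟨g, hgO, hg⟩ := omega_two_refl hQ hι2 hcF hQv0 hQy0 ⟨1, by rw [hQv, hQy]⟩
    refine ⟨g, hgO, ?_⟩
    rintro ⟨-, hgS⟩
    have hgS' : g ∈ stabPair W hWcube := hgS
    rw [mem_stabPair] at hgS'
    have h1' : f₂ u₁ u = 0 := by rw [hskew₂]; exact h1
    have h3' : f₂ u₁' u = 0 := by rw [hskew₂]; exact h3
    have h4' : f₂ u₁ u' = 0 := by rw [hskew₂]; exact h4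
    have h5' : f₂ u₁' u' = 0 := by rw [hskew₂]; exact h5
    have hyv : QuadraticMap.polar Q y v = 0 := by
      rw [hy, hv, hB.add_left, hB.add_right, hB.add_right, star, star, star, star, h1', h3', h4', h5']
      ring
    have hyWv : QuadraticMap.polar Q y (Wm *ᵥ v) = 0 := by
      rw [hWv, hy, hB.add_left, hB.add_right, hB.add_right, star, star, star, star, h1', h3', h4', h5']
      ring
    have hvv : QuadraticMap.polar Q v v = 0 := by
      rw [polar_self' hQ, h2, zero_mul]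
    have hgv : ((g : Matrix.GeneralLinearGroup ι F) : Matrix ι ι F) *ᵥ v = v := by
      rw [hg, rf_of_zero hyv, hrf _ hQv, hvv, zero_smul, add_zero]
    have hgWv : ((g : Matrix.GeneralLinearGroup ι F) : Matrix ι ι F) *ᵥ (Wm *ᵥ v) = Wm *ᵥ v + v := by
      rw [hg, rf_of_zero hyWv, hrf _ hQv, hBvWv, one_smul]
    have hgz : ∀ p, ((g : Matrix.GeneralLinearGroup ι F) : Matrix ι ι F) *ᵥ tau e P p z = tau e P p z := by
      intro p
      have e1 : QuadraticMap.polar Q y (tau e P p z) = 0 := by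
        rw [hy, hB.add_left, star, star, hz3, hz4]
        ring
      have e2 : QuadraticMap.polar Q v (tau e P p z) = 0 := by
        rw [hv, hB.add_left, star, star, hz1, hz2]
        ring
      rw [hg, rf_of_zero e1, rf_of_zero e2]
    rcases hgS' with h | h
    · have h6 := congrArg (fun t : Matrix.GeneralLinearGroup ι F => (t : Matrix ι ι F) *ᵥ v) h
      simp only [Units.val_mul, ← Matrix.mulVec_mulVec] at h6
      rw [← hWm, hgWv, hgv] at h6
      have h7 : v = 0 := by simpa using h6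
      rw [h7] at hQv
      have h8 := hQ.smul 0 0
      simp only [zero_smul] at h8
      rw [h8] at hQv
      simp at hQv
    · have h6 := congrArg (fun t : Matrix.GeneralLinearGroup ι F => (t : Matrix ι ι F) *ᵥ tau e P p₁ z) h
      simp only [Units.val_mul, ← Matrix.mulVec_mulVec] at h6
      rw [← hWm, hWtau, homp₁, hgz, hgz, hWtau, hWtau, homp₁, homp₂] at h6
      have h7 := congrArg (fun t => QuadraticMap.polar Q t (tau e P p₂ w₀)) h6
      simp only [tau_add_left, hB.add_left, star, hf₁.alternating, hp12, hw₀] at h7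
      have : (1 : F) = 0 := by linear_combination -h7
      exact one_ne_zero this

end Main

end CfsgLib.ClassMax.OmegaR
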