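import Cfsg.Agent.Lib.ClassMax.TensorU
import Cfsg.Agent.Lib.ClassMax.DecompSp

/-! Stabilisers of tensor decompositions `Sp_{n₁}(3) ⊗ O₃(3)` in `Sp_{2m}(3)` are not maximal. -/

set_option autoImplicit false
set_option linter.unusedSimpArgs false
set_option linter.unusedVariables false
set_option linter.unusedSectionVars false
set_option linter.style.haveILetI false

namespace CfsgLib.ClassMax.TensorK

open Matrix Cfsg Cfsg.Geo CfsgLib.ClassMax.Decomp CfsgLib.ClassGeo
open scoped Kronecker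

variable {F : Type*} [Field F] [Fintype F]

section F3

theorem f3_cases (hq : Fintype.card F = 3) (a : F) : a = 0 ∨ a = 1 ∨ a = -1 := by
  have h := FiniteField.pow_card a
  rw [hq] at h
  have h2 : a * (a - 1) * (a + 1) = 0 := by linear_combination h
  rcases mul_eq_zero.mp h2 with h3 | h3
  · rcases mul_eq_zero.mp h3 with h4 | h4
    · exact Or.inl h4
    · exact Or.inr (Or.inl (sub_eq_zero.mp h4))
  · exact Or.inr (Or.inr (eq_neg_of_add_eq_zero_left h3))

theorem f3_three (hq : Fintype.card F = 3) : (3 : F) = 0 := by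
  have h := FiniteField.cast_card_eq_zero F
  rw [hq] at h
  exact_mod_cast h

theorem f3_two_ne (hq : Fintype.card F = 3) : (2 : F) ≠ 0 := by
  intro h
  have h3 := f3_three hq
  have : (1 : F) = 0 := by linear_combination h3 - h
  exact one_ne_zero this

theorem f3_sq (hq : Fintype.card F = 3) {a : F} (h : a ≠ 0) : a ^ 2 = 1 := by
  rcases f3_cases hq a with h1 | h1 | h1
  · exact absurd h1 h
  · rw [h1]; ring
  · rw [h1]; ring

theorem f3_neg_ne_one (hq : Fintype.card F = 3) : (-1 : F) ≠ 1 := by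
  intro h
  apply f3_two_ne hq
  linear_combination -h

theorem f3_no_neg_square (hq : Fintype.card F = 3) (B : Matrix (Fin 3) (Fin 3) F)
    (h : Bᵀ * B = (-1 : F) • (1 : Matrix (Fin 3) (Fin 3) F)) : False := by
  have h2 := congrArg Matrix.det h
  rw [Matrix.det_mul, Matrix.det_transpose, Matrix.det_smul, Matrix.det_one, Fintype.card_fin] at h2
  have h3 : B.det ^ 2 = -1 := by linear_combination h2
  by_cases h0 : B.det = 0
  · rw [h0] at h3
    have : (1 : F) = 0 := by linear_combination h3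
    exact one_ne_zero this
  · rw [f3_sq hq h0] at h3
    exact f3_neg_ne_one hq h3.symm

end F3

section Bil

variable {κ : Type} [Fintype κ] [DecidableEq κ] {f : (κ → F) → (κ → F) → F}

theorem bil_zero_left (hf : IsBilinearForm f) (v : κ → F) : f 0 v = 0 := by
  have := hf.smul_left 0 0 v
  simpa using this

theorem bil_zero_right (hf : IsBilinearForm f) (v : κ → F) : f v 0 = 0 := by
  have := hf.smul_right 0 v 0
  simpa using this

theorem bil_sum_left (hf : IsBilinearForm f) {α : Type*} (s : Finset α) (u : α → κ → F) (v : κ → F) :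
    f (∑ i ∈ s, u i) v = ∑ i ∈ s, f (u i) v := by
  classical
  induction s using Finset.induction_on with
  | empty => simp [bil_zero_left hf]
  | insert a s ha ih => rw [Finset.sum_insert ha, Finset.sum_insert ha, hf.add_left, ih]

theorem bil_sum_right (hf : IsBilinearForm f) {α : Type*} (s : Finset α) (u : α → κ → F) (v : κ → F) :
    f v (∑ i ∈ s, u i) = ∑ i ∈ s, f v (u i) := by
  classical
  induction s using Finset.induction_on with
  | empty => simp [bil_zero_right hf]
  | insert a s ha ih => rw [Finset.sum_insert ha, Finset.sum_insert ha, hf.add_right, ih]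

end Bil

section Frame

variable {f₂ : (Fin 3 → F) → (Fin 3 → F) → F}

theorem frame_expand (hq : Fintype.card F = 3) (hf : IsSymmetricForm f₂) {a : Fin 3 → Fin 3 → F} {lam : F}
    (hlam : lam ≠ 0) (hnorm : ∀ i, f₂ (a i) (a i) = lam) (horth : ∀ i j, i ≠ j → f₂ (a i) (a j) = 0)
    (y : Fin 3 → F) : y = ∑ i, (lam * f₂ y (a i)) • a i := by
  have hb := hf.bilinear
  have hl2 : lam * lam = 1 := by
    have := f3_sq hq hlam
    linear_combination this
  have hind : LinearIndependent F a := by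
    rw [Fintype.linearIndependent_iff]
    intro c hc j
    have h3 := congrArg (fun u => f₂ u (a j)) hc
    simp only [bil_sum_left hb, hb.smul_left, bil_zero_left hb] at h3
    rw [Finset.sum_eq_single j, hnorm] at h3
    · exact (mul_eq_zero.mp h3).resolve_right hlam
    · intro i _ hij
      rw [horth i j hij, mul_zero]
    · simp
  have hspan : Submodule.span F (Set.range a) = ⊤ :=
    hind.span_eq_top_of_card_eq_finrank (by simp)
  set w := y - ∑ i, (lam * f₂ y (a i)) • a i with hw
  have hwa : ∀ j, f₂ w (a j) = 0 := by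
    intro j
    have h1 : y = w + ∑ i, (lam * f₂ y (a i)) • a i := by rw [hw]; abel
    have h2 : f₂ y (a j) = f₂ w (a j) + ∑ i, (lam * f₂ y (a i)) * f₂ (a i) (a j) := by
      conv_lhs => rw [h1]
      rw [hb.add_left, bil_sum_left hb]
      simp only [hb.smul_left]
    rw [Finset.sum_eq_single j, hnorm] at h2
    · linear_combination (-1 : F) * h2 - (f₂ y (a j)) * hl2
    · intro i _ hij
      rw [horth i j hij, mul_zero]
    · simp
  have hwz : ∀ z, f₂ w z = 0 := by
    intro z
    have hz : z ∈ Submodule.span F (Set.range a) := by rw [hspan]; trivial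
    induction hz using Submodule.span_induction with
    | mem x hx =>
      obtain ⟨j, rfl⟩ := hx
      exact hwa j
    | zero => exact bil_zero_right hb w
    | add x y _ _ hx hy => rw [hb.add_right, hx, hy, add_zero]
    | smul c x _ hx => rw [hb.smul_right, hx, mul_zero]
  have hw0 : w = 0 := by
    by_contra hne
    obtain ⟨-, x, hx⟩ := hf.nondegenerate w hne
    exact hx (hwz x)
  exact sub_eq_zero.mp hw0

/-- An orthogonal frame of constant norm for a non-degenerate symmetric form on `F₃³`. -/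
theorem sym_frame3 (hq : Fintype.card F = 3) (hf : IsSymmetricForm f₂) :
    ∃ (a : Fin 3 → Fin 3 → F) (lam : F), lam ≠ 0 ∧ (∀ i, f₂ (a i) (a i) = lam) ∧
      ∀ i j, i ≠ j → f₂ (a i) (a j) = 0 := by
  classical
  have hb := hf.bilinear
  let B : LinearMap.BilinForm F (Fin 3 → F) :=
    LinearMap.mk₂ F f₂ hb.add_left hb.smul_left hb.add_right hb.smul_right
  have hBa : ∀ x y, B x y = f₂ x y := fun x y => rfl
  have hsymm : LinearMap.IsSymm B := ⟨fun x y => hf.symm x y⟩
  haveI : Invertible (2 : F) := invertibleOfNonzero (f3_two_ne hq)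
  obtain ⟨v₀, hv₀⟩ := LinearMap.BilinForm.exists_orthogonal_basis hsymm
  have hfr : Module.finrank F (Fin 3 → F) = 3 := by simp
  let v : Module.Basis (Fin 3) F (Fin 3 → F) := v₀.reindex (finCongr hfr)
  have horth : ∀ i j, i ≠ j → f₂ (v i) (v j) = 0 := by
    intro i j hij
    have h3 := @hv₀ ((finCongr hfr).symm i) ((finCongr hfr).symm j) (by simpa using hij)
    have h5 : f₂ (v₀ ((finCongr hfr).symm i)) (v₀ ((finCongr hfr).symm j)) = 0 := h3
    simpa [v, Module.Basis.reindex_apply] using h5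
  have hne : ∀ i, f₂ (v i) (v i) ≠ 0 := by
    intro i hi
    have hzero : ∀ x, f₂ (v i) x = 0 := by
      intro x
      rw [← v.sum_repr x, bil_sum_right hb]
      refine Finset.sum_eq_zero fun j _ => ?_
      rw [hb.smul_right]
      by_cases hj : i = j
      · rw [← hj, hi, mul_zero]
      · rw [horth i j hj, mul_zero]
    obtain ⟨-, x, hx⟩ := hf.nondegenerate (v i) (v.ne_zero i)
    exact hx (hzero x)
  -- the three norms are `±1`
  have hval : ∀ i, f₂ (v i) (v i) = 1 ∨ f₂ (v i) (v i) = -1 := by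
    intro i
    rcases f3_cases hq (f₂ (v i) (v i)) with h | h | h
    · exact absurd h (hne i)
    · exact Or.inl h
    · exact Or.inr h
  have h3 := f3_three hq
  -- the main step
  have step : ∀ i j k : Fin 3, i ≠ j → i ≠ k → j ≠ k → f₂ (v i) (v i) = f₂ (v j) (v j) →
      ∃ (a : Fin 3 → Fin 3 → F) (lam : F), lam ≠ 0 ∧ (∀ i, f₂ (a i) (a i) = lam) ∧
        ∀ i j, i ≠ j → f₂ (a i) (a j) = 0 := by
    intro i j k hij hik hjk hie
    have hsym : ∀ x y, f₂ x y = f₂ y x := hf.symm
    have hji : f₂ (v j) (v i) = 0 := horth j i hij.symm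
    have hki : f₂ (v k) (v i) = 0 := horth k i hik.symm
    have hkj : f₂ (v k) (v j) = 0 := horth k j hjk.symm
    have hij' := horth i j hij
    have hik' := horth i k hik
    have hjk' := horth j k hjk
    by_cases he : f₂ (v k) (v k) = f₂ (v i) (v i)
    · refine ⟨![v i, v j, v k], f₂ (v i) (v i), hne i, ?_, ?_⟩
      · intro l
        fin_cases l
        · rfl
        · exact hie.symm
        · exact he
      · intro l l' hl
        fin_cases l <;> fin_cases l' <;> first | exact absurd rfl hl | assumption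
    · have he' : f₂ (v k) (v k) = - f₂ (v i) (v i) := by
        rcases hval k with h | h <;> rcases hval i with h' | h'
        · exact absurd (h.trans h'.symm) he
        · rw [h, h', neg_neg]
        · rw [h, h']
        · exact absurd (h.trans h'.symm) he
      have hn1 : f₂ (v i + v j) (v i + v j) = f₂ (v k) (v k) := by
        rw [hb.add_left, hb.add_right, hb.add_right, hij', hji, ← hie, he']
        linear_combination (f₂ (v i) (v i)) * h3
      have hn2 : f₂ (v i - v j) (v i - v j) = f₂ (v k) (v k) := by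
        have hs : v i - v j = v i + (-1 : F) • v j := by simp [sub_eq_add_neg]
        rw [hs, hb.add_left, hb.add_right, hb.add_right, hb.smul_left, hb.smul_right, hb.smul_right, hb.smul_left,
          hij', hji, ← hie, he']
        linear_combination (f₂ (v i) (v i)) * h3
      have ho12 : f₂ (v i + v j) (v i - v j) = 0 := by
        have hs : v i - v j = v i + (-1 : F) • v j := by simp [sub_eq_add_neg]
        rw [hs, hb.add_left, hb.add_right, hb.add_right, hb.smul_right, hb.smul_right, hij', hji, ← hie]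
        ring
      have ho13 : f₂ (v i + v j) (v k) = 0 := by
        rw [hb.add_left, hik', hjk', add_zero]
      have ho23 : f₂ (v i - v j) (v k) = 0 := by
        have hs : v i - v j = v i + (-1 : F) • v j := by simp [sub_eq_add_neg]
        rw [hs, hb.add_left, hb.smul_left, hik', hjk']
        ring
      refine ⟨![v i + v j, v i - v j, v k], f₂ (v k) (v k), hne k, ?_, ?_⟩
      · intro l
        fin_cases l
        · exact hn1
        · exact hn2
        · rfl
      · intro l l' hl
        fin_cases l <;> fin_cases l'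
        · exact absurd rfl hl
        · exact ho12
        · exact ho13
        · show f₂ (v i - v j) (v i + v j) = 0
          rw [hsym]; exact ho12
        · exact absurd rfl hl
        · exact ho23
        · show f₂ (v k) (v i + v j) = 0
          rw [hsym]; exact ho13
        · show f₂ (v k) (v i - v j) = 0
          rw [hsym]; exact ho23
        · exact absurd rfl hl
  by_cases h01 : f₂ (v 0) (v 0) = f₂ (v 1) (v 1)
  · exact step 0 1 2 (by decide) (by decide) (by decide) h01
  by_cases h02 : f₂ (v 0) (v 0) = f₂ (v 2) (v 2)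
  · exact step 0 2 1 (by decide) (by decide) (by decide) h02
  · refine step 1 2 0 (by decide) (by decide) (by decide) ?_
    rcases hval 0 with h | h <;> rcases hval 1 with h' | h' <;> rcases hval 2 with h'' | h''
    all_goals first
      | (rw [h', h'']; done)
      | (exfalso; apply h01; rw [h, h']; done)
      | (exfalso; apply h02; rw [h, h'']; done)

theorem frame_similarity (hq : Fintype.card F = 3) (hf : IsSymmetricForm f₂) {a : Fin 3 → Fin 3 → F} {lam : F}
    (hlam : lam ≠ 0) (hnorm : ∀ i, f₂ (a i) (a i) = lam) (horth : ∀ i j, i ≠ j → f₂ (a i) (a j) = 0)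
    (β : (Fin 3 → F) → (Fin 3 → F)) {ν : F} (hν : ν ≠ 0) (hβ : ∀ u z, f₂ (β u) (β z) = ν * f₂ u z) : ν = 1 := by
  have hb := hf.bilinear
  have hl2 : lam * lam = 1 := by
    have := f3_sq hq hlam
    linear_combination this
  rcases f3_cases hq ν with h | h | h
  · exact absurd h hν
  · exact h
  · exfalso
    let B : Matrix (Fin 3) (Fin 3) F := fun i j => lam * f₂ (β (a j)) (a i)
    apply f3_no_neg_square hq B
    ext j k
    have h1 : f₂ (β (a j)) (β (a k)) = ∑ i, (lam * f₂ (β (a k)) (a i)) * f₂ (β (a j)) (a i) := by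
      conv_lhs => rw [frame_expand hq hf hlam hnorm horth (β (a k))]
      rw [bil_sum_right hb]
      simp only [hb.smul_right]
    have h2 : (Bᵀ * B) j k = lam * f₂ (β (a j)) (β (a k)) := by
      rw [h1, Matrix.mul_apply, Finset.mul_sum]
      refine Finset.sum_congr rfl fun i _ => ?_
      show (lam * f₂ (β (a j)) (a i)) * (lam * f₂ (β (a k)) (a i)) = _
      ring
    rw [h2, hβ, h, Matrix.smul_apply, Matrix.one_apply, smul_eq_mul]
    by_cases hjk : j = k
    · subst hjk
      rw [hnorm, if_pos rfl]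
      linear_combination (-1 : F) * hl2
    · rw [horth j k hjk, if_neg hjk]
      ring

theorem frame_image (hq : Fintype.card F = 3) (hf : IsSymmetricForm f₂) {a : Fin 3 → Fin 3 → F} {lam : F}
    (hlam : lam ≠ 0) (hnorm : ∀ i, f₂ (a i) (a i) = lam) (horth : ∀ i j, i ≠ j → f₂ (a i) (a j) = 0)
    (y : Fin 3 → F) (hy : f₂ y y = lam) : ∃ (s : F) (j : Fin 3), y = s • a j := by
  have hb := hf.bilinear
  have h3 := f3_three hq
  have hl2 : lam * lam = 1 := by
    have := f3_sq hq hlam
    linear_combination this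
  have hexp := frame_expand hq hf hlam hnorm horth y
  set s : Fin 3 → F := fun i => lam * f₂ y (a i) with hs
  have hexp2 : y = ∑ i, s i • a i := hexp
  have hnormy : f₂ y y = ∑ i, s i * s i * lam := by
    have h5 : f₂ y y = ∑ i, s i * f₂ (a i) y := by
      calc f₂ y y = f₂ (∑ i, s i • a i) y := by rw [← hexp2]
        _ = _ := by
          rw [bil_sum_left hb]
          simp only [hb.smul_left]
    rw [h5]
    refine Finset.sum_congr rfl fun i _ => ?_
    have h6 : f₂ (a i) y = s i * lam := by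
      rw [hf.symm, hs]
      simp only
      linear_combination (- f₂ y (a i)) * hl2
    rw [h6]
    ring
  rw [hy, Fin.sum_univ_three] at hnormy
  have hsum : s 0 * s 0 + s 1 * s 1 + s 2 * s 2 = 1 := by
    have : lam * (s 0 * s 0 + s 1 * s 1 + s 2 * s 2) = lam * 1 := by linear_combination -hnormy
    exact mul_left_cancel₀ hlam this
  have hq2 : ∀ i, s i ≠ 0 → s i * s i = 1 := by
    intro i hi
    have := f3_sq hq hi
    linear_combination this
  have htwo := f3_two_ne hq
  rw [Fin.sum_univ_three] at hexp2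
  by_cases h0 : s 0 = 0 <;> by_cases h1 : s 1 = 0 <;> by_cases h2 : s 2 = 0
  · exfalso
    rw [h0, h1, h2] at hsum
    have : (1 : F) = 0 := by linear_combination -hsum
    exact one_ne_zero this
  · refine ⟨s 2, 2, ?_⟩
    rw [hexp2, h0, h1]
    simp
  · refine ⟨s 1, 1, ?_⟩
    rw [hexp2, h0, h2]
    simp
  · exfalso
    rw [h0, hq2 1 h1, hq2 2 h2] at hsum
    have : (1 : F) = 0 := by linear_combination hsum
    exact one_ne_zero this
  · refine ⟨s 0, 0, ?_⟩
    rw [hexp2, h1, h2]
    simp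
  · exfalso
    rw [h1, hq2 0 h0, hq2 2 h2] at hsum
    have : (1 : F) = 0 := by linear_combination hsum
    exact one_ne_zero this
  · exfalso
    rw [h2, hq2 0 h0, hq2 1 h1] at hsum
    have : (1 : F) = 0 := by linear_combination hsum
    exact one_ne_zero this
  · exfalso
    rw [hq2 0 h0, hq2 1 h1, hq2 2 h2] at hsum
    have : (1 : F) = 0 := by linear_combination -hsum + h3
    exact one_ne_zero this

end Frame

variable {m n₁ : ℕ}

theorem tv_cube (h3 : (3 : F) = 0) (v x : Fin m ⊕ Fin m → F) :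
    ((tvG v : Matrix.GeneralLinearGroup (Fin m ⊕ Fin m) F) : Matrix (Fin m ⊕ Fin m) (Fin m ⊕ Fin m) F) *ᵥ
      (((tvG v : Matrix.GeneralLinearGroup (Fin m ⊕ Fin m) F) : Matrix (Fin m ⊕ Fin m) (Fin m ⊕ Fin m) F) *ᵥ
        (((tvG v : Matrix.GeneralLinearGroup (Fin m ⊕ Fin m) F) : Matrix (Fin m ⊕ Fin m) (Fin m ⊕ Fin m) F) *ᵥ x)) = x := by
  simp only [tvG_mulVec, symp_add_left, symp_smul_left, symp_self, mul_zero, add_zero]
  rw [add_assoc, add_assoc, ← add_smul, ← add_smul]
  have : sympForm m F x v + (sympForm m F x v + sympForm m F x v) = 0 := by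
    linear_combination (sympForm m F x v) * h3
  rw [this, zero_smul, add_zero]

theorem tensorSp3_main (hm : 7 ≤ m) (hq : Fintype.card F = 3) (e : (Fin m ⊕ Fin m) ≃ Fin n₁ × Fin 3)
    (P : Matrix.GeneralLinearGroup (Fin m ⊕ Fin m) F) (f₁ : (Fin n₁ → F) → (Fin n₁ → F) → F)
    (f₂ : (Fin 3 → F) → (Fin 3 → F) → F) (hf₁ : IsSymplecticForm f₁) (hf₂ : IsSymmetricForm f₂)
    (hT : IsTensorFormStructure id (sympForm m F) f₁ f₂ e P) :
    ∃ K : Subgroup (Matrix.GeneralLinearGroup (Fin m ⊕ Fin m) F),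
      tensorProductSubgroup n₁ 3 e P ⊓ spGL m F < K ∧ K < spGL m F := by
  classical
  have h3 := f3_three hq
  have hb₁ := hf₁.bilinear
  have hb₂ := hf₂.bilinear
  have hcard : m + m = n₁ * 3 := by
    have := Fintype.card_congr e
    simpa using this
  have hn1 : 0 < n₁ := by omega
  obtain ⟨c, hc, star⟩ := star_gen (id : F → F) (fun a b => rfl) e P
    hb₁.add_left hb₁.smul_left hb₁.add_right (fun c v x => hb₁.smul_right c v x)
    hb₂.add_left hb₂.smul_left hb₂.add_right (fun c v x => hb₂.smul_right c v x) hT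
  obtain ⟨a, lam, hlam, hnorm, horth⟩ := sym_frame3 hq hf₂
  have hsym : ∀ i j, i ≠ j → f₂ (a i) (a j) = 0 := horth
  -- two vectors of the first factor
  let p₀ : Fin n₁ → F := Pi.single ⟨0, hn1⟩ 1
  have hp₀ : p₀ ≠ 0 := by
    intro h
    have := congrFun h ⟨0, hn1⟩
    simp [p₀] at this
  obtain ⟨⟨p₁, hd⟩, -⟩ := hf₁.nondegenerate p₀ hp₀
  have hd' : f₁ p₀ p₁ ≠ 0 := by
    rw [hf₁.skew]
    exact neg_ne_zero.mpr hd
  let S : (Fin m ⊕ Fin m → F) → Prop := fun x => ∃ v i, x = tau e P v (a i)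
  have hfr : ∀ α : Matrix (Fin n₁) (Fin n₁) F, ∀ β : Matrix (Fin 3) (Fin 3) F,
      (∀ p q u z, f₁ (α *ᵥ p) (α *ᵥ q) * f₂ (β *ᵥ u) (β *ᵥ z) = f₁ p q * f₂ u z) →
      ∀ i, ∃ (s : F) (j : Fin 3), β *ᵥ a i = s • a j := by
    intro α β hiso i
    set μ := f₁ (α *ᵥ p₁) (α *ᵥ p₀) with hμ
    have hμ0 : μ ≠ 0 := by
      intro h
      have h4 := hiso p₁ p₀ (a 0) (a 0)
      rw [← hμ, h, zero_mul, hnorm] at h4
      exact (mul_ne_zero hd hlam) h4.symm
    set d := f₁ p₁ p₀ with hdd
    have hsim : ∀ u z, f₂ (β *ᵥ u) (β *ᵥ z) = (μ⁻¹ * d) * f₂ u z := by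
      intro u z
      have h4 := hiso p₁ p₀ u z
      rw [← hμ] at h4
      field_simp
      linear_combination h4
    have hν := frame_similarity hq hf₂ hlam hnorm horth (fun u => β *ᵥ u)
      (mul_ne_zero (inv_ne_zero hμ0) hd) hsim
    apply frame_image hq hf₂ hlam hnorm horth
    rw [hsim, hν, one_mul, hnorm]
  have hTS : ∀ g ∈ tensorProductSubgroup n₁ 3 e P ⊓ spGL m F, ∀ x, S x →
      S ((g : Matrix (Fin m ⊕ Fin m) (Fin m ⊕ Fin m) F) *ᵥ x) := by
    rintro g ⟨hgT, hgU⟩ x ⟨v, i, rfl⟩
    obtain ⟨g₀, ⟨α, β, hg₀⟩, rfl⟩ := (mem_tensor e P g).mp hgT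
    have hiso : ∀ p q u z, f₁ ((α : Matrix (Fin n₁) (Fin n₁) F) *ᵥ p) ((α : Matrix (Fin n₁) (Fin n₁) F) *ᵥ q) *
        f₂ ((β : Matrix (Fin 3) (Fin 3) F) *ᵥ u) ((β : Matrix (Fin 3) (Fin 3) F) *ᵥ z) = f₁ p q * f₂ u z := by
      intro p q u z
      have h4 : sympForm m F (((PhiT e P g₀ : Matrix.GeneralLinearGroup (Fin m ⊕ Fin m) F) : Matrix (Fin m ⊕ Fin m) (Fin m ⊕ Fin m) F) *ᵥ tau e P p u)
        (((PhiT e P g₀ : Matrix.GeneralLinearGroup (Fin m ⊕ Fin m) F) : Matrix (Fin m ⊕ Fin m) (Fin m ⊕ Fin m) F) *ᵥ tau e P q z) =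
          sympForm m F (tau e P p u) (tau e P q z) := hgU _ _
      rw [PhiT_tau e P hg₀, PhiT_tau e P hg₀, star, star] at h4
      have h5 : c * (f₁ ((α : Matrix (Fin n₁) (Fin n₁) F) *ᵥ p) ((α : Matrix (Fin n₁) (Fin n₁) F) *ᵥ q) *
        f₂ ((β : Matrix (Fin 3) (Fin 3) F) *ᵥ u) ((β : Matrix (Fin 3) (Fin 3) F) *ᵥ z)) = c * (f₁ p q * f₂ u z) := by
        linear_combination h4
      exact mul_left_cancel₀ hc h5
    obtain ⟨s, j, hs⟩ := hfr _ _ hiso i
    refine ⟨s • ((α : Matrix (Fin n₁) (Fin n₁) F) *ᵥ v), j, ?_⟩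
    rw [PhiT_tau e P hg₀, hs, tau_smul_left, tau_smul_right]
  have hfn : ∀ g ∈ tensorProductSubgroup n₁ 3 e P ⊓ spGL m F, g ∈ fnStab S := by
    intro g hg x
    refine propext ⟨fun h => ?_, hTS g hg x⟩
    have h4 := hTS g⁻¹ (inv_mem hg) _ h
    rwa [Matrix.mulVec_mulVec, ← Units.val_mul, inv_mul_cancel, Units.val_one, Matrix.one_mulVec] at h4
  have hF0 : ∀ (i : Fin 3), f₂ (a i) (a i) = lam := hnorm
  let K : Subgroup (Matrix.GeneralLinearGroup (Fin m ⊕ Fin m) F) := spGL m F ⊓ fnStab S
  have h01 : (0 : Fin 3) ≠ 1 := by decide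
  have hlink : ∀ i j : Fin 3, (i ≠ j) → f₂ (a i) (a j) = 0 := horth
  refine ⟨K, ?_, ?_⟩
  · rw [SetLike.lt_iff_le_and_exists]
    constructor
    · rintro g ⟨hgT, hgU⟩
      exact ⟨hgU, hfn g ⟨hgT, hgU⟩⟩
    · set v₁ := tau e P p₀ (a 0) with hv₁
      refine ⟨tvG v₁, ⟨tvG_mem _, ?_⟩, ?_⟩
      · have hstep : ∀ x, S x → S (((tvG v₁ : Matrix.GeneralLinearGroup (Fin m ⊕ Fin m) F) : Matrix (Fin m ⊕ Fin m) (Fin m ⊕ Fin m) F) *ᵥ x) := by
          rintro x ⟨v, i, rfl⟩
          by_cases hi : i = 0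
          · subst hi
            refine ⟨v + (c * f₁ v p₀ * lam) • p₀, 0, ?_⟩
            rw [tvG_mulVec, hv₁, star, hnorm, tau_add_left, tau_smul_left]
          · refine ⟨v, i, ?_⟩
            rw [tvG_mulVec, hv₁, star, horth i 0 hi]
            simp
        intro x
        refine propext ⟨fun h => ?_, hstep x⟩
        have h4 := hstep _ (hstep _ h)
        rwa [tv_cube h3] at h4
      · rintro ⟨hgT, -⟩
        obtain ⟨g₀, ⟨α, β, hg₀⟩, hg⟩ := (mem_tensor e P _).mp hgT
        have key : ∀ p q u z, c * f₁ ((α : Matrix (Fin n₁) (Fin n₁) F) *ᵥ p) q * f₂ ((β : Matrix (Fin 3) (Fin 3) F) *ᵥ u) z =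
            c * f₁ p q * f₂ u z + (c * f₁ p p₀ * f₂ u (a 0)) * (c * f₁ p₀ q * f₂ (a 0) z) := by
          intro p q u z
          have h4 : ((PhiT e P g₀ : Matrix.GeneralLinearGroup (Fin m ⊕ Fin m) F) : Matrix (Fin m ⊕ Fin m) (Fin m ⊕ Fin m) F) *ᵥ tau e P p u =
              tau e P p u + sympForm m F (tau e P p u) v₁ • v₁ := by
            rw [hg, tvG_mulVec]
          rw [PhiT_tau e P hg₀] at h4
          rw [← star, h4, symp_add_left, symp_smul_left, hv₁, star, star, star]
        have k1 : ∀ p q, f₁ ((α : Matrix (Fin n₁) (Fin n₁) F) *ᵥ p) q * f₂ ((β : Matrix (Fin 3) (Fin 3) F) *ᵥ a 1) (a 1) = f₁ p q * lam := by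
          intro p q
          have h4 := key p q (a 1) (a 1)
          rw [hnorm, horth 1 0 (by decide)] at h4
          have h5 : c * (f₁ ((α : Matrix (Fin n₁) (Fin n₁) F) *ᵥ p) q * f₂ ((β : Matrix (Fin 3) (Fin 3) F) *ᵥ a 1) (a 1)) = c * (f₁ p q * lam) := by
            linear_combination h4
          exact mul_left_cancel₀ hc h5
        have k2 : ∀ p q, f₁ ((α : Matrix (Fin n₁) (Fin n₁) F) *ᵥ p) q * f₂ ((β : Matrix (Fin 3) (Fin 3) F) *ᵥ a 0) (a 0) =
            f₁ p q * lam + c * lam * lam * f₁ p p₀ * f₁ p₀ q := by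
          intro p q
          have h4 := key p q (a 0) (a 0)
          rw [hnorm] at h4
          have h5 : c * (f₁ ((α : Matrix (Fin n₁) (Fin n₁) F) *ᵥ p) q * f₂ ((β : Matrix (Fin 3) (Fin 3) F) *ᵥ a 0) (a 0)) =
              c * (f₁ p q * lam + c * lam * lam * f₁ p p₀ * f₁ p₀ q) := by
            linear_combination h4
          exact mul_left_cancel₀ hc h5
        set κ' := f₂ ((β : Matrix (Fin 3) (Fin 3) F) *ᵥ a 1) (a 1) with hκ
        set lam' := f₂ ((β : Matrix (Fin 3) (Fin 3) F) *ᵥ a 0) (a 0) with hlam'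
        have hκ0 : κ' ≠ 0 := by
          intro h
          have h4 := k1 p₁ p₀
          rw [h, mul_zero] at h4
          exact (mul_ne_zero hd hlam) h4.symm
        have k3 : ∀ p q, lam' * (f₁ p q * lam) = κ' * (f₁ p q * lam + c * lam * lam * f₁ p p₀ * f₁ p₀ q) := by
          intro p q
          have h4 := k1 p q
          have h5 := k2 p q
          linear_combination (-lam') * h4 + κ' * h5
        have k4 : lam' = κ' := by
          have h4 := k3 p₁ p₀
          rw [hf₁.alternating p₀] at h4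
          have h5 : lam' * (f₁ p₁ p₀ * lam) = κ' * (f₁ p₁ p₀ * lam) := by linear_combination h4
          exact mul_right_cancel₀ (mul_ne_zero hd hlam) h5
        have h4 := k3 p₁ p₁
        rw [k4] at h4
        have h5 : κ' * (c * lam * lam * f₁ p₁ p₀ * f₁ p₀ p₁) = 0 := by linear_combination -h4
        exact (mul_ne_zero hκ0 (mul_ne_zero (mul_ne_zero (mul_ne_zero (mul_ne_zero hc hlam) hlam) hd) hd')) h5
  · rw [SetLike.lt_iff_le_and_exists]
    set v₂ := tau e P p₀ (a 0 + a 1) with hv₂
    refine ⟨inf_le_left, tvG v₂, tvG_mem _, ?_⟩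
    rintro ⟨-, hfnS⟩
    have hS := hfnS (tau e P p₁ (a 0))
    have hS2 : S (((tvG v₂ : Matrix.GeneralLinearGroup (Fin m ⊕ Fin m) F) : Matrix (Fin m ⊕ Fin m) (Fin m ⊕ Fin m) F) *ᵥ tau e P p₁ (a 0)) := by
      rw [hS]
      exact ⟨p₁, 0, rfl⟩
    obtain ⟨v, i, hv⟩ := hS2
    have h00 : f₂ (a 0) (a 0 + a 1) = lam := by
      rw [hb₂.add_right, hnorm, horth 0 1 h01, add_zero]
    by_cases hi : i = 1
    · subst hi
      have h4 := congrArg (fun y => sympForm m F y (tau e P p₀ (a 0))) hv
      rw [tvG_mulVec, symp_add_left, symp_smul_left, hv₂, star, star, star, star, hf₁.alternating p₀,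
        horth 1 0 (by decide), hnorm 0] at h4
      have h5 : c * (f₁ p₁ p₀ * lam) = 0 := by linear_combination h4
      exact (mul_ne_zero hc (mul_ne_zero hd hlam)) h5
    · have h4 := congrArg (fun y => sympForm m F y (tau e P p₁ (a 1))) hv
      rw [tvG_mulVec, symp_add_left, symp_smul_left, hv₂, star, star, star, star, horth 0 1 h01, horth i 1 hi,
        hb₂.add_left, horth 0 1 h01, hnorm, h00] at h4
      have h5 : (c * (f₁ p₁ p₀ * lam)) * (c * (f₁ p₀ p₁ * lam)) = 0 := by linear_combination h4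
      exact (mul_ne_zero (mul_ne_zero hc (mul_ne_zero hd hlam)) (mul_ne_zero hc (mul_ne_zero hd' hlam))) h5

end CfsgLib.ClassMax.TensorK
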