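import Cfsg.Agent.Lib.ClassMax.TensorForm
import Cfsg.Agent.Lib.ClassMax.DecompU

/-! Stabilisers of tensor decompositions `2 ⊗ m` in `SU_{2m}(2)` are not maximal. -/

set_option autoImplicit false
set_option linter.unusedSimpArgs false
set_option linter.unusedVariables false
set_option linter.unusedSectionVars false
set_option linter.style.haveILetI false

namespace CfsgLib.ClassMax.TensorK

open Matrix Cfsg Cfsg.Geo CfsgLib.ClassMax.Decomp
open scoped Kronecker

variable {F : Type*} [Field F] [Fintype F]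

theorem star_gen {ι : Type} [Fintype ι] [DecidableEq ι] {n₁ n₂ : ℕ} (σ : F → F) (hσ : ∀ a b, σ (a * b) = σ a * σ b)
    {f : (ι → F) → (ι → F) → F} {f₁ : (Fin n₁ → F) → (Fin n₁ → F) → F} {f₂ : (Fin n₂ → F) → (Fin n₂ → F) → F}
    (e : ι ≃ Fin n₁ × Fin n₂) (P : Matrix.GeneralLinearGroup ι F)
    (hal₁ : ∀ x y v, f₁ (x + y) v = f₁ x v + f₁ y v) (hsl₁ : ∀ (c : F) (x v : Fin n₁ → F), f₁ (c • x) v = c * f₁ x v)
    (har₁ : ∀ v x y, f₁ v (x + y) = f₁ v x + f₁ v y) (hsr₁ : ∀ (c : F) (v x : Fin n₁ → F), f₁ v (c • x) = σ c * f₁ v x)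
    (hal₂ : ∀ x y v, f₂ (x + y) v = f₂ x v + f₂ y v) (hsl₂ : ∀ (c : F) (x v : Fin n₂ → F), f₂ (c • x) v = c * f₂ x v)
    (har₂ : ∀ v x y, f₂ v (x + y) = f₂ v x + f₂ v y) (hsr₂ : ∀ (c : F) (v x : Fin n₂ → F), f₂ v (c • x) = σ c * f₂ v x)
    (hT : IsTensorFormStructure σ f f₁ f₂ e P) :
    ∃ c : F, c ≠ 0 ∧ ∀ p q u z, f (tau e P p u) (tau e P q z) = c * f₁ p q * f₂ u z := by
  obtain ⟨c, hc, h⟩ := hT
  refine ⟨c, hc, fun p q u z => ?_⟩
  unfold tau
  rw [h, formOfGram_pure σ hσ, ← gram_expand σ f₁ hal₁ hsl₁ har₁ hsr₁, ← gram_expand σ f₂ hal₂ hsl₂ har₂ hsr₂, mul_assoc]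

section Form

variable {κ : Type} [Fintype κ] [DecidableEq κ] {f : (κ → F) → (κ → F) → F}

theorem sq_add_f4 (hF : Fintype.card F = 4) (x y : F) : (x + y) ^ 2 = x ^ 2 + y ^ 2 := by
  linear_combination (x * y) * f4_two hF

theorem uf_add_right (hF : Fintype.card F = 4) (hf : IsUnitaryFormPow 2 f) (v x y : κ → F) :
    f v (x + y) = f v x + f v y := by
  rw [hf.herm v (x + y), hf.add_left, sq_add_f4 hF, ← hf.herm, ← hf.herm]

theorem uf_smul_right (hf : IsUnitaryFormPow 2 f) (c : F) (v x : κ → F) : f v (c • x) = c ^ 2 * f v x := by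
  rw [hf.herm v (c • x), hf.smul_left, mul_pow, ← hf.herm]

theorem uf_zero_left (hf : IsUnitaryFormPow 2 f) (v : κ → F) : f 0 v = 0 := by
  have := hf.smul_left 0 0 v
  simpa using this

theorem uf_zero_right (hf : IsUnitaryFormPow 2 f) (v : κ → F) : f v 0 = 0 := by
  rw [hf.herm, uf_zero_left hf]
  simp

theorem uf_fix (hF : Fintype.card F = 4) (hf : IsUnitaryFormPow 2 f) (y : κ → F) (hy : f y y ≠ 0) : f y y = 1 :=
  (f4_fix hF (hf.herm y y).symm).resolve_left hy

theorem uf_frame (hF : Fintype.card F = 4) (hf : IsUnitaryFormPow 2 f) (hκ : Fintype.card κ = 2) :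
    ∃ a b : κ → F, f a a = 1 ∧ f b b = 1 ∧ f a b = 0 ∧ ∀ y, y = f y a • a + f y b • b := by
  have h2 := f4_two hF
  have hfr : Module.finrank F (κ → F) = 2 := by rw [Module.finrank_fintype_fun_eq_card, hκ]
  obtain ⟨i₀⟩ : Nonempty κ := by
    apply Fintype.card_pos_iff.mp
    omega
  have hne : ∃ y : κ → F, y ≠ 0 := ⟨Pi.single i₀ 1, by
    intro h
    have := congrFun h i₀
    simp at this⟩
  obtain ⟨a, haa⟩ : ∃ a : κ → F, f a a ≠ 0 := by
    by_contra hno
    push Not at hno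
    obtain ⟨y, hy0⟩ := hne
    obtain ⟨⟨x, hxy⟩, -⟩ := hf.nondegenerate y hy0
    obtain ⟨c, hc0, hcr⟩ := f4_exists_ne hF (f x y)
    have h3 := hno (x + c • y)
    rw [hf.add_left, uf_add_right hF hf, uf_add_right hF hf, hf.smul_left, uf_smul_right hf, uf_smul_right hf,
      hf.smul_left, hno x, hno y, hf.herm y x] at h3
    have h4 : c * f x y * (c + f x y) = 0 := by
      have : f y x = (f x y) ^ 2 := hf.herm y x
      linear_combination h3
    rcases mul_eq_zero.mp h4 with h5 | h5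
    · rcases mul_eq_zero.mp h5 with h6 | h6
      · exact hc0 h6
      · exact hxy h6
    · apply hcr
      linear_combination h5 - (f x y) * h2
  have haa1 := uf_fix hF hf a haa
  have ha0 : a ≠ 0 := by
    rintro rfl
    exact haa (uf_zero_left hf 0)
  obtain ⟨z, hz⟩ : ∃ z : κ → F, z ∉ Submodule.span F {a} := by
    by_contra hno
    push Not at hno
    have h3 : Submodule.span F {a} = ⊤ := (Submodule.eq_top_iff').mpr hno
    have h4 := finrank_span_singleton (K := F) (v := a) ha0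
    rw [h3, finrank_top, hfr] at h4
    omega
  set b := z + f z a • a with hb
  have hb0 : b ≠ 0 := by
    intro h
    apply hz
    have h3 : z = f z a • a := by
      have h4 : z + f z a • a + f z a • a = f z a • a := by rw [← hb, h, zero_add]
      have h5 : f z a • a + f z a • a = 0 := by
        rw [← add_smul]
        have : f z a + f z a = 0 := by linear_combination (f z a) * h2
        rw [this, zero_smul]
      rw [add_assoc, h5, add_zero] at h4
      exact h4
    rw [h3]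
    exact Submodule.smul_mem _ _ (Submodule.mem_span_singleton_self a)
  have hba : f b a = 0 := by
    rw [hb, hf.add_left, hf.smul_left, haa1]
    linear_combination (f z a) * h2
  have hab : f a b = 0 := by
    rw [hf.herm a b, hba]
    simp
  have hind : LinearIndependent F ![a, b] := by
    rw [LinearIndependent.pair_iff]
    intro s r hsr
    have h3 := congrArg (fun u => f u a) hsr
    simp only [hf.add_left, hf.smul_left, hba, haa1, uf_zero_left hf] at h3
    have hs : s = 0 := by simpa using h3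
    refine ⟨hs, ?_⟩
    rw [hs, zero_smul, zero_add] at hsr
    exact (smul_eq_zero.mp hsr).resolve_right hb0
  have hfr2 := finrank_span_eq_card hind
  have heq : Submodule.span F (Set.range ![a, b]) = ⊤ := Submodule.eq_top_of_finrank_eq (by
    rw [hfr2, hfr]
    simp)
  have hmem : ∀ y : κ → F, ∃ α β : F, y = α • a + β • b := by
    intro y
    have hy : y ∈ Submodule.span F (Set.range ![a, b]) := by rw [heq]; trivial
    have hx2 : y ∈ Submodule.span F ({a, b} : Set (κ → F)) := by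
      convert hy using 2
      simp [Matrix.range_cons, Set.pair_comm, Set.union_comm]
    obtain ⟨α, β, h⟩ := Submodule.mem_span_pair.mp hx2
    exact ⟨α, β, h.symm⟩
  have hbb : f b b ≠ 0 := by
    intro hbb
    obtain ⟨⟨x, hxb⟩, -⟩ := hf.nondegenerate b hb0
    obtain ⟨α, β, rfl⟩ := hmem x
    apply hxb
    rw [hf.add_left, hf.smul_left, hf.smul_left, hab, hbb]
    ring
  have hbb1 := uf_fix hF hf b hbb
  refine ⟨a, b, haa1, hbb1, hab, ?_⟩
  intro y
  obtain ⟨α, β, rfl⟩ := hmem y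
  have e1 : f (α • a + β • b) a = α := by
    rw [hf.add_left, hf.smul_left, hf.smul_left, haa1, hba]
    ring
  have e2 : f (α • a + β • b) b = β := by
    rw [hf.add_left, hf.smul_left, hf.smul_left, hbb1, hab]
    ring
  rw [e1, e2]

theorem uf_isotropic (hF : Fintype.card F = 4) (hf : IsUnitaryFormPow 2 f) (i j : κ) (hij : i ≠ j) :
    ∃ w : κ → F, w ≠ 0 ∧ f w w = 0 := by
  have h2 := f4_two hF
  set e0 : κ → F := Pi.single i 1 with he0
  set e1 : κ → F := Pi.single j 1 with he1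
  by_cases h0 : f e0 e0 = 0
  · refine ⟨e0, ?_, h0⟩
    intro h
    have := congrFun h i
    simp [he0] at this
  have h01 := uf_fix hF hf e0 h0
  set u := e1 + f e1 e0 • e0 with hu
  have hu0 : u ≠ 0 := by
    intro h
    have := congrFun h j
    simp [hu, he0, he1, Pi.single_apply, hij.symm] at this
  have hue : f u e0 = 0 := by
    rw [hu, hf.add_left, hf.smul_left, h01]
    linear_combination (f e1 e0) * h2
  by_cases h1 : f u u = 0
  · exact ⟨u, hu0, h1⟩
  have h11 := uf_fix hF hf u h1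
  refine ⟨u + e0, ?_, ?_⟩
  · intro h
    have := congrFun h j
    simp [hu, he0, he1, Pi.single_apply, hij.symm] at this
  · rw [hf.add_left, uf_add_right hF hf u u e0, uf_add_right hF hf e0 u e0, h11, hue, hf.herm e0 u, hue, h01]
    linear_combination h2

end Form

variable {n n₂ : ℕ}

local notation "hh" => hermForm n F 2

theorem uT_invol (hF : Fintype.card F = 4) (w : Fin n → F) (hw : hh w w = 0) (x : Fin n → F) :
    ((uT w hw : Matrix.GeneralLinearGroup (Fin n) F) : Matrix (Fin n) (Fin n) F) *ᵥ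
      (((uT w hw : Matrix.GeneralLinearGroup (Fin n) F) : Matrix (Fin n) (Fin n) F) *ᵥ x) = x := by
  have h2 := f4_two hF
  rw [uT_mulVec, uT_mulVec, hh_add_left, hh_smul_left, hw, mul_zero, add_zero, add_assoc, ← add_smul]
  have : hh x w + hh x w = 0 := by linear_combination (hh x w) * h2
  rw [this, zero_smul, add_zero]

theorem tensorU_main (hF : Fintype.card F = 4) (hn : 13 ≤ n) (e : Fin n ≃ Fin 2 × Fin n₂)
    (P : Matrix.GeneralLinearGroup (Fin n) F) (f₁ : (Fin 2 → F) → (Fin 2 → F) → F)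
    (f₂ : (Fin n₂ → F) → (Fin n₂ → F) → F) (hf₁ : IsUnitaryFormPow 2 f₁) (hf₂ : IsUnitaryFormPow 2 f₂)
    (hT : IsTensorFormStructure (fun x : F => x ^ 2) (hermForm n F 2) f₁ f₂ e P) :
    ∃ K : Subgroup (Matrix.GeneralLinearGroup (Fin n) F),
      tensorProductSubgroup 2 n₂ e P ⊓ (GU n F 2 ⊓ specialLinear (Fin n) F) < K ∧
        K < (GU n F 2 ⊓ specialLinear (Fin n) F) := by
  classical
  have h2 := f4_two hF
  have hcard : n = 2 * n₂ := by
    have := Fintype.card_congr e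
    simpa using this
  have hn2 : 2 ≤ n₂ := by omega
  let i₀ : Fin n₂ := ⟨0, by omega⟩
  let i₁ : Fin n₂ := ⟨1, by omega⟩
  have h01 : i₀ ≠ i₁ := by simp [i₀, i₁, Fin.ext_iff]
  obtain ⟨c, hc, star⟩ := star_gen (fun x : F => x ^ 2) (fun a b => mul_pow a b 2) e P
    hf₁.add_left hf₁.smul_left (uf_add_right hF hf₁) (fun c v x => uf_smul_right hf₁ c v x)
    hf₂.add_left hf₂.smul_left (uf_add_right hF hf₂) (fun c v x => uf_smul_right hf₂ c v x) hT
  obtain ⟨a, b, haa, hbb, hab, hexp⟩ := uf_frame hF hf₁ (by simp)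
  have hba : f₁ b a = 0 := by
    rw [hf₁.herm, hab]
    simp
  obtain ⟨w, hw0, hww⟩ := uf_isotropic hF hf₂ i₀ i₁ h01
  obtain ⟨⟨u₀, hu₀⟩, -⟩ := hf₂.nondegenerate w hw0
  have hwu₀ : f₂ w u₀ ≠ 0 := by
    rw [hf₂.herm]
    exact pow_ne_zero _ hu₀
  let S : (Fin n → F) → Prop := fun x => ∃ v, x = tau e P a v ∨ x = tau e P b v
  -- the action of the tensor part on the frame
  have hfr : ∀ α : Matrix (Fin 2) (Fin 2) F, ∀ β : Matrix (Fin n₂) (Fin n₂) F,
      (∀ p q u z, f₁ (α *ᵥ p) (α *ᵥ q) * f₂ (β *ᵥ u) (β *ᵥ z) = f₁ p q * f₂ u z) →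
      ∀ p, f₁ p p ≠ 0 → ∃ μ : F, α *ᵥ p = μ • a ∨ α *ᵥ p = μ • b := by
    intro α β hiso p hp
    have h3 : f₁ (α *ᵥ p) (α *ᵥ p) ≠ 0 := by
      intro h
      have h4 := hiso p p u₀ w
      rw [h, zero_mul] at h4
      exact (mul_ne_zero hp hu₀) h4.symm
    obtain ⟨s, t, hst⟩ : ∃ s t : F, α *ᵥ p = s • a + t • b := ⟨_, _, hexp _⟩
    rw [hst] at h3 ⊢
    have h4 : f₁ (s • a + t • b) (s • a + t • b) = s ^ 3 + t ^ 3 := by
      simp only [hf₁.add_left, uf_add_right hF hf₁, hf₁.smul_left, uf_smul_right hf₁, haa, hbb, hab, hba]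
      ring
    rw [h4] at h3
    by_cases hs : s = 0
    · refine ⟨t, Or.inr ?_⟩
      rw [hs, zero_smul, zero_add]
    by_cases ht : t = 0
    · refine ⟨s, Or.inl ?_⟩
      rw [ht, zero_smul, add_zero]
    · exfalso
      apply h3
      rw [f4_cube hF s hs, f4_cube hF t ht]
      linear_combination h2
  have hTS : ∀ g ∈ tensorProductSubgroup 2 n₂ e P ⊓ GU n F 2, ∀ x, S x →
      S ((g : Matrix (Fin n) (Fin n) F) *ᵥ x) := by
    rintro g ⟨hgT, hgU⟩ x ⟨v, hv⟩
    obtain ⟨g₀, ⟨α, β, hg₀⟩, rfl⟩ := (mem_tensor e P g).mp hgT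
    have hiso : ∀ p q u z, f₁ ((α : Matrix (Fin 2) (Fin 2) F) *ᵥ p) ((α : Matrix (Fin 2) (Fin 2) F) *ᵥ q) *
        f₂ ((β : Matrix (Fin n₂) (Fin n₂) F) *ᵥ u) ((β : Matrix (Fin n₂) (Fin n₂) F) *ᵥ z) = f₁ p q * f₂ u z := by
      intro p q u z
      have h3 : hh (((PhiT e P g₀ : Matrix.GeneralLinearGroup (Fin n) F) : Matrix (Fin n) (Fin n) F) *ᵥ tau e P p u)
        (((PhiT e P g₀ : Matrix.GeneralLinearGroup (Fin n) F) : Matrix (Fin n) (Fin n) F) *ᵥ tau e P q z) =
          hh (tau e P p u) (tau e P q z) := hgU _ _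
      rw [PhiT_tau e P hg₀, PhiT_tau e P hg₀, star, star] at h3
      have h4 : c * (f₁ ((α : Matrix (Fin 2) (Fin 2) F) *ᵥ p) ((α : Matrix (Fin 2) (Fin 2) F) *ᵥ q) *
        f₂ ((β : Matrix (Fin n₂) (Fin n₂) F) *ᵥ u) ((β : Matrix (Fin n₂) (Fin n₂) F) *ᵥ z)) = c * (f₁ p q * f₂ u z) := by
        linear_combination h3
      exact mul_left_cancel₀ hc h4
    have hgo : ∀ p, f₁ p p ≠ 0 → ∀ v, S (tau e P ((α : Matrix (Fin 2) (Fin 2) F) *ᵥ p) ((β : Matrix (Fin n₂) (Fin n₂) F) *ᵥ v)) := by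
      intro p hp v
      obtain ⟨μ, hμ | hμ⟩ := hfr _ _ hiso p hp
      · refine ⟨μ • ((β : Matrix (Fin n₂) (Fin n₂) F) *ᵥ v), Or.inl ?_⟩
        rw [hμ, tau_smul_left, tau_smul_right]
      · refine ⟨μ • ((β : Matrix (Fin n₂) (Fin n₂) F) *ᵥ v), Or.inr ?_⟩
        rw [hμ, tau_smul_left, tau_smul_right]
    rcases hv with rfl | rfl
    · rw [PhiT_tau e P hg₀]
      exact hgo a (by rw [haa]; exact one_ne_zero) v
    · rw [PhiT_tau e P hg₀]
      exact hgo b (by rw [hbb]; exact one_ne_zero) v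
  have hfn : ∀ g ∈ tensorProductSubgroup 2 n₂ e P ⊓ GU n F 2, g ∈ fnStab S := by
    intro g hg x
    refine propext ⟨fun h => ?_, hTS g hg x⟩
    have h3 := hTS g⁻¹ (inv_mem hg) _ h
    rwa [Matrix.mulVec_mulVec, ← Units.val_mul, inv_mul_cancel, Units.val_one, Matrix.one_mulVec] at h3
  have hwa : hh (tau e P a w) (tau e P a w) = 0 := by
    rw [star, hww, mul_zero]
  have hwab : hh (tau e P (a + b) w) (tau e P (a + b) w) = 0 := by
    rw [star, hww, mul_zero]
  let K : Subgroup (Matrix.GeneralLinearGroup (Fin n) F) := (GU n F 2 ⊓ specialLinear (Fin n) F) ⊓ fnStab S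
  refine ⟨K, ?_, ?_⟩
  · rw [SetLike.lt_iff_le_and_exists]
    constructor
    · rintro g ⟨hgT, hgU⟩
      exact ⟨hgU, hfn g ⟨hgT, hgU.1⟩⟩
    · refine ⟨uT _ hwa, ⟨⟨uT_GU hF _ _, uT_SL _ _⟩, ?_⟩, ?_⟩
      · have hstep : ∀ x, S x → S (((uT _ hwa : Matrix.GeneralLinearGroup (Fin n) F) : Matrix (Fin n) (Fin n) F) *ᵥ x) := by
          rintro x ⟨v, rfl | rfl⟩
          · refine ⟨v + (c * f₁ a a * f₂ v w) • w, Or.inl ?_⟩
            rw [uT_mulVec, star, tau_add_right, tau_smul_right]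
          · refine ⟨v, Or.inr ?_⟩
            rw [uT_mulVec, star, hba]
            simp
        intro x
        refine propext ⟨fun h => ?_, hstep x⟩
        have h3 := hstep _ h
        rwa [uT_invol hF] at h3
      · rintro ⟨hgT, -⟩
        obtain ⟨g₀, ⟨α, β, hg₀⟩, hg⟩ := (mem_tensor e P _).mp hgT
        have key : ∀ p q u z, c * f₁ ((α : Matrix (Fin 2) (Fin 2) F) *ᵥ p) q * f₂ ((β : Matrix (Fin n₂) (Fin n₂) F) *ᵥ u) z =
            c * f₁ p q * f₂ u z + (c * f₁ p a * f₂ u w) * (c * f₁ a q * f₂ w z) := by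
          intro p q u z
          have h3 : ((PhiT e P g₀ : Matrix.GeneralLinearGroup (Fin n) F) : Matrix (Fin n) (Fin n) F) *ᵥ tau e P p u =
              tau e P p u + hh (tau e P p u) (tau e P a w) • tau e P a w := by
            rw [hg, uT_mulVec]
          rw [PhiT_tau e P hg₀] at h3
          rw [← star, h3, hh_add_left, hh_smul_left, star, star, star]
        have k1 : ∀ u z, f₁ ((α : Matrix (Fin 2) (Fin 2) F) *ᵥ b) b * f₂ ((β : Matrix (Fin n₂) (Fin n₂) F) *ᵥ u) z = f₂ u z := by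
          intro u z
          have h3 := key b b u z
          rw [hbb, hba] at h3
          have h4 : c * (f₁ ((α : Matrix (Fin 2) (Fin 2) F) *ᵥ b) b * f₂ ((β : Matrix (Fin n₂) (Fin n₂) F) *ᵥ u) z) = c * f₂ u z := by
            linear_combination h3
          exact mul_left_cancel₀ hc h4
        have k2 : ∀ u z, f₁ ((α : Matrix (Fin 2) (Fin 2) F) *ᵥ a) a * f₂ ((β : Matrix (Fin n₂) (Fin n₂) F) *ᵥ u) z =
            f₂ u z + c * f₂ u w * f₂ w z := by
          intro u z
          have h3 := key a a u z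
          rw [haa] at h3
          have h4 : c * (f₁ ((α : Matrix (Fin 2) (Fin 2) F) *ᵥ a) a * f₂ ((β : Matrix (Fin n₂) (Fin n₂) F) *ᵥ u) z) =
              c * (f₂ u z + c * f₂ u w * f₂ w z) := by
            linear_combination h3
          exact mul_left_cancel₀ hc h4
        set κ' := f₁ ((α : Matrix (Fin 2) (Fin 2) F) *ᵥ b) b with hκ
        set lam := f₁ ((α : Matrix (Fin 2) (Fin 2) F) *ᵥ a) a with hlam
        have hκ0 : κ' ≠ 0 := by
          intro h
          have h3 := k1 u₀ w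
          rw [h, zero_mul] at h3
          exact hu₀ h3.symm
        have k3 : ∀ u z, lam * f₂ u z = κ' * (f₂ u z + c * f₂ u w * f₂ w z) := by
          intro u z
          have h3 := k1 u z
          have h4 := k2 u z
          calc lam * f₂ u z = lam * (κ' * f₂ ((β : Matrix (Fin n₂) (Fin n₂) F) *ᵥ u) z) := by rw [h3]
            _ = κ' * (lam * f₂ ((β : Matrix (Fin n₂) (Fin n₂) F) *ᵥ u) z) := by ring
            _ = _ := by rw [h4]
        have k4 : lam = κ' := by
          have h3 := k3 u₀ w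
          rw [hww] at h3
          have h4 : lam * f₂ u₀ w = κ' * f₂ u₀ w := by linear_combination h3
          exact mul_right_cancel₀ hu₀ h4
        have h3 := k3 u₀ u₀
        rw [k4] at h3
        have h4 : κ' * (c * f₂ u₀ w * f₂ w u₀) = 0 := by linear_combination -h3
        exact (mul_ne_zero hκ0 (mul_ne_zero (mul_ne_zero hc hu₀) hwu₀)) h4
  · rw [SetLike.lt_iff_le_and_exists]
    refine ⟨inf_le_left, uT _ hwab, ⟨uT_GU hF _ _, uT_SL _ _⟩, ?_⟩
    rintro ⟨-, hfnS⟩
    have hS := hfnS (tau e P a u₀)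
    have hS2 : S (((uT _ hwab : Matrix.GeneralLinearGroup (Fin n) F) : Matrix (Fin n) (Fin n) F) *ᵥ tau e P a u₀) := by
      rw [hS]
      exact ⟨u₀, Or.inl rfl⟩
    obtain ⟨v, hv | hv⟩ := hS2
    · have h3 := congrArg (fun y => hh y (tau e P b u₀)) hv
      rw [uT_mulVec, hh_add_left, hh_smul_left, star, star, star, star] at h3
      simp only [hf₁.add_left, uf_add_right hF hf₁, hab, hba, haa, hbb] at h3
      have h4 : c * (c * f₂ u₀ w * f₂ w u₀) = 0 := by linear_combination h3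
      exact (mul_ne_zero hc (mul_ne_zero (mul_ne_zero hc hu₀) hwu₀)) h4
    · have h3 := congrArg (fun y => hh y (tau e P a w)) hv
      rw [uT_mulVec, hh_add_left, hh_smul_left, star, star, star, star] at h3
      simp only [hf₁.add_left, uf_add_right hF hf₁, hab, hba, haa, hbb, hww] at h3
      have h4 : c * f₂ u₀ w = 0 := by linear_combination h3
      exact (mul_ne_zero hc hu₀) h4

end CfsgLib.ClassMax.TensorK
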